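import Cfsg.Agent.H74.AltGen
import Cfsg.Agent.H74.AltFinal

/-!
# Alternating criteria, general local setup
-/

set_option autoImplicit false
set_option linter.unusedSectionVars false
set_option linter.style.haveILetI false

namespace Cfsg.Agent.H74.AG

open MulAction
open AC (setStab mem_setStab exists_ext mem_of_perm orbs mem_orbit_of_one orbit_subset reps2 reps3
  ind_mul ind_inv ind_pow comm_cube comm_one tau4 tau4_sq tau4_apply tau3 tau3_cube tau3_apply)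
open scoped Pointwise

section act
variable {Γ Ω : Type*} [Group Γ] [Finite Γ] [MulAction Γ Ω] [FaithfulSMul Γ Ω] [Finite Ω]
  {r : ℕ} [hr : Fact r.Prime] {R : Subgroup Γ}

theorem exists_double [R.Normal] (hR : IsPGroup r R) (hlt : ∀ y : Ω, Nat.card (orbit R y) = 1 ∨ Nat.card (orbit R y) = r)
    (hr2 : r ≠ 2) (hr3 : 3 < r) (δ : Fin 4 ↪ Ω) (hXinv : ∀ g : Γ, ∀ y ∈ (Set.range δ)ᶜ, g • y ∈ (Set.range δ)ᶜ)
    (hX : ∀ y ∈ (Set.range δ)ᶜ, Nat.card (orbit R y) = r)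
    (hcard : ((Set.range δ)ᶜ).ncard = 3 * r) (hfix : ∀ g ∈ R, ∀ i, g • δ i = δ i)
    (hnc : ∀ g ∈ R, ∀ y ∈ (Set.range δ)ᶜ, (∀ z, z ∉ orbit R y → g • z = z) → g = 1)
    (hind : ∀ σ : Equiv.Perm (Fin 4), ∃ g : Γ, ∀ i, g • δ i = δ (σ i)) :
    ∃ t : Γ, (∀ y ∈ (Set.range δ)ᶜ, t • y = y) ∧ t • δ 0 = δ 3 ∧ t • δ 3 = δ 0 ∧
      t • δ 1 = δ 2 ∧ t • δ 2 = δ 1 := by
  classical
  obtain ⟨y1, hy1, y2, hy2, y3, hy3, hcov⟩ := reps3 hXinv hX hcard
  have hfpf := exists_fpf hR hlt (Set.range δ)ᶜ hX (fun g _ y hy => hXinv g y hy) hr3 hcard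
  have hfixX : ∀ g ∈ R, ∀ z, z ∉ (Set.range δ)ᶜ → g • z = z := by
    intro g hg z hz
    rw [Set.notMem_compl_iff] at hz
    obtain ⟨i, rfl⟩ := hz
    exact hfix g hg i
  have h12 : ∀ g ∈ R, g • y1 = y1 → g • y2 = y2 → g = 1 := by
    intro g hg h1 h2
    apply hnc g hg y3 hy3
    intro z hz
    by_cases hzX : z ∈ (Set.range δ)ᶜ
    · rcases hcov z hzX with h | h | h
      · exact fix_orbit hR hlt hg h1 h
      · exact fix_orbit hR hlt hg h2 h
      · exact absurd h hz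
    · exact hfixX g hg z hzX
  have h13 : ∀ g ∈ R, g • y1 = y1 → g • y3 = y3 → g = 1 := by
    intro g hg h1 h2
    apply hnc g hg y2 hy2
    intro z hz
    by_cases hzX : z ∈ (Set.range δ)ᶜ
    · rcases hcov z hzX with h | h | h
      · exact fix_orbit hR hlt hg h1 h
      · exact absurd h hz
      · exact fix_orbit hR hlt hg h2 h
    · exact hfixX g hg z hzX
  have h23 : ∀ g ∈ R, g • y2 = y2 → g • y3 = y3 → g = 1 := by
    intro g hg h1 h2
    apply hnc g hg y1 hy1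
    intro z hz
    by_cases hzX : z ∈ (Set.range δ)ᶜ
    · rcases hcov z hzX with h | h | h
      · exact absurd h hz
      · exact fix_orbit hR hlt hg h1 h
      · exact fix_orbit hR hlt hg h2 h
    · exact hfixX g hg z hzX
  have hmult := mult3 hR hlt (Set.range δ)ᶜ hy1 hy2 hy3 h12 h13 h23
  -- the set of orbits has at most three elements
  have hQ : Nat.card (orbs R (Set.range δ)ᶜ hXinv) ≤ 3 := by
    have hsub : (orbs R (Set.range δ)ᶜ hXinv : Set (Set Ω)) ⊆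
        {orbit R y1, orbit R y2, orbit R y3} := by
      rintro _ ⟨y, hy, rfl⟩
      rcases hcov y hy with h | h | h
      · left; exact orbit_eq_iff.2 h
      · right; left; exact orbit_eq_iff.2 h
      · right; right; exact orbit_eq_iff.2 h
    have h1 := Set.ncard_le_ncard hsub (Set.toFinite _)
    have h2 : ({orbit R y1, orbit R y2, orbit R y3} : Set (Set Ω)).ncard ≤ 3 := by
      refine (Set.ncard_insert_le _ _).trans ?_
      have := Set.ncard_insert_le (orbit R y2) ({orbit R y3} : Set (Set Ω))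
      rw [Set.ncard_singleton] at this
      omega
    exact h1.trans h2
  obtain ⟨a, ha⟩ := hind (Equiv.swap 0 1 * Equiv.swap 2 3)
  obtain ⟨s, hs⟩ := hind (Equiv.swap 0 1 * Equiv.swap 1 2)
  set c := a * s * a⁻¹ * s⁻¹ with hc
  set n0 := c ^ 3 with hn0
  have hφ : toPermHom Γ (orbs R (Set.range δ)ᶜ hXinv) n0 = 1 := by
    rw [hn0, hc, map_pow, map_mul, map_mul, map_mul, map_inv, map_inv]
    exact comm_cube hQ _ _
  have hcore := fun (y : Ω) (hy : y ∈ (Set.range δ)ᶜ) =>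
    core hR hlt (Set.range δ)ᶜ hXinv hfpf hmult n0 s
      (fun y hy => mem_orbit_of_one _ hXinv hφ hy) hy
  have hci := ind_mul (ind_mul (ind_mul ha hs) (ind_inv ha)) (ind_inv hs)
  have hni := ind_pow hci 3
  have hti := ind_pow (ind_mul (ind_mul (ind_mul hni hs) (ind_inv hni)) (ind_inv hs)) r
  refine ⟨(n0 * s * n0⁻¹ * s⁻¹) ^ r, fun y hy => hcore y hy, ?_⟩
  have hτr : tau4 ^ r = tau4 := by
    obtain ⟨m, hm⟩ := hr.out.odd_of_ne_two hr2
    rw [hm, pow_succ, pow_mul, tau4_sq, one_pow, one_mul]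
  have hti' : ∀ i, (n0 * s * n0⁻¹ * s⁻¹) ^ r • δ i = δ (tau4 i) := by
    intro i
    have h1 : (n0 * s * n0⁻¹ * s⁻¹) ^ r • δ i = δ ((tau4 ^ r) i) := hti i
    rw [hτr] at h1
    exact h1
  obtain ⟨e0, e3, e1, e2⟩ := tau4_apply
  refine ⟨?_, ?_, ?_, ?_⟩
  · rw [hti', e0]
  · rw [hti', e3]
  · rw [hti', e1]
  · rw [hti', e2]

theorem exists_three [R.Normal] (hR : IsPGroup r R) (hlt : ∀ y : Ω, Nat.card (orbit R y) = 1 ∨ Nat.card (orbit R y) = r)
    (hr3 : 3 < r) (δ : Fin 3 ↪ Ω) (hXinv : ∀ g : Γ, ∀ y ∈ (Set.range δ)ᶜ, g • y ∈ (Set.range δ)ᶜ)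
    (hX : ∀ y ∈ (Set.range δ)ᶜ, Nat.card (orbit R y) = r)
    (hcard : ((Set.range δ)ᶜ).ncard = 2 * r) (hfix : ∀ g ∈ R, ∀ i, g • δ i = δ i)
    (hnc : ∀ g ∈ R, ∀ y ∈ (Set.range δ)ᶜ, (∀ z, z ∉ orbit R y → g • z = z) → g = 1)
    (hind : ∀ σ : Equiv.Perm (Fin 3), ∃ g : Γ, ∀ i, g • δ i = δ (σ i)) :
    ∃ t : Γ, (∀ y ∈ (Set.range δ)ᶜ, t • y = y) ∧ ∀ i, t • δ i ≠ δ i := by
  classical
  obtain ⟨y1, hy1, y2, hy2, hcov⟩ := reps2 hXinv hX hcard
  have hfpf := exists_fpf hR hlt (Set.range δ)ᶜ hX (fun g _ y hy => hXinv g y hy)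
    (show 2 < r by omega) hcard
  have hfixX : ∀ g ∈ R, ∀ z, z ∉ (Set.range δ)ᶜ → g • z = z := by
    intro g hg z hz
    rw [Set.notMem_compl_iff] at hz
    obtain ⟨i, rfl⟩ := hz
    exact hfix g hg i
  have h1 : ∀ g ∈ R, g • y1 = y1 → g = 1 := by
    intro g hg h1
    apply hnc g hg y2 hy2
    intro z hz
    by_cases hzX : z ∈ (Set.range δ)ᶜ
    · rcases hcov z hzX with h | h
      · exact fix_orbit hR hlt hg h1 h
      · exact absurd h hz
    · exact hfixX g hg z hzX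
  have h2 : ∀ g ∈ R, g • y2 = y2 → g = 1 := by
    intro g hg h1
    apply hnc g hg y1 hy1
    intro z hz
    by_cases hzX : z ∈ (Set.range δ)ᶜ
    · rcases hcov z hzX with h | h
      · exact absurd h hz
      · exact fix_orbit hR hlt hg h1 h
    · exact hfixX g hg z hzX
  have hmult := mult3 hR hlt (Set.range δ)ᶜ hy1 hy2 hy2 (fun g hg e1 _ => h1 g hg e1)
    (fun g hg e1 _ => h1 g hg e1) (fun g hg e1 _ => h2 g hg e1)
  have hQ : Nat.card (orbs R (Set.range δ)ᶜ hXinv) ≤ 2 := by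
    have hsub : (orbs R (Set.range δ)ᶜ hXinv : Set (Set Ω)) ⊆
        {orbit R y1, orbit R y2} := by
      rintro _ ⟨y, hy, rfl⟩
      rcases hcov y hy with h | h
      · left; exact orbit_eq_iff.2 h
      · right; exact orbit_eq_iff.2 h
    have h1 := Set.ncard_le_ncard hsub (Set.toFinite _)
    have h2 := Set.ncard_insert_le (orbit R y1) ({orbit R y2} : Set (Set Ω))
    rw [Set.ncard_singleton] at h2
    exact h1.trans h2
  obtain ⟨a, ha⟩ := hind (Equiv.swap 0 1)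
  obtain ⟨s, hs⟩ := hind (Equiv.swap 0 1 * Equiv.swap 1 2)
  set n0 := a * s * a⁻¹ * s⁻¹ with hn0
  have hφ : toPermHom Γ (orbs R (Set.range δ)ᶜ hXinv) n0 = 1 := by
    rw [hn0, map_mul, map_mul, map_mul, map_inv, map_inv]
    exact comm_one hQ _ _
  have hcore := fun (y : Ω) (hy : y ∈ (Set.range δ)ᶜ) =>
    core hR hlt (Set.range δ)ᶜ hXinv hfpf hmult n0 a
      (fun y hy => mem_orbit_of_one _ hXinv hφ hy) hy
  have hni := ind_mul (ind_mul (ind_mul ha hs) (ind_inv ha)) (ind_inv hs)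
  have hti := ind_pow (ind_mul (ind_mul (ind_mul hni ha) (ind_inv hni)) (ind_inv ha)) r
  refine ⟨(n0 * a * n0⁻¹ * a⁻¹) ^ r, fun y hy => hcore y hy, ?_⟩
  have hτr : tau3 ^ r = tau3 ∨ tau3 ^ r = tau3 ^ 2 := by
    have h3 : r % 3 ≠ 0 := by
      intro h
      have := (Nat.prime_dvd_prime_iff_eq Nat.prime_three hr.out).1 (Nat.dvd_of_mod_eq_zero h)
      omega
    have h4 : tau3 ^ r = tau3 ^ (r % 3) := by
      conv_lhs => rw [← Nat.div_add_mod r 3, pow_add, pow_mul, tau3_cube, one_pow, one_mul]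
    have h5 : r % 3 = 1 ∨ r % 3 = 2 := by omega
    rcases h5 with h5 | h5
    · left; rw [h4, h5, pow_one]
    · right; rw [h4, h5]
  intro i hi
  have h1 : (n0 * a * n0⁻¹ * a⁻¹) ^ r • δ i = δ ((tau3 ^ r) i) := hti i
  rw [h1] at hi
  have hi' := δ.injective hi
  rcases hτr with h | h
  · rw [h] at hi'
    exact (tau3_apply i).1 hi'
  · rw [h] at hi'
    exact (tau3_apply i).2 hi'

theorem exists_double2 [R.Normal] (hR : IsPGroup r R) (hlt : ∀ y : Ω, Nat.card (orbit R y) = 1 ∨ Nat.card (orbit R y) = r)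
    (hr2 : r ≠ 2) (hr3 : 2 < r) (δ : Fin 4 ↪ Ω) (hXinv : ∀ g : Γ, ∀ y ∈ (Set.range δ)ᶜ, g • y ∈ (Set.range δ)ᶜ)
    (hX : ∀ y ∈ (Set.range δ)ᶜ, Nat.card (orbit R y) = r)
    (hcard : ((Set.range δ)ᶜ).ncard = 2 * r) (hfix : ∀ g ∈ R, ∀ i, g • δ i = δ i)
    (hnc : ∀ g ∈ R, ∀ y ∈ (Set.range δ)ᶜ, (∀ z, z ∉ orbit R y → g • z = z) → g = 1)
    (hind : ∀ σ : Equiv.Perm (Fin 4), ∃ g : Γ, ∀ i, g • δ i = δ (σ i)) :
    ∃ t : Γ, (∀ y ∈ (Set.range δ)ᶜ, t • y = y) ∧ t • δ 0 = δ 3 ∧ t • δ 3 = δ 0 ∧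
      t • δ 1 = δ 2 ∧ t • δ 2 = δ 1 := by
  classical
  obtain ⟨y1, hy1, y2, hy2, hcov⟩ := reps2 hXinv hX hcard
  have hfpf := exists_fpf hR hlt (Set.range δ)ᶜ hX (fun g _ y hy => hXinv g y hy)
    hr3 hcard
  have hfixX : ∀ g ∈ R, ∀ z, z ∉ (Set.range δ)ᶜ → g • z = z := by
    intro g hg z hz
    rw [Set.notMem_compl_iff] at hz
    obtain ⟨i, rfl⟩ := hz
    exact hfix g hg i
  have h1 : ∀ g ∈ R, g • y1 = y1 → g = 1 := by
    intro g hg h1
    apply hnc g hg y2 hy2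
    intro z hz
    by_cases hzX : z ∈ (Set.range δ)ᶜ
    · rcases hcov z hzX with h | h
      · exact fix_orbit hR hlt hg h1 h
      · exact absurd h hz
    · exact hfixX g hg z hzX
  have h2 : ∀ g ∈ R, g • y2 = y2 → g = 1 := by
    intro g hg h1
    apply hnc g hg y1 hy1
    intro z hz
    by_cases hzX : z ∈ (Set.range δ)ᶜ
    · rcases hcov z hzX with h | h
      · exact absurd h hz
      · exact fix_orbit hR hlt hg h1 h
    · exact hfixX g hg z hzX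
  have hmult := mult3 hR hlt (Set.range δ)ᶜ hy1 hy2 hy2 (fun g hg e1 _ => h1 g hg e1)
    (fun g hg e1 _ => h1 g hg e1) (fun g hg e1 _ => h2 g hg e1)
  have hQ : Nat.card (orbs R (Set.range δ)ᶜ hXinv) ≤ 2 := by
    have hsub : (orbs R (Set.range δ)ᶜ hXinv : Set (Set Ω)) ⊆
        {orbit R y1, orbit R y2} := by
      rintro _ ⟨y, hy, rfl⟩
      rcases hcov y hy with h | h
      · left; exact orbit_eq_iff.2 h
      · right; exact orbit_eq_iff.2 h
    have h1 := Set.ncard_le_ncard hsub (Set.toFinite _)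
    have h2 := Set.ncard_insert_le (orbit R y1) ({orbit R y2} : Set (Set Ω))
    rw [Set.ncard_singleton] at h2
    exact h1.trans h2
  obtain ⟨a, ha⟩ := hind (Equiv.swap 0 1 * Equiv.swap 2 3)
  obtain ⟨s, hs⟩ := hind (Equiv.swap 0 1 * Equiv.swap 1 2)
  set c := a * s * a⁻¹ * s⁻¹ with hc
  set n0 := c ^ 3 with hn0
  have hφ : toPermHom Γ (orbs R (Set.range δ)ᶜ hXinv) n0 = 1 := by
    rw [hn0, hc, map_pow, map_mul, map_mul, map_mul, map_inv, map_inv]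
    exact comm_cube (hQ.trans (by norm_num)) _ _
  have hcore := fun (y : Ω) (hy : y ∈ (Set.range δ)ᶜ) =>
    core hR hlt (Set.range δ)ᶜ hXinv hfpf hmult n0 s
      (fun y hy => mem_orbit_of_one _ hXinv hφ hy) hy
  have hci := ind_mul (ind_mul (ind_mul ha hs) (ind_inv ha)) (ind_inv hs)
  have hni := ind_pow hci 3
  have hti := ind_pow (ind_mul (ind_mul (ind_mul hni hs) (ind_inv hni)) (ind_inv hs)) r
  refine ⟨(n0 * s * n0⁻¹ * s⁻¹) ^ r, fun y hy => hcore y hy, ?_⟩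
  have hτr : tau4 ^ r = tau4 := by
    obtain ⟨m, hm⟩ := hr.out.odd_of_ne_two hr2
    rw [hm, pow_succ, pow_mul, tau4_sq, one_pow, one_mul]
  have hti' : ∀ i, (n0 * s * n0⁻¹ * s⁻¹) ^ r • δ i = δ (tau4 i) := by
    intro i
    have h1 : (n0 * s * n0⁻¹ * s⁻¹) ^ r • δ i = δ ((tau4 ^ r) i) := hti i
    rw [hτr] at h1
    exact h1
  obtain ⟨e0, e3, e1, e2⟩ := tau4_apply
  refine ⟨?_, ?_, ?_, ?_⟩
  · rw [hti', e0]
  · rw [hti', e3]
  · rw [hti', e1]
  · rw [hti', e2]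

end act

end Cfsg.Agent.H74.AG
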