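import Cfsg.Agent.H74.AltGen2

/-!
# Multiply transitive groups of degree `kp + r`
-/

set_option autoImplicit false
set_option linter.unusedSectionVars false
set_option linter.style.haveILetI false

namespace Cfsg.Agent.H74.AG

open MulAction
open AC (setStab mem_setStab exists_ext mem_of_perm orbs mem_orbit_of_one orbit_subset)
open scoped Pointwise

section setup
variable {G Ω : Type*} [Group G] [MulAction G Ω]
variable [Finite G] [FaithfulSMul G Ω] [Finite Ω] {r : ℕ} [hr : Fact r.Prime]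

theorem exists_setup {d : ℕ} (δ : Fin d ↪ Ω) (h : IsMultiplyPretransitive G Ω (d + 1)) {k : ℕ}
    (hk0 : 0 < k) (hcard : Nat.card Ω = k * r + d) (hkr : k < r) :
    ∃ R : Subgroup (setStab G δ), IsPGroup r R ∧
      (∀ σ : Equiv.Perm (Fin d), ∃ g ∈ Subgroup.normalizer (R : Set (setStab G δ)),
        ∀ i, g • δ i = δ (σ i)) ∧
      (∀ y, y ∉ Set.range δ → Nat.card (orbit R y) = r) ∧
      ∀ g ∈ R, ∀ i, g • δ i = δ i := by
  classical
  haveI := Fintype.ofFinite Ω
  have hrange : (Set.range δ).ncard = d := by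
    rw [Set.ncard_range_of_injective δ.injective, Nat.card_eq_fintype_card, Fintype.card_fin]
  have hcompl : ((Set.range δ)ᶜ).ncard = k * r := by
    rw [Set.ncard_compl, hrange, hcard]; omega
  let K : Subgroup (setStab G δ) :=
    { carrier := {g | ∀ i, g • δ i = δ i}
      one_mem' := fun i => one_smul _ _
      mul_mem' := fun {g h} hg hh i => by rw [mul_smul, hh i, hg i]
      inv_mem' := fun {g} hg i => by rw [inv_smul_eq_iff, hg i] }
  haveI hKn : K.Normal := by
    refine ⟨fun n hn g i => ?_⟩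
    have h1 : g⁻¹ • δ i ∈ Set.range δ := (mem_setStab.1 (g⁻¹).2 (δ i)).1 ⟨i, rfl⟩
    obtain ⟨j, hj⟩ := h1
    rw [mul_smul, mul_smul, ← hj, hn j, hj, smul_inv_smul]
  obtain ⟨P⟩ : Nonempty (Sylow r K) := inferInstance
  refine ⟨(P : Subgroup K).map K.subtype, P.2.map _, ?_, ?_, ?_⟩
  · intro σ
    obtain ⟨y, hy⟩ : ∃ y, y ∉ Set.range δ := by
      by_contra hcon
      push Not at hcon
      have h1 : Set.range δ = Set.univ := Set.eq_univ_of_forall hcon
      rw [h1, Set.ncard_univ, hcard] at hrange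
      have := Nat.mul_pos hk0 hr.out.pos
      omega
    obtain ⟨g, hg, -⟩ := exists_ext h δ (σ.toEmbedding.trans δ) (y := y) (y' := y) hy (by
      rintro ⟨i, hi⟩
      exact hy ⟨_, hi⟩)
    have hgM : g ∈ setStab G δ := mem_of_perm (σ := σ) hg
    have hfr := Sylow.normalizer_sup_eq_top P
    have h2 : (⟨g, hgM⟩ : setStab G δ) ∈
        Subgroup.normalizer (((P : Subgroup K).map K.subtype : Subgroup (setStab G δ)) :
          Set (setStab G δ)) ⊔ K := by
      rw [hfr]; exact Subgroup.mem_top _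
    obtain ⟨n, hn, k, hk, hnk⟩ := Subgroup.mem_sup_of_normal_right.1 h2
    refine ⟨n, hn, fun i => ?_⟩
    have h3 : n • k • δ i = g • δ i := by
      rw [← mul_smul]
      exact congrArg (fun s : setStab G δ => (s : G) • δ i) hnk
    rw [hk i, hg i] at h3
    exact h3
  · intro y hy
    have hRp : IsPGroup r ((P : Subgroup K).map K.subtype) := P.2.map _
    obtain ⟨n, hn⟩ := hRp.card_orbit y
    have hsub : orbit ((P : Subgroup K).map K.subtype) y ⊆ (Set.range δ)ᶜ := by
      rintro _ ⟨⟨g, hg⟩, rfl⟩ hz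
      exact hy ((mem_setStab.1 g.2 y).2 hz)
    have hle := Set.ncard_le_ncard hsub (Set.toFinite _)
    rw [hcompl, ← Nat.card_coe_set_eq, hn] at hle
    have hrpos := hr.out.pos
    rcases n with _ | _ | n
    · exfalso
      rw [pow_zero] at hn
      have h2 : (P : Subgroup K) ≤ stabilizer K y := by
        intro g hg
        exact smul_eq_of_orbit_card hn (Subgroup.mem_map_of_mem K.subtype hg)
      have h3 : (stabilizer K y).index = k * r := by
        rw [index_stabilizer]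
        have h4 : orbit K y = (Set.range δ)ᶜ := by
          ext z
          constructor
          · rintro ⟨g, rfl⟩ hz
            exact hy ((mem_setStab.1 g.1.2 y).2 hz)
          · intro hz
            obtain ⟨g, hg, hgz⟩ := exists_ext h δ δ hy hz
            have hgM : g ∈ setStab G δ := mem_of_perm (σ := 1) hg
            exact ⟨⟨⟨g, hgM⟩, hg⟩, hgz⟩
        rw [h4, hcompl]
      have h5 := Subgroup.relIndex_mul_index h2
      apply P.not_dvd_index
      rw [← h5, h3]
      exact Dvd.dvd.mul_left (Dvd.intro_left k rfl) _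
    · rw [hn, zero_add, pow_one]
    · exfalso
      have h1 : r * r ≤ r ^ (n + 1 + 1) := by
        rw [← pow_two]; exact Nat.pow_le_pow_right hr.out.pos (by omega)
      have h2 : k * r < r * r := Nat.mul_lt_mul_of_pos_right hkr hr.out.pos
      omega
  · rintro _ ⟨g, -, rfl⟩ i
    exact g.2 i

end setup

section cyc
variable {Γ Ω : Type*} [Group Γ] [Finite Γ] [MulAction Γ Ω] [FaithfulSMul Γ Ω] [Fintype Ω]
  [DecidableEq Ω] {r : ℕ} [hr : Fact r.Prime] {R : Subgroup Γ}

theorem cycle_of (hR : IsPGroup r R)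
    (hlt : ∀ y : Ω, Nat.card (orbit R y) = 1 ∨ Nat.card (orbit R y) = r) {g : Γ} (hg : g ∈ R) {y : Ω}
    (hy : Nat.card (orbit R y) = r) (hfix : ∀ z, z ∉ orbit R y → g • z = z) (hg1 : g ≠ 1) :
    (toPerm g : Equiv.Perm Ω).IsCycle ∧ (toPerm g : Equiv.Perm Ω).support.card = r := by
  obtain ⟨z, hz⟩ : ∃ z : Ω, g • z ≠ z := by
    by_contra hcon
    push Not at hcon
    apply hg1
    apply FaithfulSMul.eq_of_smul_eq_smul (M := Γ) (α := Ω)
    intro z
    rw [hcon z, one_smul]
  have hzO : z ∈ orbit R y := by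
    by_contra h
    exact hz (hfix z h)
  have hOeq : orbit R z = orbit R y := orbit_eq_iff.2 hzO
  constructor
  · refine ⟨z, hz, fun w hw => ?_⟩
    have hwO : w ∈ orbit R z := by
      rw [hOeq]
      by_contra h
      exact hw (hfix w h)
    obtain ⟨m, hm⟩ := exists_pow hR hlt hg hz hwO
    refine ⟨m, ?_⟩
    have h1 : (toPerm g : Equiv.Perm Ω) ^ m = toPerm (g ^ m) := by
      exact (map_zpow (toPermHom Γ Ω) g m).symm
    rw [h1, hm]; rfl
  · have h1 : (toPerm g : Equiv.Perm Ω).support = (Set.toFinite (orbit R y)).toFinset := by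
      ext w
      rw [Equiv.Perm.mem_support, Set.Finite.mem_toFinset]
      constructor
      · intro hw
        by_contra h
        exact hw (hfix w h)
      · intro hw hgw
        apply hz
        have h2 : z ∈ orbit R w := by
          rw [orbit_eq_iff.2 hw]; exact hzO
        exact fix_orbit hR hlt hg hgw h2
    rw [h1, ← Set.ncard_eq_toFinset_card, ← Nat.card_coe_set_eq, hy]

end cyc

section big

/-- commutators of normalizing elements centralize -/
theorem comm_commute {P : Type*} [Group P] {X A B : P} {m n : ℤ} (hA : A * X * A⁻¹ = X ^ m)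
    (hB : B * X * B⁻¹ = X ^ n) : Commute (A⁻¹ * B⁻¹ * A * B) X := by
  have h1 : (A * B) * X * (A * B)⁻¹ = X ^ (m * n) := by
    calc (A * B) * X * (A * B)⁻¹ = A * (B * X * B⁻¹) * A⁻¹ := by group
      _ = A * X ^ n * A⁻¹ := by rw [hB]
      _ = (A * X * A⁻¹) ^ n := (conj_zpow).symm
      _ = X ^ (m * n) := by rw [hA, zpow_mul]
  have h2 : (B * A) * X * (B * A)⁻¹ = X ^ (m * n) := by
    calc (B * A) * X * (B * A)⁻¹ = B * (A * X * A⁻¹) * B⁻¹ := by group
      _ = B * X ^ m * B⁻¹ := by rw [hA]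
      _ = (B * X * B⁻¹) ^ m := (conj_zpow).symm
      _ = X ^ (m * n) := by rw [hB, ← zpow_mul, mul_comm]
  have h3 : (A⁻¹ * B⁻¹ * A * B) * X * (A⁻¹ * B⁻¹ * A * B)⁻¹ = X := by
    calc (A⁻¹ * B⁻¹ * A * B) * X * (A⁻¹ * B⁻¹ * A * B)⁻¹
        = (B * A)⁻¹ * ((A * B) * X * (A * B)⁻¹) * (B * A) := by group
      _ = (B * A)⁻¹ * ((B * A) * X * (B * A)⁻¹) * (B * A) := by rw [h1, h2]
      _ = X := by group
  exact mul_inv_eq_iff_eq_mul.1 h3

/-- permutations commuting with a transitive cyclic group commute -/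
theorem commute_of_trans {O : Type*} {X C D : Equiv.Perm O} (htr : ∀ z w : O, ∃ m : ℤ, w = (X ^ m) z)
    (hC : Commute C X) (hD : Commute D X) : Commute C D := by
  have key : ∀ {C : Equiv.Perm O}, Commute C X → ∀ z : O, ∃ i : ℤ, ∀ w, C w = (X ^ i) w := by
    intro C hC z
    obtain ⟨i, hi⟩ := htr z (C z)
    refine ⟨i, fun w => ?_⟩
    obtain ⟨j, rfl⟩ := htr z w
    rw [← Equiv.Perm.mul_apply, (hC.zpow_right j).eq, Equiv.Perm.mul_apply, hi,
      ← Equiv.Perm.mul_apply, ← Equiv.Perm.mul_apply, ← zpow_add, ← zpow_add, add_comm]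
  apply Equiv.ext
  intro z
  obtain ⟨i, hi⟩ := key hC z
  obtain ⟨j, hj⟩ := key hD z
  rw [Equiv.Perm.mul_apply, Equiv.Perm.mul_apply, hi, hj, hj, hi, ← Equiv.Perm.mul_apply,
    ← Equiv.Perm.mul_apply, ← zpow_add, ← zpow_add, add_comm]

variable {Γ Ω : Type*} [Group Γ] [Finite Γ] [MulAction Γ Ω] [FaithfulSMul Γ Ω] [Finite Ω]
  {r : ℕ} [hr : Fact r.Prime] {R : Subgroup Γ}

theorem second_abs {L O : Type*} [Group L] (ψ : L →* Equiv.Perm O) (x : L) (K : Subgroup L)
    (htr : ∀ z w : O, ∃ m : ℤ, w = (ψ x ^ m) z)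
    (hconj : ∀ g ∈ K, ∃ m : ℤ, ψ g * ψ x * (ψ g)⁻¹ = ψ x ^ m) :
    ⁅⁅K, K⁆, ⁅K, K⁆⁆ ≤ ψ.ker := by
  have h1 : ⁅K, K⁆ ≤ Subgroup.comap ψ (Subgroup.centralizer {ψ x}) := by
    rw [Subgroup.commutator_le]
    intro a ha b hb
    obtain ⟨m, hm⟩ := hconj a⁻¹ (K.inv_mem ha)
    obtain ⟨n, hn⟩ := hconj b⁻¹ (K.inv_mem hb)
    have h3 := comm_commute hm hn
    rw [Subgroup.mem_comap, Subgroup.mem_centralizer_singleton_iff, commutatorElement_def,
      map_mul, map_mul, map_mul, map_inv, map_inv]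
    rw [map_inv, map_inv, inv_inv, inv_inv] at h3
    exact h3.eq
  rw [Subgroup.commutator_le]
  intro a ha b hb
  have ha' := h1 ha
  have hb' := h1 hb
  rw [Subgroup.mem_comap, Subgroup.mem_centralizer_singleton_iff] at ha' hb'
  rw [MonoidHom.mem_ker, commutatorElement_def, map_mul, map_mul, map_mul, map_inv, map_inv,
    (commute_of_trans htr ha' hb').eq]
  group

/-- the second derived group of the kernel of the action on the orbits is trivial on `X` -/
theorem second_comm [hN : R.Normal] (hR : IsPGroup r R)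
    (hlt : ∀ y : Ω, Nat.card (orbit R y) = 1 ∨ Nat.card (orbit R y) = r) (X : Set Ω)
    (hX : ∀ y ∈ X, Nat.card (orbit R y) = r) (K : Subgroup Γ)
    (hK : ∀ g ∈ K, ∀ y ∈ X, g • y ∈ orbit R y) {g : Γ} (hg : g ∈ ⁅⁅K, K⁆, ⁅K, K⁆⁆) {y : Ω}
    (hy : y ∈ X) : g • y = y := by
  classical
  -- an element of `R` moving `y`
  obtain ⟨x, hx, hxy⟩ : ∃ x ∈ R, x • y ≠ y := by
    by_contra hcon
    push Not at hcon
    have h1 : Nat.card (orbit R y) = 1 := by
      rw [Nat.card_eq_one_iff_exists]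
      refine ⟨⟨y, mem_orbit_self y⟩, ?_⟩
      rintro ⟨_, ⟨g, hg⟩, rfl⟩
      exact Subtype.ext (hcon g hg)
    rw [hX y hy] at h1
    exact hr.out.one_lt.ne' h1
  have hKs : K ≤ stabilizer Γ (orbit R y) := by
    intro g hg
    rw [mem_stabilizer_iff, smul_orbit_eq_orbit_smul]
    exact orbit_eq_iff.2 (hK g hg y hy)
  have hRs : R ≤ stabilizer Γ (orbit R y) := by
    intro g hg
    rw [mem_stabilizer_iff, smul_orbit_eq_orbit_smul]
    exact orbit_eq_iff.2 ⟨⟨g, hg⟩, rfl⟩
  have hψ : ∀ (g : stabilizer Γ (orbit R y)) (z : orbit R y),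
      ((toPermHom (stabilizer Γ (orbit R y)) (orbit R y) g z : orbit R y) : Ω) =
        (g : Γ) • (z : Ω) := fun g z => rfl
  have habs := second_abs (toPermHom (stabilizer Γ (orbit R y)) (orbit R y)) ⟨x, hRs hx⟩
    (K.subgroupOf (stabilizer Γ (orbit R y))) (by
      intro z w
      have h1 : x • (z : Ω) ≠ z := by
        intro h
        apply hxy
        have h2 : y ∈ orbit R (z : Ω) := by
          rw [orbit_eq_iff.2 z.2]; exact mem_orbit_self y
        exact fix_orbit hR hlt hx h h2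
      have h2 : (w : Ω) ∈ orbit R (z : Ω) := by
        rw [orbit_eq_iff.2 z.2]; exact w.2
      obtain ⟨m, hm⟩ := exists_pow hR hlt hx h1 h2
      refine ⟨m, Subtype.ext ?_⟩
      rw [← map_zpow, hψ]
      exact hm) (by
      intro g _
      have h1 : (g : Γ) * x * (g : Γ)⁻¹ ∈ R := hN.conj_mem x hx g
      obtain ⟨m, hm⟩ := exists_pow hR hlt hx hxy
        (⟨⟨_, h1⟩, rfl⟩ : ((g : Γ) * x * (g : Γ)⁻¹) • y ∈ orbit R y)
      refine ⟨m, ?_⟩
      rw [← map_inv, ← map_mul, ← map_mul, ← map_zpow]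
      apply Equiv.ext
      rintro ⟨z, hz⟩
      apply Subtype.ext
      rw [hψ, hψ]
      change ((g : Γ) * x * (g : Γ)⁻¹) • z = (x ^ m) • z
      obtain ⟨⟨h, hh⟩, rfl⟩ := hz
      change ((g : Γ) * x * (g : Γ)⁻¹) • h • y = (x ^ m) • h • y
      rw [← mul_smul, comm_of (Ω := Ω) hR hlt h1 hh, mul_smul, hm, ← mul_smul,
        comm_of (Ω := Ω) hR hlt hh (R.zpow_mem hx m), mul_smul])
  have h2 := Subgroup.map_mono (f := (stabilizer Γ (orbit R y)).subtype) habs
  rw [Subgroup.map_commutator, Subgroup.map_commutator, Subgroup.map_subgroupOf_eq_of_le hKs] at h2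
  obtain ⟨g', hg', rfl⟩ := h2 hg
  have h4 := hψ g' ⟨y, mem_orbit_self y⟩
  have hg'' : toPermHom (stabilizer Γ (orbit R y)) (orbit R y) g' = 1 := hg'
  rw [hg''] at h4
  exact h4.symm

/-- the orbits of the normal subgroup on `X`: their number -/
theorem card_orbs [R.Normal] {X : Set Ω} (hXinv : ∀ g : Γ, ∀ y ∈ X, g • y ∈ X)
    (hX : ∀ y ∈ X, Nat.card (orbit R y) = r) {k : ℕ} (hcard : X.ncard = k * r) :
    Nat.card (orbs R X hXinv) = k := by
  classical
  haveI := Fintype.ofFinite Ω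
  have h1 : (Set.toFinite X).toFinset.card = ∑ O ∈ (Set.toFinite (orbs R X hXinv : Set (Set Ω))).toFinset,
      ((Set.toFinite X).toFinset.filter (fun y => orbit R y = O)).card := by
    apply Finset.card_eq_sum_card_fiberwise
    intro y hy
    rw [Finset.mem_coe, Set.Finite.mem_toFinset] at hy ⊢
    exact ⟨y, hy, rfl⟩
  have h2 : ∀ O ∈ (Set.toFinite (orbs R X hXinv : Set (Set Ω))).toFinset,
      ((Set.toFinite X).toFinset.filter (fun y => orbit R y = O)).card = r := by
    intro O hO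
    rw [Set.Finite.mem_toFinset] at hO
    obtain ⟨y, hy, rfl⟩ := hO
    have h3 : (Set.toFinite X).toFinset.filter (fun z => orbit R z = orbit R y) =
        (Set.toFinite (orbit R y)).toFinset := by
      ext z
      rw [Finset.mem_filter, Set.Finite.mem_toFinset, Set.Finite.mem_toFinset, orbit_eq_iff]
      exact ⟨fun h => h.2, fun h => ⟨orbit_subset hXinv hy h, h⟩⟩
    rw [h3, ← Set.ncard_eq_toFinset_card, ← Nat.card_coe_set_eq, hX y hy]
  rw [Finset.sum_congr rfl h2, Finset.sum_const, smul_eq_mul, ← Set.ncard_eq_toFinset_card,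
    ← Set.ncard_eq_toFinset_card, hcard, ← Nat.card_coe_set_eq] at h1
  exact (Nat.eq_of_mul_eq_mul_right hr.out.pos h1).symm

/-- the large case -/
theorem exists_tri {Γ Ω : Type*} [Group Γ] [Finite Γ] [MulAction Γ Ω] [FaithfulSMul Γ Ω]
    [Fintype Ω] [DecidableEq Ω] {r : ℕ} [hr : Fact r.Prime] {R : Subgroup Γ} [hN : R.Normal]
    (hR : IsPGroup r R)
    (hlt : ∀ y : Ω, Nat.card (orbit R y) = 1 ∨ Nat.card (orbit R y) = r) {d k : ℕ} (hd : 5 ≤ d)
    (hk : 0 < k) (hkd : k < d) (δ : Fin d ↪ Ω)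
    (hXinv : ∀ g : Γ, ∀ y ∈ (Set.range δ)ᶜ, g • y ∈ (Set.range δ)ᶜ)
    (hX : ∀ y ∈ (Set.range δ)ᶜ, Nat.card (orbit R y) = r)
    (hcard : ((Set.range δ)ᶜ).ncard = k * r)
    (hind : ∀ σ : Equiv.Perm (Fin d), ∃ g : Γ, ∀ i, g • δ i = δ (σ i)) :
    ∃ t : Γ, (toPerm t : Equiv.Perm Ω).IsThreeCycle := by
  classical
  -- the action on the range
  have hinv : ∀ (g : Γ) (i : Fin d), ∃ j, g • δ i = δ j := by
    intro g i
    by_contra hcon
    push Not at hcon
    have h1 : g • δ i ∈ (Set.range δ)ᶜ := by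
      rintro ⟨j, hj⟩
      exact hcon j hj.symm
    have h2 := hXinv g⁻¹ _ h1
    rw [inv_smul_smul] at h2
    exact h2 ⟨i, rfl⟩
  choose f hf using hinv
  letI act : MulAction Γ (Fin d) :=
    { smul := f
      one_smul := fun i => by
        apply δ.injective
        change δ (f 1 i) = δ i
        rw [← hf, one_smul]
      mul_smul := fun g h i => by
        apply δ.injective
        change δ (f (g * h) i) = δ (f g (f h i))
        rw [← hf, ← hf, ← hf, mul_smul] }
  have hf' : ∀ (g : Γ) (i : Fin d), g • δ i = δ (toPermHom Γ (Fin d) g i) := hf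
  have hsurj : Function.Surjective (toPermHom Γ (Fin d)) := by
    intro σ
    obtain ⟨g, hg⟩ := hind σ
    refine ⟨g, ?_⟩
    ext i
    congr 1
    apply δ.injective
    rw [← hf', hg]
  set K : Subgroup Γ := (toPermHom Γ (orbs R (Set.range δ)ᶜ hXinv)).ker with hKdef
  have hKorb : ∀ g ∈ K, ∀ y ∈ (Set.range δ)ᶜ, g • y ∈ orbit R y :=
    fun g hg y hy => mem_orbit_of_one _ hXinv hg hy
  haveI hV : (K.map (toPermHom Γ (Fin d))).Normal := Subgroup.Normal.map inferInstance _ hsurj
  have hnt : Nontrivial (K.map (toPermHom Γ (Fin d))) := by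
    rw [Subgroup.nontrivial_iff_ne_bot]
    intro hbot
    have h1 : K ≤ (toPermHom Γ (Fin d)).ker := by
      rwa [Subgroup.map_eq_bot_iff] at hbot
    -- count
    have h2 : Nat.card (Equiv.Perm (Fin d)) ≤ Nat.card (Equiv.Perm (orbs R (Set.range δ)ᶜ hXinv)) := by
      choose s hs using hsurj
      apply Nat.card_le_card_of_injective
        (fun σ => toPermHom Γ (orbs R (Set.range δ)ᶜ hXinv) (s σ))
      intro σ τ h
      have h3 : s σ * (s τ)⁻¹ ∈ K := by
        rw [hKdef, MonoidHom.mem_ker, map_mul, map_inv]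
        change toPermHom Γ _ (s σ) = toPermHom Γ _ (s τ) at h
        rw [h, mul_inv_cancel]
      have h4 := h1 h3
      rw [MonoidHom.mem_ker, map_mul, map_inv, hs, hs, mul_inv_eq_one] at h4
      exact h4
    rw [Nat.card_perm, Nat.card_perm, card_orbs hXinv hX hcard, Nat.card_eq_fintype_card,
      Fintype.card_fin] at h2
    have h3 : k.factorial < d.factorial := (Nat.factorial_lt hk).2 hkd
    omega
  have hd5 : 5 ≤ Nat.card (Fin d) := by
    rw [Nat.card_eq_fintype_card, Fintype.card_fin]; exact hd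
  have halt := Equiv.Perm.alternatingGroup_le_of_normal hd5 hnt
  have hself := commutator_alternatingGroup_eq_self (α := Fin d) hd5
  have h1 : alternatingGroup (Fin d) ≤ (⁅⁅K, K⁆, ⁅K, K⁆⁆).map (toPermHom Γ (Fin d)) := by
    rw [Subgroup.map_commutator, Subgroup.map_commutator]
    calc alternatingGroup (Fin d) = ⁅⁅alternatingGroup (Fin d), alternatingGroup (Fin d)⁆,
          ⁅alternatingGroup (Fin d), alternatingGroup (Fin d)⁆⁆ := by rw [hself, hself]
      _ ≤ _ := Subgroup.commutator_mono (Subgroup.commutator_mono halt halt)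
        (Subgroup.commutator_mono halt halt)
  let i0 : Fin d := ⟨0, by omega⟩
  let i1 : Fin d := ⟨1, by omega⟩
  let i2 : Fin d := ⟨2, by omega⟩
  have h01 : i0 ≠ i1 := by simp [i0, i1]
  have h02 : i0 ≠ i2 := by simp [i0, i2]
  have h12 : i1 ≠ i2 := by simp [i1, i2]
  have hσ : Equiv.swap i0 i1 * Equiv.swap i0 i2 ∈ alternatingGroup (Fin d) := by
    rw [Equiv.Perm.mem_alternatingGroup, Equiv.Perm.sign_mul, Equiv.Perm.sign_swap h01,
      Equiv.Perm.sign_swap h02]
    rfl
  obtain ⟨t, ht, hts⟩ := h1 hσ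
  have htX : ∀ y ∈ (Set.range δ)ᶜ, t • y = y := fun y hy =>
    second_comm hR hlt (Set.range δ)ᶜ hX K hKorb ht hy
  refine ⟨t, ?_⟩
  have htp : (toPerm t : Equiv.Perm Ω) = Equiv.swap (δ i0) (δ i1) * Equiv.swap (δ i0) (δ i2) := by
    apply Equiv.ext
    intro y
    change t • y = _
    rw [Equiv.Perm.mul_apply]
    by_cases hy : y ∈ Set.range δ
    · obtain ⟨m, rfl⟩ := hy
      rw [hf', hts, δ.injective.swap_apply, δ.injective.swap_apply]
      rfl
    · rw [htX y hy, Equiv.swap_apply_of_ne_of_ne (x := y) (fun h => hy ⟨_, h.symm⟩)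
        (fun h => hy ⟨_, h.symm⟩), Equiv.swap_apply_of_ne_of_ne (x := y)
        (fun h => hy ⟨_, h.symm⟩) (fun h => hy ⟨_, h.symm⟩)]
  rw [htp]
  exact Equiv.Perm.isThreeCycle_swap_mul_swap_same (δ.injective.ne h01) (δ.injective.ne h02)
    (δ.injective.ne h12)

end big

end Cfsg.Agent.H74.AG
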