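import Cfsg.Agent.H74.AltFinal

/-!
# 4-transitive groups of degree nine
-/

set_option autoImplicit false
set_option linter.unusedSectionVars false
set_option linter.style.haveILetI false

namespace Cfsg.Agent.H74.AN

open MulAction
open AC (setup' trans_le exists_ext)
open scoped Pointwise

variable {G Ω : Type*} [Group G] [Finite G] [MulAction G Ω] [FaithfulSMul G Ω] [Fintype Ω]
  [DecidableEq Ω]

/-- an element of prime order with small support gives a cycle -/
theorem cyc_of_small {g : G} {p : ℕ} (hp : p.Prime) (hg : orderOf g = p)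
    (hs : (toPerm g : Equiv.Perm Ω).support.card < 2 * p) :
    (toPerm g : Equiv.Perm Ω).IsCycle ∧ (toPerm g : Equiv.Perm Ω).support.card = p := by
  have h1 : orderOf (toPerm g : Equiv.Perm Ω) = p := by
    rw [← hg]
    exact orderOf_injective (toPermHom G Ω) MulAction.toPerm_injective g
  have h2 : (toPerm g : Equiv.Perm Ω).IsCycle :=
    Equiv.Perm.isCycle_of_prime_order (by rw [h1]; exact hp) (by rw [h1]; exact hs)
  exact ⟨h2, by rw [← h2.orderOf, h1]⟩

/-- the pointwise stabilizer of a tuple -/
def ptStab (G : Type*) {Ω : Type*} [Group G] [MulAction G Ω] {d : ℕ} (w : Fin d ↪ Ω) :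
    Subgroup G := stabilizer G w

theorem mem_ptStab {d : ℕ} {w : Fin d ↪ Ω} {g : G} : g ∈ ptStab G w ↔ ∀ i, g • w i = w i := by
  unfold ptStab
  rw [mem_stabilizer_iff]
  constructor
  · intro h i
    exact DFunLike.congr_fun h i
  · intro h
    ext i
    exact h i

/-- the order of a multiply transitive group -/
theorem card_eq {d : ℕ} (h : IsMultiplyPretransitive G Ω d) (w : Fin d ↪ Ω) :
    Nat.card G = (Nat.card Ω).descFactorial d * Nat.card (ptStab G w) := by
  classical
  haveI := h
  haveI := Fintype.ofFinite G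
  have h1 := card_orbit_mul_card_stabilizer_eq_card_group G w
  have h2 : orbit G w = Set.univ := orbit_eq_univ G w
  rw [← Nat.card_eq_fintype_card, ← Nat.card_eq_fintype_card, ← Nat.card_eq_fintype_card, h2,
    Nat.card_congr (Equiv.Set.univ _), Nat.card_eq_fintype_card, Fintype.card_embedding_eq,
    Fintype.card_fin, ← Nat.card_eq_fintype_card (α := Ω)] at h1
  exact h1.symm

/-- the normalizer of the pointwise stabilizer of `d` points is transitive on `d`-tuples of
fixed points -/
theorem card_norm {d : ℕ} (h : IsMultiplyPretransitive G Ω d) (w : Fin d ↪ Ω) :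
    Nat.card (Subgroup.normalizer (ptStab G w : Set G)) =
      (Nat.card (fixedPoints (ptStab G w) Ω)).descFactorial d * Nat.card (ptStab G w) := by
  classical
  haveI := h
  haveI := Fintype.ofFinite G
  set Q := ptStab G w with hQ
  set N := Subgroup.normalizer (Q : Set G) with hN
  have h1 := card_orbit_mul_card_stabilizer_eq_card_group N w
  have hfix : ∀ i, w i ∈ fixedPoints Q Ω := by
    intro i
    rintro ⟨g, hg⟩
    exact mem_ptStab.1 hg i
  have h2 : orbit N w = {v : Fin d ↪ Ω | ∀ i, v i ∈ fixedPoints Q Ω} := by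
    ext v
    constructor
    · rintro ⟨⟨n, hn⟩, rfl⟩ i
      rintro ⟨g, hg⟩
      change g • n • w i = n • w i
      have h3 : n⁻¹ * g * n ∈ Q := by
        have := (Subgroup.mem_normalizer_iff.1 (N.inv_mem hn) g).1 hg
        rwa [inv_inv] at this
      have h4 := mem_ptStab.1 h3 i
      rw [mul_smul, mul_smul, inv_smul_eq_iff] at h4
      exact h4
    · intro hv
      obtain ⟨g, hg⟩ := exists_smul_eq G w v
      refine ⟨⟨g, ?_⟩, hg⟩
      -- `Q ≤ g Q g⁻¹`
      have h3 : ∀ x ∈ Q, g⁻¹ * x * g ∈ Q := by
        intro x hx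
        rw [hQ, mem_ptStab]
        intro i
        have h4 : g • w i = v i := DFunLike.congr_fun hg i
        have h5 := hv i ⟨x, hx⟩
        change x • v i = v i at h5
        rw [mul_smul, mul_smul, inv_smul_eq_iff, h4, h5]
      have h4 : Q.map (MulAut.conj g⁻¹).toMonoidHom = Q := by
        apply Subgroup.eq_of_le_of_card_ge
        · rintro _ ⟨x, hx, rfl⟩
          have := h3 x hx
          simpa using this
        · rw [← Nat.card_congr (Q.equivMapOfInjective (MulAut.conj g⁻¹).toMonoidHom
            (MulAut.conj g⁻¹).injective).toEquiv]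
      have h5 : g⁻¹ ∈ N := by
        rw [hN, Subgroup.mem_normalizer_iff]
        intro x
        constructor
        · intro hx
          have := h3 x hx
          rwa [inv_inv]
        · intro hx
          rw [inv_inv] at hx
          rw [← h4] at hx
          obtain ⟨y, hy, hyx⟩ := hx
          have h6 : g⁻¹ * y * g = g⁻¹ * x * g := by simpa using hyx
          have h7 : y = x := by
            have := mul_right_cancel h6
            exact mul_left_cancel this
          rw [← h7]; exact hy
      have := N.inv_mem h5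
      rwa [inv_inv] at this
  have h3 : Nat.card (orbit N w) = (Nat.card (fixedPoints Q Ω)).descFactorial d := by
    rw [h2]
    have e : {v : Fin d ↪ Ω | ∀ i, v i ∈ fixedPoints Q Ω} ≃ (Fin d ↪ fixedPoints Q Ω) :=
      { toFun := fun v => ⟨fun i => ⟨v.1 i, v.2 i⟩, fun i j hij => v.1.injective
          (congrArg Subtype.val hij)⟩
        invFun := fun v => ⟨v.trans (Function.Embedding.subtype _), fun i => (v i).2⟩
        left_inv := fun v => rfl
        right_inv := fun v => rfl }
    rw [Nat.card_congr e, Nat.card_eq_fintype_card, Fintype.card_embedding_eq, Fintype.card_fin,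
      ← Nat.card_eq_fintype_card]
  have h4 : Nat.card (stabilizer N w) = Nat.card Q := by
    have h5 : stabilizer N w = Q.subgroupOf N := by
      ext n
      rw [Subgroup.mem_subgroupOf, mem_stabilizer_iff]
      constructor
      · intro h
        exact h
      · intro h
        exact h
    rw [h5]
    exact Nat.card_congr (Subgroup.subgroupOfEquivOfLe Subgroup.le_normalizer).toEquiv
  rw [← Nat.card_eq_fintype_card, ← Nat.card_eq_fintype_card, ← Nat.card_eq_fintype_card] at h1
  have h5 : Nat.card (orbit N w) * Nat.card (stabilizer N w) = Nat.card N := h1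
  rw [h3, h4] at h5
  exact h5.symm

theorem inj3 {Ω : Type*} {a b c : Ω} (hab : a ≠ b) (hac : a ≠ c) (hbc : b ≠ c) :
    Function.Injective ![a, b, c] := by
  intro i j h
  fin_cases i <;> fin_cases j
  · rfl
  · exact absurd h hab
  · exact absurd h hac
  · exact absurd h hab.symm
  · rfl
  · exact absurd h hbc
  · exact absurd h hac.symm
  · exact absurd h hbc.symm
  · rfl

/-- pointwise stabilizers of four points are trivial -/
theorem bot_of_nine (h4 : IsMultiplyPretransitive G Ω 4) (hcard : Nat.card Ω = 9)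
    (hnot : ¬ alternatingGroup Ω ≤ PT.PG G Ω) (w : Fin 4 ↪ Ω) : ptStab G w = ⊥ := by
  have h2 : IsMultiplyPretransitive G Ω 2 := trans_le h4 (by norm_num) (by omega)
  have hcard' : Fintype.card Ω = 9 := by rw [← Nat.card_eq_fintype_card]; exact hcard
  set Q := ptStab G w with hQ
  have hpr : ∀ q : ℕ, q.Prime → q ∣ Nat.card Q → q = 2 := by
    intro q hq hdvd
    by_contra hq2
    haveI : Fact q.Prime := ⟨hq⟩
    obtain ⟨x, hx⟩ := exists_prime_orderOf_dvd_card' q hdvd
    have hx' : orderOf (x : G) = q := by rw [Subgroup.orderOf_coe]; exact hx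
    have hs : (toPerm (x : G) : Equiv.Perm Ω).support ⊆ (Finset.univ.map w)ᶜ := by
      intro y hy
      rw [Finset.mem_compl, Finset.mem_map]
      rintro ⟨i, -, rfl⟩
      rw [Equiv.Perm.mem_support] at hy
      exact hy (mem_ptStab.1 x.2 i)
    have hs' := Finset.card_le_card hs
    rw [Finset.card_compl, Finset.card_map, Finset.card_univ, Fintype.card_fin, hcard'] at hs'
    have hq3 := hq.two_le
    obtain ⟨hc, hsc⟩ := cyc_of_small hq hx' (by omega)
    exact setup' (r := q) h2 (by omega) hnot (x : G) hc hsc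
  have hpow := Nat.eq_prime_pow_of_unique_prime_dvd (Nat.card_pos (α := Q)).ne'
    (fun {d} hd hdv => hpr d hd hdv)
  have hp2 : IsPGroup 2 Q := IsPGroup.of_card hpow
  haveI : Fact (Nat.Prime 2) := ⟨Nat.prime_two⟩
  by_contra hbot
  set f := Nat.card (fixedPoints Q Ω) with hf
  have hmod := hp2.card_modEq_card_fixedPoints Ω
  rw [← hf, hcard] at hmod
  have hf4 : 4 ≤ f := by
    have h1 : Set.range w ⊆ fixedPoints Q Ω := by
      rintro _ ⟨i, rfl⟩ ⟨g, hg⟩
      exact mem_ptStab.1 hg i
    have h3 := Set.ncard_le_ncard h1 (Set.toFinite _)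
    rw [Set.ncard_range_of_injective w.injective, Nat.card_eq_fintype_card, Fintype.card_fin] at h3
    exact h3
  have hf9 : f < 9 := by
    by_contra hcon
    have h1 : fixedPoints Q Ω = Set.univ := by
      apply Set.eq_of_subset_of_ncard_le (Set.subset_univ _)
      rw [Set.ncard_univ, hcard]
      change 9 ≤ Nat.card (fixedPoints Q Ω)
      omega
    apply hbot
    rw [eq_bot_iff]
    intro g hg
    rw [Subgroup.mem_bot]
    apply FaithfulSMul.eq_of_smul_eq_smul (M := G) (α := Ω)
    intro y
    rw [one_smul]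
    have h2 : y ∈ fixedPoints Q Ω := by rw [h1]; trivial
    exact h2 ⟨g, hg⟩
  have hG := card_eq h4 w
  have hN := card_norm h4 w
  rw [← hQ, ← hf] at hN
  rw [hcard, ← hQ] at hG
  have h5 : 5 ∣ f.descFactorial 4 := by
    have hmod' : f % 2 = 1 := by
      have := hmod.symm
      unfold Nat.ModEq at this
      omega
    interval_cases f
    · omega
    · decide
    · omega
    · decide
    · omega
  have h6 : 5 ∣ Nat.card G := by
    refine dvd_trans ?_ (Subgroup.card_subgroup_dvd_card (Subgroup.normalizer (Q : Set G)))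
    rw [hN]
    exact Dvd.dvd.mul_right h5 _
  rw [hG, hpow] at h6
  rcases (Nat.Prime.dvd_mul Nat.prime_five).1 h6 with h7 | h7
  · revert h7; decide
  · have := Nat.Prime.dvd_of_dvd_pow Nat.prime_five h7
    omega

theorem nine (h4 : IsMultiplyPretransitive G Ω 4) (hcard : Nat.card Ω = 9) :
    alternatingGroup Ω ≤ PT.PG G Ω := by
  by_contra hnot
  have h2 : IsMultiplyPretransitive G Ω 2 := trans_le h4 (by norm_num) (by omega)
  have hcard' : Fintype.card Ω = 9 := by rw [← Nat.card_eq_fintype_card]; exact hcard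
  haveI : Fact (Nat.Prime 7) := ⟨by norm_num⟩
  have hbot := bot_of_nine h4 hcard hnot
  obtain ⟨w⟩ : Nonempty (Fin 4 ↪ Ω) := by
    rw [Function.Embedding.nonempty_iff_card_le, Fintype.card_fin]; omega
  have hG : Nat.card G = 3024 := by
    rw [card_eq h4 w, hbot w, hcard, Subgroup.card_bot]
    decide
  obtain ⟨v⟩ : Nonempty (Fin 2 ↪ Ω) := by
    rw [Function.Embedding.nonempty_iff_card_le, Fintype.card_fin]; omega
  set S := ptStab G v with hS
  have hScard : Nat.card S = 42 := by
    have h1 := card_eq h2 v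
    rw [hG, hcard, ← hS] at h1
    have h3 : (9 : ℕ).descFactorial 2 = 72 := by decide
    rw [h3] at h1
    omega
  -- the Sylow 7-subgroup is normal
  have huniq : ∀ P P' : Sylow 7 S, P = P' := by
    have h1 : Nat.card (Sylow 7 S) = 1 := by
      obtain ⟨P⟩ : Nonempty (Sylow 7 S) := inferInstance
      have h3 : Nat.card P = 7 := by
        rw [P.card_eq_multiplicity, hScard]
        have : (42 : ℕ).factorization 7 = 1 := by
          have h42 : (42 : ℕ) = 7 * 6 := by norm_num
          rw [h42, Nat.factorization_mul (by norm_num) (by norm_num), Finsupp.add_apply,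
            Nat.Prime.factorization_self (by norm_num),
            Nat.factorization_eq_zero_of_not_dvd (by norm_num)]
        rw [this, pow_one]
      have h4 := P.card_mul_index
      rw [h3, hScard] at h4
      have h5 : (P : Subgroup S).index = 6 := by omega
      have h6 := P.card_dvd_index
      rw [h5] at h6
      have h7 := card_sylow_modEq_one 7 S
      have h8 := Nat.le_of_dvd (by norm_num) h6
      unfold Nat.ModEq at h7
      omega
    haveI := (Nat.card_eq_one_iff_unique.1 h1).1
    exact fun P P' => Subsingleton.elim _ _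
  obtain ⟨P⟩ : Nonempty (Sylow 7 S) := inferInstance
  obtain ⟨x, hx⟩ := exists_prime_orderOf_dvd_card' (G := S) 7 (by rw [hScard]; norm_num)
  have hmemP : ∀ y : S, orderOf y = 7 → y ∈ (P : Subgroup S) := by
    intro y hy
    obtain ⟨P', hP'⟩ := IsPGroup.exists_le_sylow (p := 7) (P := Subgroup.zpowers y)
      (IsPGroup.of_card (n := 1) (by rw [Nat.card_zpowers, hy, pow_one]))
    rw [huniq P P']
    exact hP' (Subgroup.mem_zpowers y)
  have hx' : orderOf (x : G) = 7 := by rw [Subgroup.orderOf_coe]; exact hx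
  obtain ⟨hxc, hxs⟩ := cyc_of_small (Ω := Ω) (g := (x : G)) (p := 7) (by norm_num) hx' (by
    have := Finset.card_le_univ (toPerm (x : G) : Equiv.Perm Ω).support
    omega)
  have hsupp : (toPerm (x : G) : Equiv.Perm Ω).support = (Finset.univ.map v)ᶜ := by
    apply Finset.eq_of_subset_of_card_le
    · intro y hy
      rw [Finset.mem_compl, Finset.mem_map]
      rintro ⟨i, -, rfl⟩
      rw [Equiv.Perm.mem_support] at hy
      exact hy (mem_ptStab.1 x.2 i)
    · rw [Finset.card_compl, Finset.card_map, Finset.card_univ, Fintype.card_fin, hcard', hxs]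
  obtain ⟨c, hc⟩ : ∃ c, c ∈ (toPerm (x : G) : Equiv.Perm Ω).support := by
    rw [← Finset.Nonempty, ← Finset.card_pos, hxs]; norm_num
  have hcv : ∀ i, v i ≠ c := by
    intro i h
    rw [hsupp, Finset.mem_compl, Finset.mem_map] at hc
    exact hc ⟨i, Finset.mem_univ _, h⟩
  have hxcne : (x : G) • c ≠ c := Equiv.Perm.mem_support.1 hc
  have hdv : ∀ i, v i ≠ (x : G) • c := by
    intro i h
    have h1 : (x : G) • v i = v i := mem_ptStab.1 x.2 i
    rw [← h1] at h
    exact hcv i (MulAction.injective _ h)
  have hv01 : v 0 ≠ v 1 := fun h => absurd (v.injective h) (by decide)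
  let δ : Fin 3 ↪ Ω := ⟨![v 0, v 1, c], inj3 hv01 (hcv 0) (hcv 1)⟩
  let δ' : Fin 3 ↪ Ω := ⟨![v 1, v 0, c], inj3 hv01.symm (hcv 1) (hcv 0)⟩
  obtain ⟨g, hg, hgd⟩ := exists_ext (d := 3) h4 δ δ' (y := (x : G) • c) (y' := (x : G) • c)
    (by
      rintro ⟨i, hi⟩
      fin_cases i
      · exact hdv 0 hi
      · exact hdv 1 hi
      · exact hxcne hi.symm)
    (by
      rintro ⟨i, hi⟩
      fin_cases i
      · exact hdv 1 hi
      · exact hdv 0 hi
      · exact hxcne hi.symm)
  have g0 : g • v 0 = v 1 := hg 0
  have g1 : g • v 1 = v 0 := hg 1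
  have gc : g • c = c := hg 2
  have hconjS : g * (x : G) * g⁻¹ ∈ S := by
    refine mem_ptStab.2 fun i => ?_
    have e0 : g⁻¹ • v 0 = v 1 := by rw [inv_smul_eq_iff, g1]
    have e1 : g⁻¹ • v 1 = v 0 := by rw [inv_smul_eq_iff, g0]
    have x0 : (x : G) • v 0 = v 0 := mem_ptStab.1 x.2 0
    have x1 : (x : G) • v 1 = v 1 := mem_ptStab.1 x.2 1
    fin_cases i
    · change (g * (x : G) * g⁻¹) • v 0 = v 0
      rw [mul_smul, mul_smul, e0, x1, g1]
    · change (g * (x : G) * g⁻¹) • v 1 = v 1
      rw [mul_smul, mul_smul, e1, x0, g0]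
  have hord : orderOf (⟨_, hconjS⟩ : S) = 7 := by
    rw [← Subgroup.orderOf_coe]
    change orderOf (g * (x : G) * g⁻¹) = 7
    have h1 := orderOf_injective (MulAut.conj g).toMonoidHom (MulAut.conj g).injective (x : G)
    rw [hx'] at h1
    exact h1
  have hz : x⁻¹ * ⟨_, hconjS⟩ ∈ (P : Subgroup S) :=
    (P : Subgroup S).mul_mem ((P : Subgroup S).inv_mem (hmemP x hx)) (hmemP _ hord)
  have hzc : ((x⁻¹ * ⟨_, hconjS⟩ : S) : G) • c = c := by
    change ((x : G)⁻¹ * (g * (x : G) * g⁻¹)) • c = c
    have e : g⁻¹ • c = c := by rw [inv_smul_eq_iff, gc]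
    rw [mul_smul, mul_smul, mul_smul, e, hgd, inv_smul_smul]
  have hcomm : g * (x : G) * g⁻¹ = x := by
    by_contra hne
    have hne' : (x⁻¹ * ⟨_, hconjS⟩ : S) ≠ 1 := by
      intro h
      apply hne
      rw [inv_mul_eq_one] at h
      exact (congrArg Subtype.val h).symm
    have hPc : Nat.card P = 7 := by
      rw [P.card_eq_multiplicity, hScard]
      have : (42 : ℕ).factorization 7 = 1 := by
        have h42 : (42 : ℕ) = 7 * 6 := by norm_num
        rw [h42, Nat.factorization_mul (by norm_num) (by norm_num), Finsupp.add_apply,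
          Nat.Prime.factorization_self (by norm_num),
          Nat.factorization_eq_zero_of_not_dvd (by norm_num)]
      rw [this, pow_one]
    have h1 : orderOf (x⁻¹ * ⟨_, hconjS⟩ : S) = 7 := by
      have h3 : orderOf (x⁻¹ * ⟨_, hconjS⟩ : S) ∣ 7 := by
        rw [← hPc]
        exact Subgroup.orderOf_dvd_natCard _ hz
      rcases (Nat.dvd_prime (by norm_num)).1 h3 with h5 | h5
      · exact absurd (orderOf_eq_one_iff.1 h5) hne'
      · exact h5
    obtain ⟨-, hs⟩ := cyc_of_small (Ω := Ω) (g := ((x⁻¹ * ⟨_, hconjS⟩ : S) : G)) (p := 7)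
      (by norm_num) (by rw [Subgroup.orderOf_coe]; exact h1) (by
      have := Finset.card_le_univ (toPerm ((x⁻¹ * ⟨_, hconjS⟩ : S) : G) : Equiv.Perm Ω).support
      omega)
    have hsub : (toPerm ((x⁻¹ * ⟨_, hconjS⟩ : S) : G) : Equiv.Perm Ω).support ⊆
        (insert c (Finset.univ.map v))ᶜ := by
      intro y hy
      rw [Finset.mem_compl, Finset.mem_insert, Finset.mem_map]
      rw [Equiv.Perm.mem_support] at hy
      rintro (rfl | ⟨i, -, rfl⟩)
      · exact hy hzc
      · have hzi : ((x⁻¹ * ⟨_, hconjS⟩ : S) : G) • v i = v i :=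
          mem_ptStab.1 (SetLike.coe_mem (x⁻¹ * ⟨_, hconjS⟩ : S)) i
        exact hy hzi
    have h5 := Finset.card_le_card hsub
    rw [Finset.card_compl, Finset.card_insert_of_notMem (by
      rw [Finset.mem_map]
      rintro ⟨i, -, hi⟩
      exact hcv i hi), Finset.card_map, Finset.card_univ, Fintype.card_fin, hcard', hs] at h5
    omega
  have hfixX : ∀ y, (∀ i, v i ≠ y) → g • y = y := by
    intro y hy
    have hys : y ∈ (toPerm (x : G) : Equiv.Perm Ω).support := by
      rw [hsupp, Finset.mem_compl, Finset.mem_map]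
      rintro ⟨i, -, hi⟩
      exact hy i hi
    obtain ⟨m, hm⟩ := hxc.sameCycle (Equiv.Perm.mem_support.1 hc) (Equiv.Perm.mem_support.1 hys)
    have h1 : (toPerm (x : G) : Equiv.Perm Ω) ^ m = toPerm ((x : G) ^ m) :=
      (map_zpow (toPermHom G Ω) (x : G) m).symm
    rw [h1] at hm
    change (x : G) ^ m • c = y at hm
    have h3 : g * (x : G) ^ m = (x : G) ^ m * g := by
      have h5 : Commute g (x : G) := mul_inv_eq_iff_eq_mul.1 hcomm
      exact (h5.zpow_right m).eq
    rw [← hm, ← mul_smul, h3, mul_smul, gc]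
  have hg1 : g = 1 := by
    obtain ⟨u⟩ : Nonempty (Fin 4 ↪ ((Finset.univ.map v)ᶜ : Finset Ω)) := by
      rw [Function.Embedding.nonempty_iff_card_le, Fintype.card_fin, Fintype.card_coe,
        Finset.card_compl, Finset.card_map, Finset.card_univ, Fintype.card_fin, hcard']
      norm_num
    have h1 : g ∈ ptStab G (u.trans (Function.Embedding.subtype _)) := by
      rw [mem_ptStab]
      intro i
      apply hfixX
      intro j hj
      have h3 := (u i).2
      rw [Finset.mem_compl, Finset.mem_map] at h3
      exact h3 ⟨j, Finset.mem_univ _, hj⟩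
    rw [hbot, Subgroup.mem_bot] at h1
    exact h1
  rw [hg1, one_smul] at g0
  exact hv01 g0

end Cfsg.Agent.H74.AN
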