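import Cfsg.Agent.H74.AltGen3
import Cfsg.Agent.H74.AltNine

/-!
# Multiply transitive groups of degree `kp + r`
-/

set_option autoImplicit false
set_option linter.unusedSectionVars false
set_option linter.style.haveILetI false

namespace Cfsg.Agent.H74.AG

open MulAction
open AC (setStab mem_setStab exists_ext mem_of_perm orbs mem_orbit_of_one orbit_subset
  primitive_pg trans_le setup' three_cycle_of_double)
open scoped Pointwise

variable {G Ω : Type*} [Group G] [Finite G] [MulAction G Ω] [FaithfulSMul G Ω] [Fintype Ω]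
  [DecidableEq Ω] {p : ℕ} [hp : Fact p.Prime]

theorem kpr {k r : ℕ} (hG : IsMultiplyPretransitive G Ω (r + 1))
    (hcard : Nat.card Ω = k * p + r) (hk : 1 ≤ k) (hpk : k < p) (hrk : k < r)
    (hex : ¬ (k = 1 ∧ r = 2)) : alternatingGroup Ω ≤ PT.PG G Ω := by
  by_contra hnot
  have hr3 : 3 ≤ r := by omega
  have hpp := hp.out.two_le
  have hkp : p ≤ k * p := Nat.le_mul_of_pos_left p hk
  have h2 : IsMultiplyPretransitive G Ω 2 := trans_le hG (by omega) (by omega)
  have hcard' : Fintype.card Ω = k * p + r := by rw [← Nat.card_eq_fintype_card]; exact hcard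
  have hnc := setup' (G := G) (Ω := Ω) (r := p) h2 (by omega) hnot
  have hnt : ∀ g : G, ¬ (toPerm g : Equiv.Perm Ω).IsThreeCycle := fun g hg =>
    hnot (Equiv.Perm.alternatingGroup_le_of_isPreprimitive_of_isThreeCycle_mem
      (primitive_pg h2) hg ⟨g, rfl⟩)
  obtain ⟨δ⟩ : Nonempty (Fin r ↪ Ω) := by
    rw [Function.Embedding.nonempty_iff_card_le, Fintype.card_fin]; omega
  obtain ⟨R, hRp, hind, horb, hfix⟩ := exists_setup (r := p) δ hG (k := k) hk hcard hpk
  have hrange : (Set.range δ).ncard = r := by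
    rw [Set.ncard_range_of_injective δ.injective, Nat.card_eq_fintype_card, Fintype.card_fin]
  have hcompl : ((Set.range δ)ᶜ).ncard = k * p := by
    rw [Set.ncard_compl, hrange, hcard]; omega
  set N := Subgroup.normalizer (R : Set (setStab G δ)) with hN
  set R' : Subgroup N := R.subgroupOf N with hR'
  haveI : R'.Normal := Subgroup.normal_in_normalizer
  have hle : R ≤ N := Subgroup.le_normalizer
  have hR'p : IsPGroup p R' := hRp.of_equiv (Subgroup.subgroupOfEquivOfLe hle).symm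
  have horbeq : ∀ y : Ω, orbit R' y = orbit R y := by
    intro y
    ext z
    constructor
    · rintro ⟨⟨⟨g, hg⟩, hg'⟩, rfl⟩
      exact ⟨⟨g, hg'⟩, rfl⟩
    · rintro ⟨⟨g, hg⟩, rfl⟩
      exact ⟨⟨⟨g, hle hg⟩, hg⟩, rfl⟩
  have hX : ∀ y ∈ (Set.range δ)ᶜ, Nat.card (orbit R' y) = p := fun y hy => by
    rw [horbeq]; exact horb y hy
  have hfix' : ∀ g ∈ R', ∀ i, g • δ i = δ i := fun g hg i => hfix g.1 hg i
  have hlt : ∀ y : Ω, Nat.card (orbit R' y) = 1 ∨ Nat.card (orbit R' y) = p := by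
    intro y
    by_cases hy : y ∈ Set.range δ
    · left
      obtain ⟨i, rfl⟩ := hy
      rw [Nat.card_eq_one_iff_exists]
      refine ⟨⟨δ i, mem_orbit_self _⟩, ?_⟩
      rintro ⟨_, ⟨⟨g, hg⟩, rfl⟩⟩
      exact Subtype.ext (hfix' g hg i)
    · exact Or.inr (hX y hy)
  have hXinv : ∀ g : N, ∀ y ∈ (Set.range δ)ᶜ, g • y ∈ (Set.range δ)ᶜ :=
    fun g y hy h => hy ((mem_setStab.1 g.1.2 y).2 h)
  have hnc' : ∀ g ∈ R', ∀ y ∈ (Set.range δ)ᶜ, (∀ z, z ∉ orbit R' y → g • z = z) → g = 1 := by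
    intro g hg y hy hz
    by_contra hg1
    obtain ⟨hc, hs⟩ := cycle_of hR'p hlt hg (hX y hy) hz hg1
    exact hnc (g : G) hc hs
  have hind' : ∀ σ : Equiv.Perm (Fin r), ∃ g : N, ∀ i, g • δ i = δ (σ i) := fun σ => by
    obtain ⟨g, hg, hgi⟩ := hind σ
    exact ⟨⟨g, hg⟩, hgi⟩
  have hcases : k = 1 ∨ (k = 2 ∧ r = 3) ∨ (k = 2 ∧ r = 4) ∨ (k = 3 ∧ r = 4) ∨ 5 ≤ r := by omega
  rcases hcases with rfl | ⟨rfl, rfl⟩ | ⟨rfl, rfl⟩ | ⟨rfl, rfl⟩ | hr5
  · -- a single orbit
    rw [one_mul] at hcompl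
    obtain ⟨y, hy⟩ : ((Set.range δ)ᶜ).Nonempty := by
      rw [← Set.ncard_pos (Set.toFinite _), hcompl]; exact hp.out.pos
    have h1 : orbit R' y = (Set.range δ)ᶜ := by
      apply Set.eq_of_subset_of_ncard_le (orbit_subset hXinv hy)
      rw [hcompl, ← Nat.card_coe_set_eq, hX y hy]
    have h3 : ∀ g ∈ R', g = 1 := by
      intro g hg
      apply hnc' g hg y hy
      intro z hz
      rw [h1, Set.notMem_compl_iff] at hz
      obtain ⟨i, rfl⟩ := hz
      exact hfix' g hg i
    have h4 := hX y hy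
    have h5 : Nat.card (orbit R' y) = 1 := by
      rw [Nat.card_eq_one_iff_exists]
      refine ⟨⟨y, mem_orbit_self _⟩, ?_⟩
      rintro ⟨_, ⟨⟨g, hg⟩, rfl⟩⟩
      apply Subtype.ext
      change g • y = y
      rw [h3 g hg, one_smul]
    rw [h5] at h4
    exact hp.out.one_lt.ne h4
  · by_cases hp3 : p = 3
    · subst hp3
      exact hnot (AN.nine hG (by omega))
    have hp2 : p ≠ 4 := by rintro rfl; exact absurd hp.out (by norm_num)
    obtain ⟨t, ht1, ht2⟩ := exists_three (Γ := N) (R := R') hR'p hlt (by omega) δ hXinv hX hcompl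
      hfix' hnc' hind'
    apply hnt (t : G)
    rw [← card_support_eq_three_iff]
    have hsup : (toPerm (t : G) : Equiv.Perm Ω).support = Finset.univ.map δ := by
      ext w
      rw [Equiv.Perm.mem_support, Finset.mem_map]
      constructor
      · intro hw
        by_contra h
        apply hw
        apply ht1 w
        rintro ⟨i, hi⟩
        exact h ⟨i, Finset.mem_univ _, hi⟩
      · rintro ⟨i, -, rfl⟩
        exact ht2 i
    rw [hsup, Finset.card_map, Finset.card_univ, Fintype.card_fin]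
  · have h4 : IsMultiplyPretransitive G Ω 4 := trans_le hG (by omega) (by omega)
    obtain ⟨t, ht1, t0, t3, t1, t2⟩ := exists_double2 (Γ := N) (R := R') hR'p hlt (by omega)
      (by omega) δ hXinv hX hcompl hfix' hnc' hind'
    obtain ⟨g, hg⟩ := three_cycle_of_double h4 δ (t : G) (fun y hy => ht1 y hy) t0 t3 t1 t2
      (by omega)
    exact hnt g hg
  · have h4 : IsMultiplyPretransitive G Ω 4 := trans_le hG (by omega) (by omega)
    obtain ⟨t, ht1, t0, t3, t1, t2⟩ := exists_double (Γ := N) (R := R') hR'p hlt (by omega)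
      (by omega) δ hXinv hX hcompl hfix' hnc' hind'
    obtain ⟨g, hg⟩ := three_cycle_of_double h4 δ (t : G) (fun y hy => ht1 y hy) t0 t3 t1 t2
      (by omega)
    exact hnt g hg
  · obtain ⟨t, ht⟩ := exists_tri (Γ := N) (R := R') hR'p hlt hr5 hk hrk δ hXinv hX hcompl hind'
    exact hnt (t : G) ht

end Cfsg.Agent.H74.AG
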