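import Cfsg.Agent.H74.Four
import Cfsg.Agent.H76.RealOdd
import Cfsg.Agent.H52.FS

/-!
# Indicators in the principal `2`-block; the case `ε₁ε₂ε₃ = -1`
-/

set_option autoImplicit false
set_option linter.unusedSectionVars false
set_option linter.style.haveILetI false

universe u v

namespace Cfsg.Agent.H74

open scoped ComplexConjugate BigOperators
open Cfsg Cfsg.Agent.CharBase Cfsg.Agent.Blk Cfsg.Agent.H4

variable {G : Type u} [Group G]

/-- the number of square roots -/
theorem card_sqrt [Fintype G] [DecidableEq G] [Fintype (IrrCharacter G)] (g : G) :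
    (((Finset.univ : Finset G).filter (fun x => x * x = g)).card : ℂ) =
      ∑ χ : IrrCharacter G, H52.fsi (χ : G → ℂ) * (χ : G → ℂ) g := by
  classical
  set θ : G → ℂ := fun g => (((Finset.univ : Finset G).filter (fun x => x * x = g)).card : ℂ) with hθ
  have hcf : IsClassFunction G θ := by
    intro g h
    simp only [hθ]
    congr 1
    symm
    refine Finset.card_bij (fun x _ => h * x * h⁻¹) ?_ ?_ ?_
    · intro x hx
      rw [Finset.mem_filter] at hx ⊢
      refine ⟨Finset.mem_univ _, ?_⟩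
      rw [← hx.2]; group
    · intro x _ y _ hxy
      simpa using hxy
    · intro y hy
      rw [Finset.mem_filter] at hy
      refine ⟨h⁻¹ * y * h, ?_, by group⟩
      rw [Finset.mem_filter]
      refine ⟨Finset.mem_univ _, ?_⟩
      have : h⁻¹ * y * h * (h⁻¹ * y * h) = h⁻¹ * (y * y) * h := by group
      rw [this, hy.2]; group
  have h1 := classFun_apply_eq_sum hcf g
  have h2 : ∀ χ : IrrCharacter G, classInner θ (χ : G → ℂ) = H52.fsi (χ : G → ℂ) := by
    intro χ
    have h3 : ∀ F : G → ℂ, ∑ g : G, θ g * F g = ∑ s : G, F (s * s) := by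
      intro F
      simp only [hθ]
      have : ∀ g : G, (((Finset.univ : Finset G).filter (fun x => x * x = g)).card : ℂ) * F g =
          ∑ x ∈ (Finset.univ : Finset G).filter (fun x => x * x = g), F (x * x) := by
        intro g
        rw [Finset.sum_congr rfl (g := fun _ => F g) (fun x hx => by
          rw [(Finset.mem_filter.1 hx).2]), Finset.sum_const, nsmul_eq_mul]
      simp only [this]
      exact Finset.sum_fiberwise (s := Finset.univ) (g := fun x : G => x * x) (f := fun x => F (x * x))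
    have h4 : classInner θ (χ : G → ℂ) = conj (H52.fsi (χ : G → ℂ)) := by
      unfold classInner H52.fsi
      rw [h3 (fun g => conj ((χ : G → ℂ) g)), map_mul, map_sum, map_inv₀, Complex.conj_natCast]
    rw [h4]
    rcases H52.fsi_cases χ.2 with h | h | h <;> rw [h] <;> simp
  calc _ = θ g := rfl
    _ = _ := by rw [h1]; exact Finset.sum_congr rfl fun χ _ => by rw [h2]

variable [Finite G]

/-- **No square roots: the indicator relation for the principal block.** -/
theorem VP.sum_indicator {J : G} {V P : Subgroup G} (h : VP J V P) [Fintype G]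
    [Fintype (IrrCharacter G)] {M : Ideal AlgInt} (hM : IsPModular 2 M)
    [DecidablePred (· ∈ principalBlock M G)]
    (hsq : ∀ y : G, y * y ≠ J) :
    ∑ χ : IrrCharacter G, (if χ ∈ principalBlock M G then
      H52.fsi (χ : G → ℂ) * (χ : G → ℂ) J else 0) = 0 := by
  classical
  haveI : Fintype V := Fintype.ofFinite V
  have hJo : orderOf J = 2 := orderOf_eq_prime (by rw [pow_two]; exact h.J_sq) h.J_ne
  have h0 : ∀ v : V, ∑ χ : IrrCharacter G, H52.fsi (χ : G → ℂ) * (χ : G → ℂ) ((v : G) * J) = 0 := by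
    intro v
    rw [← card_sqrt]
    have : (Finset.univ : Finset G).filter (fun x => x * x = (v : G) * J) = ∅ := by
      rw [Finset.filter_eq_empty_iff]
      rintro x - hx
      have hvJ : Commute J (v : G) := ((h.mem_iff v).1 v.2).1
      have hvo : Odd (orderOf (v : G)) := ((h.mem_iff v).1 v.2).2
      apply hsq (x ^ (orderOf (v : G)))
      rw [← pow_add, ← two_mul, pow_mul, pow_two, hx, hvJ.symm.mul_pow, pow_orderOf_eq_one, one_mul]
      obtain ⟨k, hk⟩ := hvo
      rw [hk, pow_succ, pow_mul, pow_two, h.J_sq, one_pow, one_mul]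
    rw [this]; simp
  have h1 : ∑ v : V, ∑ χ : IrrCharacter G, H52.fsi (χ : G → ℂ) * (χ : G → ℂ) ((v : G) * J) = 0 :=
    Finset.sum_eq_zero fun v _ => h0 v
  rw [Finset.sum_comm] at h1
  have hV0 : (Fintype.card V : ℂ) ≠ 0 := Nat.cast_ne_zero.2 Fintype.card_ne_zero
  apply mul_left_cancel₀ hV0
  rw [mul_zero]
  refine Eq.trans ?_ h1
  rw [Finset.mul_sum]
  refine Finset.sum_congr rfl fun χ _ => ?_
  rw [← Finset.mul_sum]
  by_cases hχ : χ ∈ principalBlock M G
  · rw [if_pos hχ]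
    have h4 : ∀ v : V, (χ : G → ℂ) (v * J) = (χ : G → ℂ) J := fun v =>
      h.principal_const hM h.J_mem (Subgroup.mem_zpowers J) (k := 1) (by rw [hJo]; norm_num)
        v.2 hχ
    simp only [h4]
    rw [Finset.sum_const, Finset.card_univ, nsmul_eq_mul]
    ring
  · rw [if_neg hχ, h.sum_not_principal hM h.J_mem (Subgroup.mem_zpowers J) (k := 1)
      (by rw [hJo]; norm_num) hχ]
    simp

/-- **`χ₂ = χ̄₁` when `ε₁ = ε₂ = 1`, `ε₃ = -1`.** -/
theorem four_degrees {M : Ideal AlgInt} (hM : IsPModular 2 M)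
    {P : Sylow 2 G} (hK : IsKleinFour (P : Subgroup G))
    (hone : ∀ s t : G, orderOf s = 2 → orderOf t = 2 → IsConj s t) {J : G}
    (hJ : J ∈ (P : Subgroup G)) (hJ2 : orderOf J = 2)
    {χ₁ χ₂ χ₃ : IrrCharacter G}
    (hB : principalBlock M G = {χ : IrrCharacter G | (χ : G → ℂ) = (fun _ => 1) ∨ χ = χ₁ ∨ χ = χ₂ ∨
      χ = χ₃})
    (hdist : (χ₁ : G → ℂ) ≠ (fun _ => 1) ∧ (χ₂ : G → ℂ) ≠ (fun _ => 1) ∧
      (χ₃ : G → ℂ) ≠ (fun _ => 1) ∧ χ₁ ≠ χ₂ ∧ χ₁ ≠ χ₃ ∧ χ₂ ≠ χ₃)
    (hval : (χ₁ : G → ℂ) J = 1 ∧ (χ₂ : G → ℂ) J = 1 ∧ (χ₃ : G → ℂ) J = -1) :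
    charDegree (χ₁ : G → ℂ) = charDegree (χ₂ : G → ℂ) := by
  classical
  haveI : Fact (Nat.Prime 2) := ⟨Nat.prime_two⟩
  haveI := Fintype.ofFinite G
  haveI := Fintype.ofFinite (IrrCharacter G)
  obtain ⟨hv1, hv2, hv3⟩ := hval
  have h := VP.of_klein hK hJ hJ2
  have hsq : ∀ y : G, y * y ≠ J := by
    intro y hy
    have h4 : y ^ 2 ^ 2 = 1 := by
      rw [show (2 : ℕ) ^ 2 = 2 * 2 by norm_num, pow_mul, pow_two, pow_two, hy, h.J_sq]
    obtain ⟨Q, hQ⟩ := exists_sylow_mem (p := 2) h4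
    have h5 := IsKleinFour.mul_self' (isKleinFour_sylow hK Q) hQ
    rw [h5] at hy
    exact h.J_ne hy.symm
  have hsum := h.sum_indicator hM hsq
  rw [sum_four hB hdist, hv1, hv2, hv3, oneIrr_apply] at hsum
  have hν0 : H52.fsi ((oneIrr G : IrrCharacter G) : G → ℂ) = 1 := H52.fsi_one
  rw [hν0] at hsum
  -- odd degrees
  have hodd : ∀ (χ : IrrCharacter G) (e : ℤ), (χ : G → ℂ) J = e → (e = 1 ∨ e = -1) →
      Odd (charDegree (χ : G → ℂ)) := by
    intro χ e he he1
    have h1 := four_dvd_degree hK hone (irr_isCharacter χ) hJ2 he (BlkC.charDegree_spec χ)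
    rw [← Nat.not_even_iff_odd]
    intro hev
    obtain ⟨k, hk⟩ := hev
    rw [hk] at h1
    rcases he1 with rfl | rfl
    · push_cast at h1; omega
    · push_cast at h1; omega
  have hreal : ∀ (χ : IrrCharacter G), (∀ g, ((χ : G → ℂ) g).im = 0) →
      Odd (charDegree (χ : G → ℂ)) → H52.fsi (χ : G → ℂ) = 1 := fun χ hr ho =>
    indicator_eq_one_of_odd χ.2 hr ho
  have hmem : ∀ χ : IrrCharacter G, χ ∈ principalBlock M G ↔ χ = oneIrr G ∨ χ = χ₁ ∨ χ = χ₂ ∨
      χ = χ₃ := by
    intro χ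
    rw [hB, Set.mem_ofPred_eq]
    have hone' : (χ : G → ℂ) = (fun _ => 1) ↔ χ = oneIrr G :=
      ⟨fun h => Subtype.ext h, fun h => by rw [h]; rfl⟩
    rw [hone']
  have hconjmem : ∀ χ : IrrCharacter G, χ ∈ principalBlock M G →
      H76.conjIrr χ ∈ principalBlock M G := fun χ hχ => H76.conj_mem_principalBlock hχ
  have h1 : χ₁ ≠ oneIrr G := fun h => hdist.1 (by rw [h]; rfl)
  have h2 : χ₂ ≠ oneIrr G := fun h => hdist.2.1 (by rw [h]; rfl)
  -- `χ₃` is real
  have h3 : H76.conjIrr χ₃ = χ₃ := by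
    have hc := (hmem _).1 (hconjmem χ₃ ((hmem _).2 (Or.inr (Or.inr (Or.inr rfl)))))
    have hcJ : (H76.conjIrr χ₃ : G → ℂ) J = -1 := by
      rw [H76.conjIrr_apply, hv3]; simp
    rcases hc with hc | hc | hc | hc
    · rw [hc, oneIrr_apply] at hcJ; norm_num at hcJ
    · rw [hc, hv1] at hcJ; norm_num at hcJ
    · rw [hc, hv2] at hcJ; norm_num at hcJ
    · exact hc
  have h3r : ∀ g, ((χ₃ : G → ℂ) g).im = 0 := by
    intro g
    rw [← Complex.conj_eq_iff_im]
    exact congrArg (fun χ : IrrCharacter G => (χ : G → ℂ) g) h3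
  have hν3 := hreal χ₃ h3r (hodd χ₃ (-1) (by rw [hv3]; simp) (Or.inr rfl))
  rw [hν3] at hsum
  have hsum' : H52.fsi (χ₁ : G → ℂ) + H52.fsi (χ₂ : G → ℂ) = 0 := by linear_combination hsum
  -- `χ₁` is not real
  have h1nr : ¬ ∀ g, ((χ₁ : G → ℂ) g).im = 0 := by
    intro hr
    have e1 := hreal χ₁ hr (hodd χ₁ 1 (by rw [hv1]; simp) (Or.inl rfl))
    rw [e1] at hsum'
    by_cases hr2 : ∀ g, ((χ₂ : G → ℂ) g).im = 0
    · have e2 := hreal χ₂ hr2 (hodd χ₂ 1 (by rw [hv2]; simp) (Or.inl rfl))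
      rw [e2] at hsum'
      norm_num at hsum'
    · have e2 : H52.fsi (χ₂ : G → ℂ) = 0 := by
        rw [H52.fsi_eq_zero_iff χ₂.2]
        push Not at hr2
        exact hr2
      rw [e2] at hsum'
      norm_num at hsum'
  -- hence `conj χ₁ = χ₂`
  have h12 : H76.conjIrr χ₁ = χ₂ := by
    have hc := (hmem _).1 (hconjmem χ₁ ((hmem _).2 (Or.inr (Or.inl rfl))))
    have hcJ : (H76.conjIrr χ₁ : G → ℂ) J = 1 := by
      rw [H76.conjIrr_apply, hv1]; simp
    rcases hc with hc | hc | hc | hc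
    · exfalso
      apply h1
      have := congrArg H76.conjIrr hc
      rw [H76.conjIrr_conjIrr] at this
      rw [this]
      apply Subtype.ext
      funext g
      rw [H76.conjIrr_apply, oneIrr_apply]; simp
    · exfalso
      apply h1nr
      intro g
      rw [← Complex.conj_eq_iff_im]
      exact congrArg (fun χ : IrrCharacter G => (χ : G → ℂ) g) hc
    · exact hc
    · exfalso
      rw [hc, hv3] at hcJ; norm_num at hcJ
  have h5 := BlkC.charDegree_spec χ₂
  rw [← h12, H76.conjIrr_apply, BlkC.charDegree_spec χ₁, Complex.conj_natCast, h12] at h5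
  exact_mod_cast h5

end Cfsg.Agent.H74
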