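import Cfsg.Agent.H74.AltNine
import Cfsg.Agent.H20.Gleason

/-!
# Livingstone–Wagner: reduction to groups with few fixed points
-/

set_option autoImplicit false
set_option linter.unusedSectionVars false
set_option linter.style.haveILetI false

universe u

namespace Cfsg.Agent.H74.LW

open MulAction
open AN (ptStab)
open scoped Pointwise

theorem mem_pt {G Ω : Type*} [Group G] [MulAction G Ω] {d : ℕ} {w : Fin d ↪ Ω} {g : G} :
    g ∈ ptStab G w ↔ ∀ i, g • w i = w i := by
  unfold ptStab
  rw [mem_stabilizer_iff]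
  constructor
  · intro h i
    exact DFunLike.congr_fun h i
  · intro h
    ext i
    exact h i

/-- some `(t+1)`-set has all its even permutations induced by the group -/
def AltInd (G Ω : Type*) [Group G] [MulAction G Ω] (t : ℕ) : Prop :=
  ∃ δ : Fin (t + 1) ↪ Ω, ∀ σ ∈ alternatingGroup (Fin (t + 1)), ∃ g : G, ∀ i, g • δ i = δ (σ i)

/-- the fixed points of a subgroup, with the action of the normalizer -/
def fixSub {G : Type*} (Ω : Type*) [Group G] [MulAction G Ω] (R : Subgroup G) :
    SubMulAction (Subgroup.normalizer (R : Set G)) Ω where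
  carrier := fixedPoints R Ω
  smul_mem' := by
    rintro ⟨n, hn⟩ y hy ⟨r, hr⟩
    change r • n • y = n • y
    have h1 : n⁻¹ * r * n ∈ R := by
      have := (Subgroup.mem_normalizer_iff.1 ((Subgroup.normalizer (R : Set G)).inv_mem hn) r).1 hr
      rwa [inv_inv] at this
    have h2 : (n⁻¹ * r * n) • y = y := hy ⟨_, h1⟩
    rw [mul_smul, mul_smul, inv_smul_eq_iff] at h2
    exact h2

theorem mem_fixSub {G Ω : Type*} [Group G] [MulAction G Ω] {R : Subgroup G} {y : Ω} :
    y ∈ fixSub Ω R ↔ ∀ r ∈ R, r • y = y :=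
  ⟨fun h r hr => h ⟨r, hr⟩, fun h r => h r.1 r.2⟩

theorem altInd_of_fixSub {G Ω : Type*} [Group G] [MulAction G Ω] {R : Subgroup G} {t : ℕ}
    (h : AltInd (Subgroup.normalizer (R : Set G)) (fixSub Ω R) t) : AltInd G Ω t := by
  obtain ⟨δ, hδ⟩ := h
  refine ⟨δ.trans (Function.Embedding.subtype _), fun σ hσ => ?_⟩
  obtain ⟨g, hg⟩ := hδ σ hσ
  refine ⟨(g : G), fun i => ?_⟩
  exact congrArg Subtype.val (hg i)

section
variable {G Ω : Type*} [Group G] [Finite G] [MulAction G Ω] [Finite Ω]

theorem conj_ptStab {t : ℕ} {w w' : Fin t ↪ Ω} {g : G} (h : ∀ i, g • w i = w' i) {x : G}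
    (hx : x ∈ ptStab G w) : g * x * g⁻¹ ∈ ptStab G w' := by
  rw [mem_pt] at hx ⊢
  intro i
  rw [mul_smul, mul_smul, ← h i, inv_smul_smul, hx i]

/-- Witt's lemma for a Sylow subgroup of a stabilizer -/
theorem witt {t : ℕ} (ht : IsMultiplyPretransitive G Ω t) {p : ℕ} [hp : Fact p.Prime]
    (R : Subgroup G) (hR : IsPGroup p R) (w0 : Fin t ↪ Ω) (hw0 : R ≤ ptStab G w0)
    (hsyl : ∀ P : Subgroup G, IsPGroup p P → P ≤ ptStab G w0 → R ≤ P → P = R) :
    IsMultiplyPretransitive (Subgroup.normalizer (R : Set G)) (fixSub Ω R) t := by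
  classical
  haveI := ht
  -- `R` is a Sylow subgroup of the stabilizer of each tuple of fixed points
  have hall : ∀ w : Fin t ↪ Ω, R ≤ ptStab G w → ∀ P : Subgroup G, IsPGroup p P →
      P ≤ ptStab G w → Nat.card P ≤ Nat.card R := by
    intro w _ P hP hPw
    obtain ⟨g, hg⟩ := exists_smul_eq G w w0
    have hg' : ∀ i, g • w i = w0 i := fun i => DFunLike.congr_fun hg i
    -- conjugate into the stabilizer of `w0`
    have h1 : P.map (MulAut.conj g).toMonoidHom ≤ ptStab G w0 := by
      rintro _ ⟨x, hx, rfl⟩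
      have := conj_ptStab hg' (hPw hx)
      simpa using this
    have h2 : IsPGroup p (P.map (MulAut.conj g).toMonoidHom) := hP.map _
    -- Sylow theory inside the stabilizer
    have hRsub : IsPGroup p (R.subgroupOf (ptStab G w0)) :=
      hR.of_equiv (Subgroup.subgroupOfEquivOfLe hw0).symm
    obtain ⟨Q, hQ⟩ := hRsub.exists_le_sylow
    have hQR : (Q : Subgroup (ptStab G w0)).map (ptStab G w0).subtype = R := by
      apply hsyl
      · exact Q.2.map _
      · rintro _ ⟨x, -, rfl⟩
        exact x.2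
      · intro x hx
        exact ⟨⟨x, hw0 hx⟩, hQ hx, rfl⟩
    have h3 : IsPGroup p ((P.map (MulAut.conj g).toMonoidHom).subgroupOf (ptStab G w0)) :=
      h2.of_equiv (Subgroup.subgroupOfEquivOfLe h1).symm
    obtain ⟨Q', hQ'⟩ := h3.exists_le_sylow
    calc Nat.card P = Nat.card (P.map (MulAut.conj g).toMonoidHom) :=
          Nat.card_congr (P.equivMapOfInjective (MulAut.conj g).toMonoidHom
            (MulAut.conj g).injective).toEquiv
      _ = Nat.card ((P.map (MulAut.conj g).toMonoidHom).subgroupOf (ptStab G w0)) :=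
          (Nat.card_congr (Subgroup.subgroupOfEquivOfLe h1).toEquiv).symm
      _ ≤ Nat.card Q' := Subgroup.card_le_of_le hQ'
      _ = Nat.card Q := Nat.card_congr (Sylow.equiv Q' Q).toEquiv
      _ = Nat.card ((Q : Subgroup (ptStab G w0)).map (ptStab G w0).subtype) :=
          Nat.card_congr ((Q : Subgroup (ptStab G w0)).equivMapOfInjective (ptStab G w0).subtype
            (ptStab G w0).subtype_injective).toEquiv
      _ = Nat.card R := by rw [hQR]
  refine ⟨fun v v' => ?_⟩
  let w : Fin t ↪ Ω := v.trans (Function.Embedding.subtype _)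
  let w' : Fin t ↪ Ω := v'.trans (Function.Embedding.subtype _)
  have hRw : R ≤ ptStab G w := by
    intro r hr
    rw [mem_pt]
    exact fun i => mem_fixSub.1 (v i).2 r hr
  have hRw' : R ≤ ptStab G w' := by
    intro r hr
    rw [mem_pt]
    exact fun i => mem_fixSub.1 (v' i).2 r hr
  obtain ⟨g, hg⟩ := exists_smul_eq G w w'
  have hg' : ∀ i, g • w i = w' i := fun i => DFunLike.congr_fun hg i
  -- two Sylow subgroups of the stabilizer of `w'`
  have hR2 : R.map (MulAut.conj g).toMonoidHom ≤ ptStab G w' := by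
    rintro _ ⟨x, hx, rfl⟩
    have := conj_ptStab hg' (hRw hx)
    simpa using this
  have hs1 : IsPGroup p (R.subgroupOf (ptStab G w')) :=
    hR.of_equiv (Subgroup.subgroupOfEquivOfLe hRw').symm
  have hs2 : IsPGroup p ((R.map (MulAut.conj g).toMonoidHom).subgroupOf (ptStab G w')) :=
    (hR.map _).of_equiv (Subgroup.subgroupOfEquivOfLe hR2).symm
  obtain ⟨Q1, hQ1⟩ := hs1.exists_le_sylow
  obtain ⟨Q2, hQ2⟩ := hs2.exists_le_sylow
  have hcardQ : ∀ Q : Sylow p (ptStab G w'), Nat.card Q ≤ Nat.card R := by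
    intro Q
    have h1 := hall w' hRw' ((Q : Subgroup (ptStab G w')).map (ptStab G w').subtype) (Q.2.map _) (by
      rintro _ ⟨x, -, rfl⟩
      exact x.2)
    rwa [← Nat.card_congr ((Q : Subgroup (ptStab G w')).equivMapOfInjective (ptStab G w').subtype
      (ptStab G w').subtype_injective).toEquiv] at h1
  have e1 : R.subgroupOf (ptStab G w') = Q1 := by
    apply Subgroup.eq_of_le_of_card_ge hQ1
    rw [Nat.card_congr (Subgroup.subgroupOfEquivOfLe hRw').toEquiv]
    exact hcardQ Q1
  have e2 : (R.map (MulAut.conj g).toMonoidHom).subgroupOf (ptStab G w') = Q2 := by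
    apply Subgroup.eq_of_le_of_card_ge hQ2
    rw [Nat.card_congr (Subgroup.subgroupOfEquivOfLe hR2).toEquiv,
      ← Nat.card_congr (R.equivMapOfInjective (MulAut.conj g).toMonoidHom
            (MulAut.conj g).injective).toEquiv]
    exact hcardQ Q2
  obtain ⟨k, hk⟩ := exists_smul_eq (ptStab G w') Q2 Q1
  -- `k g` normalizes `R`
  have hkg : ∀ x, x ∈ R → ((k : G) * g) * x * ((k : G) * g)⁻¹ ∈ R := by
    intro x hx
    have h1 : g * x * g⁻¹ ∈ ptStab G w' := conj_ptStab hg' (hRw hx)
    have h2 : (⟨_, h1⟩ : ptStab G w') ∈ (Q2 : Subgroup (ptStab G w')) := by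
      rw [← e2, Subgroup.mem_subgroupOf]
      exact ⟨x, hx, by simp⟩
    have h3 : k * ⟨_, h1⟩ * k⁻¹ ∈ (Q1 : Subgroup (ptStab G w')) := by
      rw [← hk, Sylow.coe_subgroup_smul]
      have h4 : (MulAut.conj k) • (⟨_, h1⟩ : ptStab G w') ∈
          (MulAut.conj k) • (Q2 : Subgroup (ptStab G w')) :=
        Subgroup.smul_mem_pointwise_smul _ _ _ h2
      exact h4
    rw [← e1, Subgroup.mem_subgroupOf] at h3
    have h4 : (k : G) * (g * x * g⁻¹) * (k : G)⁻¹ ∈ R := h3
    have h5 : (k : G) * g * x * ((k : G) * g)⁻¹ = (k : G) * (g * x * g⁻¹) * (k : G)⁻¹ := by group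
    rw [h5]; exact h4
  have hmap : R.map (MulAut.conj ((k : G) * g)).toMonoidHom = R := by
    apply Subgroup.eq_of_le_of_card_ge
    · rintro _ ⟨x, hx, rfl⟩
      exact hkg x hx
    · rw [← Nat.card_congr (R.equivMapOfInjective (MulAut.conj ((k : G) * g)).toMonoidHom
            (MulAut.conj ((k : G) * g)).injective).toEquiv]
  have hnorm : (k : G) * g ∈ Subgroup.normalizer (R : Set G) := by
    rw [Subgroup.mem_normalizer_iff]
    intro x
    constructor
    · exact hkg x
    · intro hx
      have hx' : (k : G) * g * x * ((k : G) * g)⁻¹ ∈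
          R.map (MulAut.conj ((k : G) * g)).toMonoidHom := by rw [hmap]; exact hx
      obtain ⟨y, hy, hyx⟩ := hx'
      have h1 : y = x := by
        apply (MulAut.conj ((k : G) * g)).injective
        exact hyx
      rw [← h1]; exact hy
  refine ⟨⟨_, hnorm⟩, ?_⟩
  ext i
  change ((k : G) * g) • (v i : Ω) = (v' i : Ω)
  rw [mul_smul]
  have h1 : g • (v i : Ω) = v' i := hg' i
  rw [h1]
  exact mem_pt.1 k.2 i

/-- conjugate tuples have conjugate stabilizers: a maximal `p`-subgroup with many fixed points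
has a multiply transitive normalizer -/
theorem norm_trans {t : ℕ} (ht1 : 1 ≤ t) (ht : IsMultiplyPretransitive G Ω t) {p : ℕ}
    [hp : Fact p.Prime] (R : Subgroup G) (hR : IsPGroup p R)
    (hfix : t < Nat.card (fixedPoints R Ω))
    (hmax : ∀ P : Subgroup G, IsPGroup p P → R < P → Nat.card (fixedPoints P Ω) ≤ t) :
    IsMultiplyPretransitive (Subgroup.normalizer (R : Set G)) (fixSub Ω R) t := by
  classical
  by_cases hcase : ∃ w0 : Fin t ↪ Ω, R ≤ ptStab G w0 ∧
      ∀ P : Subgroup G, IsPGroup p P → P ≤ ptStab G w0 → R ≤ P → P = R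
  · obtain ⟨w0, hw0, hsyl⟩ := hcase
    exact witt ht R hR w0 hw0 hsyl
  · push Not at hcase
    haveI := Fintype.ofFinite Ω
    apply H20.unif_multiply hp.out.one_lt t _ (fixSub Ω R) ht1 hfix
    intro s hs
    -- a tuple enumerating `s`
    obtain ⟨e⟩ : Nonempty (Fin t ≃ s) := by
      rw [← Fintype.card_eq, Fintype.card_fin, Fintype.card_coe, hs]
    let w : Fin t ↪ Ω := (e.toEmbedding.trans (Function.Embedding.subtype _)).trans
      (Function.Embedding.subtype _)
    have hRw : R ≤ ptStab G w := by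
      intro r hr
      rw [mem_pt]
      exact fun i => mem_fixSub.1 (e i).1.2 r hr
    obtain ⟨P, hP, hPw, hRP, hPR⟩ := hcase w hRw
    -- the normalizer condition in `P`
    have hlt : R.subgroupOf P ≠ ⊤ := by
      intro h
      apply hPR
      rw [Subgroup.subgroupOf_eq_top] at h
      exact le_antisymm h hRP
    haveI : Group.IsNilpotent P := hP.isNilpotent
    have hnc := Group.normalizerCondition_of_isNilpotent (G := P) (R.subgroupOf P) (lt_top_iff_ne_top.2 hlt)
    set M : Subgroup G := (Subgroup.normalizer ((R.subgroupOf P : Subgroup P) : Set P)).map P.subtype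
      with hM
    have hMP : IsPGroup p M := by
      apply hP.to_le
      rintro _ ⟨x, -, rfl⟩
      exact x.2
    have hRM : R < M := by
      refine lt_of_le_of_ne ?_ ?_
      · intro x hx
        exact ⟨⟨x, hRP hx⟩, hnc.le hx, rfl⟩
      · intro heq
        apply hnc.ne
        ext x
        constructor
        · exact fun hx => hnc.le hx
        · intro hx
          rw [Subgroup.mem_subgroupOf, heq]
          exact ⟨x, hx, rfl⟩
    have hMN : M ≤ Subgroup.normalizer (R : Set G) := by
      rintro _ ⟨x, hx, rfl⟩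
      rw [SetLike.mem_coe, Subgroup.mem_normalizer_iff] at hx
      rw [Subgroup.mem_normalizer_iff]
      intro y
      constructor
      · intro hy
        have := (hx ⟨y, hRP hy⟩).1 hy
        exact this
      · intro hy
        have hyP : y ∈ P := by
          have h1 : (x : G) * y * (x : G)⁻¹ ∈ P := hRP hy
          have h2 := P.mul_mem (P.mul_mem (P.inv_mem x.2) h1) x.2
          have h3 : (x : G)⁻¹ * ((x : G) * y * (x : G)⁻¹) * x = y := by group
          rwa [h3] at h2
        exact (hx ⟨y, hyP⟩).2 hy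
    have hMfix := hmax M hMP hRM
    -- the fixed points of `M` are exactly the points of `s`
    have hMw : ∀ g ∈ M, ∀ i, g • w i = w i := by
      rintro _ ⟨x, -, rfl⟩ i
      exact mem_pt.1 (hPw x.2) i
    have hrange : Set.range w = fixedPoints M Ω := by
      refine Set.eq_of_subset_of_ncard_le ?_ ?_ (Set.toFinite _)
      · rintro _ ⟨i, rfl⟩ ⟨g, hg⟩
        exact hMw g hg i
      · rw [Set.ncard_range_of_injective w.injective, Nat.card_eq_fintype_card, Fintype.card_fin]
        exact hMfix
    refine ⟨M.subgroupOf (Subgroup.normalizer (R : Set G)), ?_, ?_⟩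
    · intro a ha g hg
      apply Subtype.ext
      have h1 := hMw (g : G) hg (e.symm ⟨a, ha⟩)
      have h2 : w (e.symm ⟨a, ha⟩) = a := by
        change ((e (e.symm ⟨a, ha⟩) : s) : fixSub Ω R).1 = a
        rw [Equiv.apply_symm_apply]
      rw [h2] at h1
      exact h1
    · intro x hx
      have hpg : IsPGroup p (M.subgroupOf (Subgroup.normalizer (R : Set G))) :=
        hMP.of_equiv (Subgroup.subgroupOfEquivOfLe hMN).symm
      obtain ⟨n, hn⟩ := hpg.card_orbit x
      rw [hn]
      rcases Nat.eq_zero_or_pos n with rfl | hn0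
      · exfalso
        apply hx
        rw [pow_zero] at hn
        have h1 : (x : Ω) ∈ fixedPoints M Ω := by
          rintro ⟨g, hg⟩
          have h2 : (⟨⟨g, hMN hg⟩, hg⟩ : M.subgroupOf (Subgroup.normalizer (R : Set G))) • x = x := by
            obtain ⟨z, hz⟩ := Nat.card_eq_one_iff_exists.1 hn
            have h3 := hz ⟨x, mem_orbit_self x⟩
            have h4 := hz ⟨_, mem_orbit x
              (⟨⟨g, hMN hg⟩, hg⟩ : M.subgroupOf (Subgroup.normalizer (R : Set G)))⟩
            exact congrArg Subtype.val (h4.trans h3.symm)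
          exact congrArg Subtype.val h2
        rw [← hrange] at h1
        obtain ⟨i, hi⟩ := h1
        have h2 : x = (e i).1 := Subtype.ext hi.symm
        rw [h2]
        exact (e i).2
      · exact dvd_pow_self p hn0.ne'

end

end Cfsg.Agent.H74.LW
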