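import Cfsg.Agent.H74.LW9

/-!
Livingstone–Wagner, the final step: `(m-1)`-transitive and `m`-homogeneous, `m ≥ 5`, degree at
least `m + 2`.
-/

set_option autoImplicit false
universe u

namespace Cfsg.Agent.H74.LW

open MulAction
open AN (ptStab)
open AC (setStab mem_setStab mem_of_perm)

open scoped Pointwise commutatorElement

section

variable {Ω : Type u} [Fintype Ω] [DecidableEq Ω]

theorem trans_of_three_cycle (G : Subgroup (Equiv.Perm Ω)) {m : ℕ}
    (ht : IsMultiplyPretransitive G Ω 2) (hn : m + 2 ≤ Fintype.card Ω)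
    {g : G} (hg : (toPerm g : Equiv.Perm Ω).IsThreeCycle) :
    IsMultiplyPretransitive G Ω m := by
  have hp : IsPreprimitive G Ω := isPreprimitive_of_is_two_pretransitive ht
  have hle : alternatingGroup Ω ≤ G :=
    Equiv.Perm.alternatingGroup_le_of_isPreprimitive_of_isThreeCycle_mem hp hg g.2
  have hA := alternatingGroup.isMultiplyPretransitive Ω
  rw [← Nat.card_eq_fintype_card] at hn
  have hA' : IsMultiplyPretransitive (alternatingGroup Ω) Ω m :=
    isMultiplyPretransitive_of_le (n := Nat.card Ω - 2) (by omega) (by omega)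
  constructor
  intro x y
  obtain ⟨a, ha⟩ := hA'.exists_smul_eq x y
  exact ⟨⟨a, hle a.2⟩, ha⟩

/-- the contradiction, given a good normal subgroup of the stabilizer of `s` points -/
theorem false_of_normal (G : Subgroup (Equiv.Perm Ω)) {s : ℕ} (hs : 3 ≤ s)
    (ht : IsMultiplyPretransitive G Ω (s + 1)) (hh : Homog G Ω (s + 2))
    (hnt : ¬ IsMultiplyPretransitive G Ω (s + 2)) (hn : s + 4 ≤ Fintype.card Ω)
    (u : Fin s ↪ Ω)
    (N : Subgroup (ptStab G u)) (hN : N.Normal) (hN1 : N ≠ ⊥)
    (hNinv : ∀ (j : G) (hj : ∀ k ∈ ptStab G u, j * k * j⁻¹ ∈ ptStab G u),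
      (∀ y, y ∉ Set.range u → j • y ∉ Set.range u) →
      ∀ n, n ∈ N → (⟨j * (n : G) * j⁻¹, hj n n.2⟩ : ptStab G u) ∈ N)
    (hNfree : ∀ n ∈ N, ∀ x, x ∉ Set.range u → (n : G) • x = x → n = 1) : False := by
  have hall : ∀ (w : Fin (s + 2) ↪ Ω) (σ : Equiv.Perm (Fin (s + 2))),
      σ ∈ alternatingGroup (Fin (s + 2)) → ∃ g : G, ∀ i, g • w i = w (σ i) := fun w σ hσ =>
    all_even (by omega) ht (by rw [Nat.card_eq_fintype_card]; omega) hh w hσ
  have hodd : ∀ (w : Fin (s + 2) ↪ Ω) (σ : Equiv.Perm (Fin (s + 2))) (g : G),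
      (∀ i, g • w i = w (σ i)) → σ ∈ alternatingGroup (Fin (s + 2)) := fun w σ g hg =>
    no_odd hall hh hnt w hg
  have hO := odd_ptStab hodd u
  obtain ⟨w0, hw0⟩ : ∃ w0 : Ω, w0 ∉ Set.range u := by
    by_contra hcon
    push Not at hcon
    have h1 : Function.Surjective u := fun x => hcon x
    have := Fintype.card_le_of_surjective _ h1
    rw [Fintype.card_fin] at this
    omega
  obtain ⟨g, hg⟩ := three_cycle hs ht hodd u N hNinv
    (fun x y hx hy => normal_trans hall hh u N hN hN1 hx hy) hNfree hO hw0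
  have ht2 : IsMultiplyPretransitive G Ω 2 :=
    isMultiplyPretransitive_of_le (n := s + 1) (by omega)
      (by rw [Nat.card_eq_fintype_card]; omega)
  exact hnt (trans_of_three_cycle G ht2 hn hg)

theorem ptStab_nontrivial (G : Subgroup (Equiv.Perm Ω)) {s : ℕ} 
    (ht : IsMultiplyPretransitive G Ω (s + 1)) (hn : s + 2 ≤ Fintype.card Ω)
    (u : Fin s ↪ Ω) : Nontrivial (ptStab G u) := by
  obtain ⟨x, hx⟩ : ∃ x : Ω, x ∉ Set.range u := by
    by_contra hcon
    push Not at hcon
    have h1 : Function.Surjective u := fun x => hcon x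
    have := Fintype.card_le_of_surjective _ h1
    rw [Fintype.card_fin] at this
    omega
  obtain ⟨y, hy, hxy⟩ : ∃ y : Ω, y ∉ Set.range u ∧ x ≠ y := by
    by_contra hcon
    push Not at hcon
    have h1 : Function.Surjective (Fin.Embedding.snoc u hx) := by
      intro y
      by_cases hy : y ∈ Set.range u
      · obtain ⟨i, rfl⟩ := hy
        exact ⟨i.castSucc, by simp⟩
      · refine ⟨Fin.last s, ?_⟩
        rw [← hcon y hy]
        simp
    have := Fintype.card_le_of_surjective _ h1
    rw [Fintype.card_fin] at this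
    omega
  obtain ⟨g, hg⟩ := ht.exists_smul_eq (Fin.Embedding.snoc u hx) (Fin.Embedding.snoc u hy)
  have h1 : g ∈ ptStab G u := by
    rw [mem_pt]
    intro i
    have := DFunLike.congr_fun hg i.castSucc
    simpa using this
  have h2 : g • x = y := by
    have := DFunLike.congr_fun hg (Fin.last s)
    simpa using this
  refine ⟨⟨⟨g, h1⟩, 1, fun h => hxy ?_⟩⟩
  have h3 : g = 1 := congrArg Subtype.val h
  rw [← h2, h3, one_smul]

/-- the case in which the stabilizer of `m - 2` points is solvable -/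
theorem trans_of_solvable (G : Subgroup (Equiv.Perm Ω)) {s : ℕ} (hs : 3 ≤ s)
    (ht : IsMultiplyPretransitive G Ω (s + 1)) (hh : Homog G Ω (s + 2))
    (hn : s + 4 ≤ Fintype.card Ω)
    (hsol : ∀ u : Fin s ↪ Ω, Odd (Nat.card (ptStab G u)) → Group.IsSolvable (ptStab G u)) :
    IsMultiplyPretransitive G Ω (s + 2) := by
  by_contra hnt
  have hall : ∀ (w : Fin (s + 2) ↪ Ω) (σ : Equiv.Perm (Fin (s + 2))),
      σ ∈ alternatingGroup (Fin (s + 2)) → ∃ g : G, ∀ i, g • w i = w (σ i) := fun w σ hσ =>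
    all_even (by omega) ht (by rw [Nat.card_eq_fintype_card]; omega) hh w hσ
  have hodd : ∀ (w : Fin (s + 2) ↪ Ω) (σ : Equiv.Perm (Fin (s + 2))) (g : G),
      (∀ i, g • w i = w (σ i)) → σ ∈ alternatingGroup (Fin (s + 2)) := fun w σ g hg =>
    no_odd hall hh hnt w hg
  obtain ⟨u⟩ : Nonempty (Fin s ↪ Ω) := by
    rw [Function.Embedding.nonempty_iff_card_le, Fintype.card_fin]
    omega
  have hO := odd_ptStab hodd u
  have hS := hsol u hO
  have hnt1 := ptStab_nontrivial G ht (by omega) u
  obtain ⟨n, hn0, hn1⟩ : ∃ n, derivedSeries (ptStab G u) n ≠ ⊥ ∧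
      derivedSeries (ptStab G u) (n + 1) = ⊥ := by
    obtain ⟨n, hn⟩ := (Group.isSolvable_def _).1 hS
    classical
    have hex : ∃ n, derivedSeries (ptStab G u) n = ⊥ := ⟨n, hn⟩
    have h0 : Nat.find hex ≠ 0 := by
      intro h0
      have := Nat.find_spec hex
      rw [h0, derivedSeries_zero] at this
      exact top_ne_bot this
    obtain ⟨k, hk⟩ := Nat.exists_eq_succ_of_ne_zero h0
    refine ⟨k, Nat.find_min hex (by omega), ?_⟩
    have := Nat.find_spec hex
    rwa [hk] at this
  have hcomm : ∀ a ∈ derivedSeries (ptStab G u) n, ∀ b ∈ derivedSeries (ptStab G u) n,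
      a * b = b * a := by
    intro a ha b hb
    have h1 : ⁅a, b⁆ ∈ derivedSeries (ptStab G u) (n + 1) := by
      rw [derivedSeries_succ]
      exact Subgroup.commutator_mem_commutator ha hb
    rw [hn1, Subgroup.mem_bot] at h1
    exact commutatorElement_eq_one_iff_mul_comm.1 h1
  have hNn : (derivedSeries (ptStab G u) n).Normal := derivedSeries_normal _ n
  refine false_of_normal G hs ht hh hnt hn u (derivedSeries (ptStab G u) n)
    hNn hn0 ?_ ?_
  · intro j hj _ k hk
    let f : ptStab G u →* ptStab G u :=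
      { toFun := fun k => ⟨j * (k : G) * j⁻¹, hj k k.2⟩
        map_one' := by
          apply Subtype.ext
          simp
        map_mul' := fun a b => by
          apply Subtype.ext
          simp [mul_assoc] }
    exact map_derivedSeries_le_derivedSeries f n ⟨k, hk, rfl⟩
  · intro k hk x hx hkx
    apply Subtype.ext
    apply FaithfulSMul.eq_of_smul_eq_smul (M := G) (α := Ω)
    intro y
    change (k : G) • y = (1 : G) • y
    rw [one_smul]
    by_cases hy : y ∈ Set.range u
    · obtain ⟨i, rfl⟩ := hy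
      exact mem_pt.1 k.2 i
    · obtain ⟨l, hl, rfl⟩ := normal_trans hall hh u _ hNn hn0 hx hy
      have h1 : (k : G) * (l : G) = (l : G) * (k : G) := congrArg Subtype.val (hcomm k hk l hl)
      rw [← mul_smul, h1, mul_smul, hkx]

end

end Cfsg.Agent.H74.LW
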