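import Cfsg.Agent.H74.LW10
import Cfsg.Agent.H12.SmallPrimeDegree
import Cfsg.Agent.S0680

/-!
Livingstone–Wagner: counting in the groups in which the pointwise stabilizers of `m`-sets are
trivial.
-/

set_option autoImplicit false
set_option linter.unusedSectionVars false
set_option linter.style.haveILetI false
universe u

namespace Cfsg.Agent.H74.LW

open MulAction
open AN (ptStab)
open AC (setStab mem_setStab mem_of_perm)

open scoped Pointwise

section

variable {G Ω : Type*} [Group G] [Finite G] [MulAction G Ω] [FaithfulSMul G Ω] [Finite Ω]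

/-- `G × Sym(m)` acts on the `m`-tuples -/
@[reducible] def prodAct (G Ω : Type*) [Group G] [MulAction G Ω] (m : ℕ) :
    MulAction (G × Equiv.Perm (Fin m)) (Fin m ↪ Ω) where
  smul x w := x.1 • ((x.2⁻¹ : Equiv.Perm (Fin m)).toEmbedding.trans w)
  one_smul w := by
    ext i
    change (1 : G) • w i = w i
    rw [one_smul]
  mul_smul x y w := by
    ext i
    change (x.1 * y.1) • w ((x.2 * y.2)⁻¹ i) = x.1 • y.1 • w (y.2⁻¹ (x.2⁻¹ i))
    rw [mul_smul, mul_inv_rev, Equiv.Perm.mul_apply]

theorem card_homog {m : ℕ} (hh : Homog G Ω m) (w : Fin m ↪ Ω) (hw : ptStab G w = ⊥) :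
    Nat.card G * m.factorial = (Nat.card Ω).descFactorial m * Nat.card (indSub G w) := by
  classical
  letI := prodAct G Ω m
  haveI := Fintype.ofFinite Ω
  have hsm : ∀ (g : G) (σ : Equiv.Perm (Fin m)) (v : Fin m ↪ Ω) (i : Fin m),
      ((g, σ) • v) i = g • v (σ⁻¹ i) := fun g σ v i => rfl
  have htr : IsPretransitive (G × Equiv.Perm (Fin m)) (Fin m ↪ Ω) := by
    constructor
    intro x y
    obtain ⟨g, σ, h⟩ := hh x y
    refine ⟨(g, σ), ?_⟩
    ext i
    rw [hsm, h]
    simp
  have h1 := MulAction.index_stabilizer_of_transitive (G := G × Equiv.Perm (Fin m)) w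
  have h2 := (stabilizer (G × Equiv.Perm (Fin m)) w).card_mul_index
  rw [h1, Nat.card_prod, Nat.card_perm, Nat.card_eq_fintype_card (α := Fin m), Fintype.card_fin,
    Nat.card_eq_fintype_card (α := Fin m ↪ Ω), Fintype.card_embedding_eq, Fintype.card_fin] at h2
  rw [← h2, mul_comm, Nat.card_eq_fintype_card (α := Ω)]
  congr 1
  have hmem : ∀ x : G × Equiv.Perm (Fin m), x ∈ stabilizer (G × Equiv.Perm (Fin m)) w ↔
      ∀ i, x.1 • w i = w (x.2 i) := by
    intro x
    rw [mem_stabilizer_iff]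
    constructor
    · intro h i
      have := DFunLike.congr_fun h (x.2 i)
      rw [← this]
      change _ = x.1 • w (x.2⁻¹ (x.2 i))
      simp
    · intro h
      ext i
      change x.1 • w (x.2⁻¹ i) = w i
      rw [h]
      simp
  refine Nat.card_congr (Equiv.ofBijective
    (fun x : stabilizer (G × Equiv.Perm (Fin m)) w =>
      (⟨(x : G × Equiv.Perm (Fin m)).2, (x : G × Equiv.Perm (Fin m)).1,
        (hmem x).1 x.2⟩ : indSub G w)) ⟨?_, ?_⟩)
  · rintro ⟨⟨g, σ⟩, hx⟩ ⟨⟨g', σ'⟩, hx'⟩ h
    have h3 : σ = σ' := congrArg Subtype.val h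
    subst h3
    have h4 : g'⁻¹ * g ∈ ptStab G w := by
      rw [mem_pt]
      intro i
      rw [mul_smul, (hmem _).1 hx i, ← (hmem _).1 hx' i, inv_smul_smul]
    rw [hw, Subgroup.mem_bot, inv_mul_eq_one] at h4
    subst h4
    rfl
  · rintro ⟨σ, g, hg⟩
    exact ⟨⟨(g, σ), (hmem _).2 hg⟩, rfl⟩

theorem indSub_ne_top {m : ℕ} (hh : Homog G Ω m) (hnt : ¬ IsMultiplyPretransitive G Ω m)
    (w : Fin m ↪ Ω) : indSub G w ≠ ⊤ := by
  intro h
  apply hnt
  constructor
  intro x y
  obtain ⟨g, σ, hg⟩ := hh w x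
  obtain ⟨k, τ, hk⟩ := hh w y
  obtain ⟨e, he⟩ : (τ⁻¹ * σ) ∈ indSub G w := by rw [h]; trivial
  refine ⟨k * e * g⁻¹, ?_⟩
  ext i
  change (k * e * g⁻¹) • x i = y i
  have h1 : g⁻¹ • x i = w (σ⁻¹ i) := by
    rw [inv_smul_eq_iff, hg]
    simp
  rw [mul_smul, mul_smul, h1, he, hk]
  simp

theorem exists_swap {s : ℕ} (v : Fin (s + 1) ↪ Ω) (hc : Even (Nat.card (ptStab G v))) :
    ∃ w : Fin (s + 2) ↪ Ω,
      Equiv.swap (Fin.last s).castSucc (Fin.last (s + 1)) ∈ indSub G w := by
  classical
  haveI := Fact.mk Nat.prime_two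
  obtain ⟨t, ht⟩ := exists_prime_orderOf_dvd_card' (G := ptStab G v) 2 hc.two_dvd
  have ht1 : t ≠ 1 := by
    rintro rfl
    rw [orderOf_one] at ht
    omega
  have htt : t * t = 1 := by
    have := pow_orderOf_eq_one t
    rwa [ht, pow_two] at this
  obtain ⟨y, hy⟩ : ∃ y : Ω, (t : G) • y ≠ y := by
    by_contra hcon
    push Not at hcon
    apply ht1
    apply Subtype.ext
    apply FaithfulSMul.eq_of_smul_eq_smul (M := G) (α := Ω)
    intro y
    rw [hcon y]
    exact (one_smul _ _).symm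
  have htty : (t : G) • (t : G) • y = y := by
    rw [← mul_smul]
    have : ((t : G) * (t : G)) = 1 := congrArg Subtype.val htt
    rw [this, one_smul]
  let u : Fin s ↪ Ω := Fin.castSuccEmb.trans v
  have hu : ∀ i, u i = v i.castSucc := fun i => rfl
  have hfix : ∀ i, (t : G) • u i = u i := fun i => mem_pt.1 t.2 i.castSucc
  have hyu : y ∉ Set.range u := by
    rintro ⟨i, rfl⟩
    exact hy (hfix i)
  have htyu : (t : G) • y ∉ Set.range u := by
    rintro ⟨i, hi⟩
    apply hy
    rw [← hi, hfix i] at htty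
    rw [← hi, htty]
  refine ⟨ext2 u hyu htyu hy.symm, (t : G), ?_⟩
  intro i
  induction i using forall_ext2 with
  | h1 i =>
    rw [ext2_cast, hfix]
    rw [Equiv.swap_apply_of_ne_of_ne, ext2_cast]
    · intro h
      have := congrArg Fin.val h
      simp at this
      omega
    · intro h
      have := congrArg Fin.val h
      simp at this
      omega
  | h2 => rw [Equiv.swap_apply_left, ext2_one, ext2_two]
  | h3 => rw [Equiv.swap_apply_right, ext2_one, ext2_two, htty]

theorem data {s : ℕ} (hn : s + 3 ≤ Nat.card Ω) (ht : IsMultiplyPretransitive G Ω (s + 1))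
    (hh : Homog G Ω (s + 2)) (hh1 : Homog G Ω (s + 3))
    (hnt : ¬ IsMultiplyPretransitive G Ω (s + 2))
    (hbot : ∀ w : Fin (s + 2) ↪ Ω, ptStab G w = ⊥) :
    ∃ t c u : ℕ, 0 < t ∧ 0 < c ∧ 0 < u ∧ t ∣ (s + 2).factorial ∧ t ≠ (s + 2).factorial ∧
      c * (s + 2).factorial = (Nat.card Ω - (s + 1)) * t ∧
      (s + 3) * t = (Nat.card Ω - (s + 2)) * u ∧
      Nat.card G = (Nat.card Ω).descFactorial (s + 1) * c ∧
      (Even c → Even t ∧ 2 * t ≠ (s + 2).factorial) ∧
      ∀ v : Fin (s + 1) ↪ Ω, Nat.card (ptStab G v) = c := by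
  classical
  haveI := Fintype.ofFinite Ω
  obtain ⟨w3⟩ : Nonempty (Fin (s + 3) ↪ Ω) := by
    rw [Function.Embedding.nonempty_iff_card_le, Fintype.card_fin, ← Nat.card_eq_fintype_card]
    exact hn
  let w : Fin (s + 2) ↪ Ω := Fin.castSuccEmb.trans w3
  let v : Fin (s + 1) ↪ Ω := Fin.castSuccEmb.trans w
  have hbot3 : ptStab G w3 = ⊥ := by
    rw [eq_bot_iff, ← hbot w]
    intro g hg
    rw [mem_pt] at hg ⊢
    exact fun i => hg i.castSucc
  have e1 := card_homog hh w (hbot w)
  have e2 := card_homog hh1 w3 hbot3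
  have e3 := AN.card_eq (G := G) (Ω := Ω) ht v
  have hfact : (s + 3).factorial = (s + 3) * (s + 2).factorial := Nat.factorial_succ _
  have hd1 : (Nat.card Ω).descFactorial (s + 2) =
      (Nat.card Ω - (s + 1)) * (Nat.card Ω).descFactorial (s + 1) := Nat.descFactorial_succ _ _
  have hd2 : (Nat.card Ω).descFactorial (s + 3) =
      (Nat.card Ω - (s + 2)) * (Nat.card Ω).descFactorial (s + 2) := Nat.descFactorial_succ _ _
  have hpos1 : 0 < (Nat.card Ω).descFactorial (s + 1) := by
    rw [Nat.descFactorial_pos]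
    omega
  have hpos2 : 0 < (Nat.card Ω).descFactorial (s + 2) := by
    rw [Nat.descFactorial_pos]
    omega
  have hS : Nat.card (Equiv.Perm (Fin (s + 2))) = (s + 2).factorial := by
    rw [Nat.card_perm, Nat.card_eq_fintype_card, Fintype.card_fin]
  have hcard : ∀ w' : Fin (s + 2) ↪ Ω, Nat.card (indSub G w') = Nat.card (indSub G w) := by
    intro w'
    have e1' := card_homog hh w' (hbot w')
    rw [e1] at e1'
    exact (Nat.eq_of_mul_eq_mul_left hpos2 e1').symm
  have hcard1 : ∀ v' : Fin (s + 1) ↪ Ω, Nat.card (ptStab G v') = Nat.card (ptStab G v) := by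
    intro v'
    have e3' := AN.card_eq (G := G) (Ω := Ω) ht v'
    rw [e3] at e3'
    exact (Nat.eq_of_mul_eq_mul_left hpos1 e3').symm
  refine ⟨Nat.card (indSub G w), Nat.card (ptStab G v), Nat.card (indSub G w3), Nat.card_pos,
    Nat.card_pos, Nat.card_pos, ?_, ?_, ?_, ?_, e3, ?_, hcard1⟩
  · rw [← hS]
    exact Subgroup.card_subgroup_dvd_card _
  · intro h
    rw [← hS] at h
    exact indSub_ne_top hh hnt w (Subgroup.card_eq_iff_eq_top _ |>.1 h)
  · apply Nat.eq_of_mul_eq_mul_left hpos1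
    rw [← mul_assoc, ← e3, e1, hd1]
    ring
  · apply Nat.eq_of_mul_eq_mul_left hpos2
    have : Nat.card G * ((s + 3) * (s + 2).factorial) =
        (s + 3) * (Nat.card G * (s + 2).factorial) := by ring
    rw [hfact, this, e1, hd2] at e2
    linarith
  · intro hc
    obtain ⟨w', hw'⟩ := exists_swap v hc
    have hne : (Fin.last s).castSucc ≠ Fin.last (s + 1) := (Fin.castSucc_lt_last _).ne
    constructor
    · rw [← hcard w', even_iff_two_dvd]
      have h1 := Subgroup.orderOf_dvd_natCard _ hw'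
      have h0 : orderOf (Equiv.swap (Fin.last s).castSucc (Fin.last (s + 1))) = 2 := by
        refine orderOf_eq_prime ?_ ?_
        · rw [pow_two, Equiv.swap_mul_self]
        · intro h
          exact hne (Equiv.swap_eq_one_iff.1 h)
      rwa [h0] at h1
    · intro h2
      rw [← hcard w', ← hS] at h2
      have h3 := (indSub G w').card_mul_index
      have h4 : (indSub G w').index = 2 := by
        have h5 : 0 < Nat.card (indSub G w') := Nat.card_pos
        rw [← h2] at h3
        apply Nat.eq_of_mul_eq_mul_left h5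
        linarith
      have h6 := Equiv.Perm.eq_alternatingGroup_of_index_eq_two h4
      rw [h6, Equiv.Perm.mem_alternatingGroup, Equiv.Perm.sign_swap hne] at hw'
      exact absurd hw' (by decide)

/-- transitive groups of prime degree -/
theorem sylow_deg {K X : Type*} [Group K] [Finite K] [MulAction K X] [FaithfulSMul K X] [Finite X]
    (htr : IsPretransitive K X) {p : ℕ} (hp : p.Prime) (hX : Nat.card X = p) :
    ∃ d r, d ∣ p - 1 ∧ Nat.card K = p * d * r ∧ r % p = 1 := by
  classical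
  haveI := Fintype.ofFinite X
  haveI := Fact.mk hp
  let H : Subgroup (Equiv.Perm X) := (MulAction.toPermHom K X).range
  have hcard : Nat.card H = Nat.card K :=
    (Nat.card_congr (MonoidHom.ofInjective (MulAction.toPerm_injective (α := K) (β := X))).toEquiv).symm
  haveI : IsPretransitive H X := by
    constructor
    intro x y
    obtain ⟨g, hg⟩ := htr.exists_smul_eq x y
    exact ⟨⟨MulAction.toPermHom K X g, ⟨g, rfl⟩⟩, hg⟩
  obtain ⟨P⟩ : Nonempty (Sylow p H) := inferInstance
  obtain ⟨d, r, h1, -, h3, h4, -⟩ := H12.card_prime_degree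
    (by rw [← Nat.card_eq_fintype_card]; exact hX) H P
  refine ⟨d, r, h1, by rw [← hcard]; exact h3, ?_⟩
  have h5 : r % p = 1 % p := h4
  rw [h5, Nat.mod_eq_of_lt hp.one_lt]

end

end Cfsg.Agent.H74.LW
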