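import Cfsg.Agent.H74.LW11
import Cfsg.Agent.H7.SharpTrans

/-!
Livingstone–Wagner: the numerical part and the exclusion of the small cases.
-/

set_option autoImplicit false
set_option linter.unusedSectionVars false
set_option linter.style.haveILetI false
universe u

namespace Cfsg.Agent.H74.LW

open MulAction
open AN (ptStab)
open AC (setStab mem_setStab mem_of_perm)

open scoped Pointwise

theorem num0 {n t c u : ℕ} (hn : 3 ≤ n) (ht0 : 0 < t) (h1 : t ∣ 2) (h2 : t ≠ 2)
    (h3 : c * 2 = (n - 1) * t) (h4 : 3 * t = (n - 2) * u) (h5 : Even c → Even t ∧ 2 * t ≠ 2) :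
    n = 3 := by
  have ht : t = 1 := by
    have := Nat.le_of_dvd (by norm_num) h1
    omega
  subst ht
  obtain ⟨d, rfl⟩ : ∃ d, n = d + 2 := ⟨n - 2, by omega⟩
  have hd : d ∣ 3 := ⟨u, by simpa using h4⟩
  have hd3 := Nat.le_of_dvd (by norm_num) hd
  have h5' : ¬ Even c := fun h => by
    have := (h5 h).1
    exact absurd this (by decide)
  interval_cases d
  · omega
  · rfl
  · omega
  · exfalso
    have : c = 2 := by omega
    subst this
    exact h5' (by decide)

theorem num1 {n t c u : ℕ} (hn : 4 ≤ n) (ht0 : 0 < t) (h1 : t ∣ 6) (h2 : t ≠ 6)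
    (h3 : c * 6 = (n - 2) * t) (h4 : 4 * t = (n - 3) * u) (h5 : Even c → Even t ∧ 2 * t ≠ 6) :
    n = 4 ∨ (n = 5 ∧ c = 1) ∨ (n = 11 ∧ c = 3) := by
  obtain ⟨d, rfl⟩ : ∃ d, n = d + 3 := ⟨n - 3, by omega⟩
  have hd : d ∣ 4 * t := ⟨u, by simpa using h4⟩
  have ht6 := Nat.le_of_dvd (by norm_num) h1
  have hdt := Nat.le_of_dvd (by omega) hd
  have e : d + 3 - 2 = d + 1 := by omega
  rw [e] at h3
  have hd0 : 1 ≤ d := by omega
  interval_cases t
  · interval_cases d <;> omega
  · interval_cases d <;> omega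
  · have h6 : c ≠ 2 := fun h => by
      rw [h] at h5
      exact (h5 (by decide)).2 rfl
    interval_cases d <;> omega
  · omega
  · omega
  · omega

theorem num2 {n t c u : ℕ} (hn : 5 ≤ n) (ht0 : 0 < t) (h1 : t ∣ 24) (h2 : t ≠ 24)
    (h3 : c * 24 = (n - 3) * t) (h4 : 5 * t = (n - 4) * u) (h5 : Even c → Even t ∧ 2 * t ≠ 24) :
    n = 5 ∨ (n = 9 ∧ (c = 3 ∨ c = 2 ∨ c = 1)) ∨ (n = 6 ∧ c = 1) ∨ (n = 12 ∧ c = 3) ∨
      (n = 24 ∧ c = 7) ∨ (n = 7 ∧ c = 1) ∨ (n = 19 ∧ c = 4) := by
  obtain ⟨d, rfl⟩ : ∃ d, n = d + 4 := ⟨n - 4, by omega⟩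
  have hd : d ∣ 5 * t := ⟨u, by simpa using h4⟩
  have ht24 := Nat.le_of_dvd (by norm_num) h1
  have hdt := Nat.le_of_dvd (by omega) hd
  have e : d + 4 - 3 = d + 1 := by omega
  rw [e] at h3
  have hd0 : 1 ≤ d := by omega
  have ht : t = 1 ∨ t = 2 ∨ t = 3 ∨ t = 4 ∨ t = 6 ∨ t = 8 ∨ t = 12 := by
    interval_cases t <;> omega
  have hc : Even c → Even t ∧ t ≠ 12 := fun h => ⟨(h5 h).1, fun h' => (h5 h).2 (by rw [h'])⟩
  rcases ht with rfl | rfl | rfl | rfl | rfl | rfl | rfl
  · interval_cases d <;> omega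
  · interval_cases d <;> omega
  · have h6 : c ≠ 2 := fun h => by
      rw [h] at hc
      exact absurd (hc (by decide)).1 (by decide)
    interval_cases d <;> omega
  · interval_cases d <;> omega
  · interval_cases d <;> omega
  · interval_cases d <;> omega
  · have h6 : ¬ Even c := fun h => (hc h).2 rfl
    have h7 : c ≠ 2 := fun h => h6 (by rw [h]; decide)
    have h8 : c ≠ 8 := fun h => h6 (by rw [h]; decide)
    interval_cases d <;> omega

section

variable {G Ω : Type*} [Group G] [Finite G] [MulAction G Ω] [FaithfulSMul G Ω] [Finite Ω]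

theorem no_eleven (htr : IsPretransitive G Ω) (hΩ : Nat.card Ω = 11) : Nat.card G ≠ 330 := by
  intro h
  obtain ⟨d, r, h1, h2, h3⟩ := sylow_deg htr (by norm_num) hΩ
  rw [h] at h2
  have h4 := Nat.le_of_dvd (by norm_num) h1
  have h5 : 0 < d := Nat.pos_of_dvd_of_pos h1 (by norm_num)
  interval_cases d <;> omega

theorem no_twentythree (htr : IsPretransitive G Ω) (hΩ : Nat.card Ω = 23) :
    Nat.card G ≠ 3542 := by
  intro h
  obtain ⟨d, r, h1, h2, h3⟩ := sylow_deg htr (by norm_num) hΩ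
  rw [h] at h2
  have h4 := Nat.le_of_dvd (by norm_num) h1
  have h5 : 0 < d := Nat.pos_of_dvd_of_pos h1 (by norm_num)
  interval_cases d <;> omega

theorem no_nineteen (htr : IsPretransitive G Ω) (hΩ : Nat.card Ω = 19) :
    Nat.card G ≠ 23256 := by
  intro h
  obtain ⟨d, r, h1, h2, h3⟩ := sylow_deg htr (by norm_num) hΩ
  rw [h] at h2
  have h4 := Nat.le_of_dvd (by norm_num) h1
  have h5 : 0 < d := Nat.pos_of_dvd_of_pos h1 (by norm_num)
  interval_cases d <;> omega

theorem no_seven (htr : IsPretransitive G Ω) (hΩ : Nat.card Ω = 7) :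
    Nat.card G ≠ 28 := by
  intro h
  obtain ⟨d, r, h1, h2, h3⟩ := sylow_deg htr (by norm_num) hΩ
  rw [h] at h2
  have h4 := Nat.le_of_dvd (by norm_num) h1
  have h5 : 0 < d := Nat.pos_of_dvd_of_pos h1 (by norm_num)
  interval_cases d <;> omega

/-- the point stabilizer of a doubly transitive group, order and action -/
theorem stab_data (ht : IsMultiplyPretransitive G Ω 2) (a : Ω) :
    IsPretransitive (stabilizer G a) (SubMulAction.ofStabilizer G a) ∧
    FaithfulSMul (stabilizer G a) (SubMulAction.ofStabilizer G a) ∧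
    Nat.card (SubMulAction.ofStabilizer G a) + 1 = Nat.card Ω ∧
    Nat.card Ω * Nat.card (stabilizer G a) = Nat.card G := by
  have htr : IsPretransitive G Ω := isPretransitive_of_is_two_pretransitive
  refine ⟨?_, faithful_ofStabilizer a, H7.card_ofStabilizer a, card_stabilizer htr a⟩
  rw [← is_one_pretransitive_iff]
  exact (SubMulAction.ofStabilizer.isMultiplyPretransitive (G := G) (n := 1) (a := a)).1 ht

/-- the setwise stabilizer of two of nine points acting on the remaining seven -/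
def pairSub (G : Type*) {Ω : Type*} [Group G] [MulAction G Ω] {d : ℕ} (u : Fin d ↪ Ω) :
    SubMulAction (setStab G u) Ω where
  carrier := (Set.range u)ᶜ
  smul_mem' := by
    intro g y hy h
    exact hy ((g.2 y).2 h)

theorem no_nine (hΩ : Nat.card Ω = 9) (ht : IsMultiplyPretransitive G Ω 3)
    (hbot : ∀ w : Fin 4 ↪ Ω, ptStab G w = ⊥) : Nat.card G ≠ 9 * 8 * 7 * 2 := by
  classical
  intro hG
  haveI := Fintype.ofFinite Ω
  have ht2 : IsMultiplyPretransitive G Ω 2 :=
    isMultiplyPretransitive_of_le (n := 3) (by omega) (by omega)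
  obtain ⟨u⟩ : Nonempty (Fin 2 ↪ Ω) := by
    rw [Function.Embedding.nonempty_iff_card_le, Fintype.card_fin, ← Nat.card_eq_fintype_card]
    omega
  have hcompl : Nat.card (pairSub G u) = 7 := by
    have h1 : Nat.card (pairSub G u) = ((Set.range u)ᶜ).ncard := rfl
    rw [h1]
    have h2 := Set.ncard_add_ncard_compl (Set.range u)
    rw [← Nat.card_coe_set_eq (Set.range u), Nat.card_range_of_injective u.injective, hΩ] at h2
    simp only [Nat.card_eq_fintype_card, Fintype.card_fin] at h2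
    omega
  have htr : IsPretransitive (setStab G u) (pairSub G u) := by
    constructor
    rintro ⟨x, hx⟩ ⟨y, hy⟩
    obtain ⟨g, hg, hgx⟩ := AC.exists_ext (G := G) ht u u (y := x) (y' := y) hx hy
    refine ⟨⟨g, ?_⟩, Subtype.ext hgx⟩
    exact mem_of_perm (σ := 1) hg
  have hfaith : FaithfulSMul (setStab G u) (pairSub G u) := by
    constructor
    intro g h hgh
    apply Subtype.ext
    have key : ∀ x, x ∉ Set.range u → ((g : G)) • x = (h : G) • x := fun x hx =>
      congrArg Subtype.val (hgh ⟨x, hx⟩)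
    let e4 : Fin 4 ↪ Fin 7 := ⟨fun i => ⟨i, by omega⟩, fun i j hij => by
      have := congrArg Fin.val hij
      exact Fin.ext this⟩
    let e : Fin 7 ≃ pairSub G u := (Finite.equivFinOfCardEq hcompl).symm
    let w : Fin 4 ↪ Ω := (e4.trans e.toEmbedding).trans (Function.Embedding.subtype _)
    have hw : ∀ i, w i ∉ Set.range u := fun i => (e (e4 i)).2
    have h1 : (h : G)⁻¹ * g ∈ ptStab G w := by
      rw [mem_pt]
      intro i
      rw [mul_smul, key _ (hw i), inv_smul_smul]
    rw [hbot w, Subgroup.mem_bot, inv_mul_eq_one] at h1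
    exact h1.symm
  have hcard : Nat.card (setStab G u) = 28 := by
    have h1 := AN.card_eq (G := G) (Ω := Ω) ht2 u
    rw [hG, hΩ] at h1
    have h2 : Nat.card (ptStab G u) = 14 := by
      have : Nat.descFactorial 9 2 = 72 := rfl
      rw [this] at h1
      omega
    have h3 := (ind (G := G) u).ker.card_mul_index
    rw [Subgroup.index_ker, MonoidHom.range_eq_top.2 (ind_surj ht2 u), Subgroup.card_top,
      Nat.card_perm, Nat.card_eq_fintype_card (α := Fin 2), Fintype.card_fin] at h3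
    have h4 : Nat.card (ind (G := G) u).ker = Nat.card (ptStab G u) := by
      refine Nat.card_congr (Equiv.ofBijective
        (fun x : (ind (G := G) u).ker => (⟨((x : setStab G u) : G), ?_⟩ : ptStab G u)) ⟨?_, ?_⟩)
      · rw [mem_pt]
        intro i
        rw [ind_spec, MonoidHom.mem_ker.1 x.2]
        rfl
      · intro x y hxy
        have h : ((x : setStab G u) : G) = ((y : setStab G u) : G) :=
          congrArg (fun z : ptStab G u => (z : G)) hxy
        exact Subtype.ext (Subtype.ext h)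
      · rintro ⟨g, hg⟩
        have h5 : ∀ i, g • u i = u ((1 : Equiv.Perm (Fin 2)) i) := mem_pt.1 hg
        exact ⟨⟨⟨g, mem_of_perm h5⟩, MonoidHom.mem_ker.2 (ind_eq h5)⟩, rfl⟩
    rw [h4, h2] at h3
    rw [← h3]
    rfl
  exact no_seven htr hcompl hcard

theorem no_degree_seven (hΩ : Nat.card Ω = 7) (ht : IsMultiplyPretransitive G Ω 3)
    (hbot : ∀ w : Fin 3 ↪ Ω, ptStab G w = ⊥) : False := by
  classical
  haveI := Fintype.ofFinite Ω
  obtain ⟨a⟩ : Nonempty Ω := by
    rw [← not_isEmpty_iff]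
    intro h
    rw [Nat.card_of_isEmpty] at hΩ
    omega
  have ht2 : IsMultiplyPretransitive G Ω 2 :=
    isMultiplyPretransitive_of_le (n := 3) (by omega) (by omega)
  have htr' : IsPretransitive G Ω := isPretransitive_of_is_two_pretransitive
  have hfaith := faithful_ofStabilizer (G := G) a
  have hcard := H7.card_ofStabilizer (G := G) a
  rw [hΩ] at hcard
  have htr : IsMultiplyPretransitive (stabilizer G a) (SubMulAction.ofStabilizer G a) 2 :=
    (SubMulAction.ofStabilizer.isMultiplyPretransitive (G := G) (n := 2) (a := a)).1 ht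
  let X := SubMulAction.ofStabilizer G a
  haveI : Fintype X := Fintype.ofFinite _
  let H : Subgroup (Equiv.Perm X) := (MulAction.toPermHom (stabilizer G a) X).range
  haveI : IsMultiplyPretransitive H X 2 := by
    constructor
    intro x y
    obtain ⟨g, hg⟩ := htr.exists_smul_eq x y
    refine ⟨⟨MulAction.toPermHom (stabilizer G a) X g, ⟨g, rfl⟩⟩, ?_⟩
    rw [← hg]
    rfl
  obtain ⟨p, j, hp, hj, hpj, -⟩ := Cfsg.Agent.S0680.result H (by
    intro x
    rw [eq_bot_iff]
    rintro ⟨_, g, rfl⟩ hg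
    rw [mem_stabilizer_iff] at hg
    have h1 : ∀ i, ((g : G)) • ((x i : X) : Ω) = ((x i : X) : Ω) := by
      intro i
      have h2 := DFunLike.congr_fun hg i
      exact congrArg Subtype.val h2
    let w : Fin 3 ↪ Ω := Fin.Embedding.snoc (x.trans (Function.Embedding.subtype _)) (a := a) (by
      rintro ⟨i, hi⟩
      exact (x i).2 (Set.mem_singleton_iff.2 hi))
    have h3 : (g : G) ∈ ptStab G w := by
      rw [mem_pt]
      intro i
      induction i using Fin.lastCases with
      | last =>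
        have : w (Fin.last 2) = a := by
          simp only [w, Fin.Embedding.coe_snoc]
          exact Fin.snoc_last (α := fun _ => Ω) a _
        rw [this]
        exact g.2
      | cast i =>
        have : w i.castSucc = ((x i : X) : Ω) := by simp [w]
        rw [this, h1]
    rw [hbot w, Subgroup.mem_bot] at h3
    rw [Subgroup.mem_bot]
    have h4 : g = 1 := Subtype.ext h3
    subst h4
    apply Subtype.ext
    exact map_one _) (by
      rw [← Nat.card_eq_fintype_card]
      change 2 ≤ Nat.card (SubMulAction.ofStabilizer G a)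
      omega)
  rw [← Nat.card_eq_fintype_card] at hpj
  have h6 : p ^ j = 6 := by
    rw [← hpj]
    change Nat.card (SubMulAction.ofStabilizer G a) = 6
    omega
  have h2 : 2 ∣ p := Nat.prime_two.dvd_of_dvd_pow (by rw [h6]; norm_num : 2 ∣ p ^ j)
  have h3 : 3 ∣ p := Nat.prime_three.dvd_of_dvd_pow (by rw [h6]; norm_num : 3 ∣ p ^ j)
  have h2' := (Nat.prime_dvd_prime_iff_eq Nat.prime_two hp).1 h2
  have h3' := (Nat.prime_dvd_prime_iff_eq Nat.prime_three hp).1 h3
  omega

/-- degree three, four, five: the possible small cases -/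
theorem small0 (hn : 3 ≤ Nat.card Ω) (ht : IsMultiplyPretransitive G Ω 1)
    (hh : Homog G Ω 2) (hh1 : Homog G Ω 3) (hnt : ¬ IsMultiplyPretransitive G Ω 2)
    (hbot : ∀ w : Fin 2 ↪ Ω, ptStab G w = ⊥) : Nat.card Ω = 3 := by
  obtain ⟨t, c, u, h1, h2, h3, h4, h5, h6, h7, h8, h9, h10⟩ := data (s := 0) hn ht hh hh1 hnt hbot
  exact num0 hn h1 h4 h5 h6 h7 h9

theorem small1 (hn : 4 ≤ Nat.card Ω) (ht : IsMultiplyPretransitive G Ω 2)
    (hh : Homog G Ω 3) (hh1 : Homog G Ω 4) (hnt : ¬ IsMultiplyPretransitive G Ω 3)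
    (hbot : ∀ w : Fin 3 ↪ Ω, ptStab G w = ⊥) :
    Nat.card Ω = 4 ∨ (Nat.card Ω = 5 ∧ Nat.card G = 20) := by
  obtain ⟨t, c, u, h1, h2, h3, h4, h5, h6, h7, h8, h9, h10⟩ := data (s := 1) hn ht hh hh1 hnt hbot
  rcases num1 hn h1 h4 h5 h6 h7 h9 with h | ⟨h, rfl⟩ | ⟨h, rfl⟩
  · exact Or.inl h
  · right
    rw [h] at h8
    exact ⟨h, h8⟩
  · exfalso
    rw [h] at h8
    have htr : IsPretransitive G Ω := isPretransitive_of_is_two_pretransitive
    exact no_eleven htr h h8

theorem small2 (hn : 5 ≤ Nat.card Ω) (ht : IsMultiplyPretransitive G Ω 3)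
    (hh : Homog G Ω 4) (hh1 : Homog G Ω 5) (hnt : ¬ IsMultiplyPretransitive G Ω 4)
    (hbot : ∀ w : Fin 4 ↪ Ω, ptStab G w = ⊥) :
    Nat.card Ω = 5 ∨ (Nat.card Ω = 6 ∧ Nat.card G = 120) ∨
      (Nat.card Ω = 9 ∧ (Nat.card G = 504 ∨ Nat.card G = 1512)) := by
  obtain ⟨t, c, u, h1, h2, h3, h4, h5, h6, h7, h8, h9, h10⟩ := data (s := 2) hn ht hh hh1 hnt hbot
  have ht2 : IsMultiplyPretransitive G Ω 2 :=
    isMultiplyPretransitive_of_le (n := 3) (by omega) (by omega)
  have htr : IsPretransitive G Ω := isPretransitive_of_is_two_pretransitive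
  obtain ⟨a⟩ : Nonempty Ω := by
    rw [← not_isEmpty_iff]
    intro h
    rw [Nat.card_of_isEmpty] at hn
    omega
  obtain ⟨s1, s2, s3, s4⟩ := stab_data ht2 a
  rcases num2 hn h1 h4 h5 h6 h7 h9 with h | ⟨h, rfl | rfl | rfl⟩ | ⟨h, rfl⟩ | ⟨h, rfl⟩ | ⟨h, rfl⟩ |
    ⟨h, rfl⟩ | ⟨h, rfl⟩
  · exact Or.inl h
  · right; right
    rw [h] at h8
    exact ⟨h, Or.inr h8⟩
  · exfalso
    rw [h] at h8
    exact no_nine h ht hbot h8
  · right; right
    rw [h] at h8
    exact ⟨h, Or.inl h8⟩
  · right; left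
    rw [h] at h8
    exact ⟨h, h8⟩
  · exfalso
    rw [h] at h8 s3 s4
    have h11 : Nat.card (stabilizer G a) = 330 := by
      have : Nat.descFactorial 12 3 = 1320 := rfl
      rw [this] at h8
      omega
    exact no_eleven s1 (by omega) h11
  · exfalso
    rw [h] at h8 s3 s4
    have h11 : Nat.card (stabilizer G a) = 3542 := by
      have : Nat.descFactorial 24 3 = 12144 := rfl
      rw [this] at h8
      omega
    exact no_twentythree s1 (by omega) h11
  · exfalso
    refine no_degree_seven h ht fun w => ?_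
    exact Subgroup.card_eq_one.1 (h10 w)
  · exfalso
    rw [h] at h8
    exact no_nineteen htr h h8

end

end Cfsg.Agent.H74.LW
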