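import Cfsg.Agent.H74.LW12
import Cfsg.Agent.Frob.Kernel
import Cfsg.Agent.S0744

/-!
Livingstone–Wagner: the case in which the pointwise stabilizers of `m`-sets are trivial.
-/

set_option autoImplicit false
set_option linter.unusedSectionVars false
set_option linter.style.haveILetI false
universe u

namespace Cfsg.Agent.H74.LW

open MulAction Cfsg
open AN (ptStab)
open AC (setStab mem_setStab mem_of_perm)

open scoped Pointwise

section

variable {Ω : Type u} [Fintype Ω] [DecidableEq Ω]

theorem false_of_trivial (G : Subgroup (Equiv.Perm Ω)) {s : ℕ} (hs : 3 ≤ s)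
    (ht : IsMultiplyPretransitive G Ω (s + 1)) (hh : Homog G Ω (s + 2))
    (hnt : ¬ IsMultiplyPretransitive G Ω (s + 2)) (hn : s + 4 ≤ Fintype.card Ω)
    (hbot : ∀ w : Fin (s + 2) ↪ Ω, ptStab G w = ⊥) : False := by
  obtain ⟨u⟩ : Nonempty (Fin s ↪ Ω) := by
    rw [Function.Embedding.nonempty_iff_card_le, Fintype.card_fin]
    omega
  have hnt1 := ptStab_nontrivial G ht (by omega) u
  obtain ⟨w0, hw0⟩ : ∃ w0 : Ω, w0 ∉ Set.range u := by
    by_contra hcon
    push Not at hcon
    have h1 : Function.Surjective u := fun x => hcon x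
    have := Fintype.card_le_of_surjective _ h1
    rw [Fintype.card_fin] at this
    omega
  have hfree : ∀ g ∈ ptStab G u, ∀ y z : Ω, y ∉ Set.range u → z ∉ Set.range u → y ≠ z →
      g • y = y → g • z = z → g = 1 := by
    intro g hg y z hy hz hyz h1 h2
    have h3 : g ∈ ptStab G (ext2 u hy hz hyz) := by
      rw [mem_pt]
      intro i
      induction i using forall_ext2 with
      | h1 i => rw [ext2_cast]; exact mem_pt.1 hg i
      | h2 => rw [ext2_one, h1]
      | h3 => rw [ext2_two, h2]
    rw [hbot, Subgroup.mem_bot] at h3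
    exact h3
  have htrO : ∀ x y : Ω, x ∉ Set.range u → y ∉ Set.range u → ∃ g : ptStab G u, (g : G) • x = y := by
    intro x y hx hy
    obtain ⟨g, hg, h⟩ := AC.exists_ext ht u u hx hy
    exact ⟨⟨g, mem_pt.2 hg⟩, h⟩
  have hmem : ∀ (g : ptStab G u) (y : Ω), y ∉ Set.range u → (g : G) • y ∉ Set.range u := by
    rintro g y hy ⟨i, hi⟩
    have h1 : (g : G) • u i = u i := mem_pt.1 g.2 i
    have h2 : (g : G) • y = (g : G) • u i := by rw [h1, hi]
    exact hy ⟨i, (MulAction.injective _ h2).symm⟩
  let H : Subgroup (ptStab G u) := stabilizer (ptStab G u) w0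
  have hH : ∀ g : ptStab G u, g ∈ H ↔ (g : G) • w0 = w0 := fun g => Iff.rfl
  by_cases hHbot : H = ⊥
  · refine false_of_normal G hs ht hh hnt hn u ⊤ inferInstance top_ne_bot
      (fun _ _ _ _ _ => Subgroup.mem_top _) ?_
    intro n _ x hx hnx
    obtain ⟨g, rfl⟩ := htrO w0 x hw0 hx
    have h1 : g⁻¹ * n * g ∈ H := by
      rw [hH]
      change ((g : G)⁻¹ * (n : G) * (g : G)) • w0 = w0
      rw [mul_smul, mul_smul, hnx, inv_smul_smul]
    rw [hHbot, Subgroup.mem_bot] at h1
    have h2 : n = g * (g⁻¹ * n * g) * g⁻¹ := by group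
    rw [h2, h1]
    group
  · have hFr : IsFrobeniusComplement H := by
      refine ⟨hHbot, ?_, ?_⟩
      · intro htop
        obtain ⟨g, hg⟩ := exists_ne (1 : ptStab G u)
        apply hg
        have hall : ∀ k : ptStab G u, (k : G) • w0 = w0 := fun k => by
          rw [← hH, htop]
          trivial
        apply Subtype.ext
        apply FaithfulSMul.eq_of_smul_eq_smul (M := G) (α := Ω)
        intro y
        change (g : G) • y = (1 : G) • y
        rw [one_smul]
        by_cases hy : y ∈ Set.range u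
        · obtain ⟨i, rfl⟩ := hy
          exact mem_pt.1 g.2 i
        · obtain ⟨k, rfl⟩ := htrO w0 y hw0 hy
          rw [hall k, hall g]
      · intro g hg
        rw [eq_bot_iff]
        rintro x ⟨hx1, hx2⟩
        rw [Subgroup.mem_bot]
        have hx1' : (x : G) • w0 = w0 := hx1
        have hx2' : (x : G) • (g : G) • w0 = (g : G) • w0 := by
          obtain ⟨y, hy, hyx⟩ := hx2
          have hy' : (y : G) • w0 = w0 := hy
          have h1 : (x : G) = (g : G) * (y : G) * (g : G)⁻¹ := congrArg Subtype.val hyx.symm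
          rw [h1, mul_smul, mul_smul, inv_smul_smul, hy']
        exact Subtype.ext (hfree x x.2 w0 ((g : G) • w0) hw0 (hmem g w0 hw0)
          (fun h => hg ((hH g).2 h.symm)) hx1' hx2')
    obtain ⟨N, hN, hNn, hNc⟩ := Frob.exists_normal_complement hFr
    have hmemN : ∀ x, x ∈ N ↔ x = 1 ∨ ∀ g : ptStab G u, g⁻¹ * x * g ∉ H := fun x => by
      rw [← Frob.mem_frobeniusKernel_iff, ← hN]
      rfl
    have hfix : ∀ (x g : ptStab G u), g⁻¹ * x * g ∈ H ↔ (x : G) • (g : G) • w0 = (g : G) • w0 := by
      intro x g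
      rw [hH]
      change ((g : G)⁻¹ * (x : G) * (g : G)) • w0 = w0 ↔ _
      rw [mul_smul, mul_smul, inv_smul_eq_iff]
    refine false_of_normal G hs ht hh hnt hn u N hNn ?_ ?_ ?_
    · rintro rfl
      exact hFr.2.1 (Subgroup.isComplement'_bot_left.1 hNc)
    · intro j hj hjX n hn
      rw [hmemN] at hn ⊢
      rcases hn with rfl | hn
      · left
        apply Subtype.ext
        simp
      · right
        intro g hg
        rw [hfix] at hg
        -- the fixed point pulled back by `j`
        let f : {y : Ω // y ∉ Set.range u} → {y : Ω // y ∉ Set.range u} :=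
          fun y => ⟨j • (y : Ω), hjX _ y.2⟩
        have hf : Function.Injective f := by
          intro y z hyz
          exact Subtype.ext (MulAction.injective j (congrArg Subtype.val hyz))
        obtain ⟨⟨y, hy⟩, hyg⟩ := (Finite.injective_iff_surjective.1 hf)
          ⟨(g : G) • w0, hmem g w0 hw0⟩
        have hyg' : j • y = (g : G) • w0 := congrArg Subtype.val hyg
        obtain ⟨k, hk⟩ := htrO w0 y hw0 hy
        apply hn k
        rw [hfix, hk]
        rw [← hyg'] at hg
        change (j * (n : G) * j⁻¹) • j • y = j • y at hg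
        rw [mul_smul, mul_smul, inv_smul_smul] at hg
        exact MulAction.injective j hg
    · intro n hn x hx hnx
      rw [hmemN] at hn
      rcases hn with h | h
      · exact h
      · exfalso
        obtain ⟨k, hk⟩ := htrO w0 x hw0 hx
        apply h k
        rw [hfix, hk, hnx]

/-- pointwise stabilizers -/
theorem card_fixingSubgroup (G : Subgroup (Equiv.Perm Ω)) {m : ℕ} (w : Fin m ↪ Ω) :
    fixingSubgroup G ((Finset.univ.map w : Finset Ω) : Set Ω) = ptStab G w := by
  ext g
  rw [mem_pt, mem_fixingSubgroup_iff]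
  constructor
  · intro h i
    exact h (w i) (Finset.mem_coe.2 (Finset.mem_map.2 ⟨i, Finset.mem_univ _, rfl⟩))
  · intro h y hy
    obtain ⟨i, -, rfl⟩ := Finset.mem_map.1 (Finset.mem_coe.1 hy)
    exact h i

theorem exists_map {m : ℕ} (s : Finset Ω) (hs : s.card = m) :
    ∃ w : Fin m ↪ Ω, Finset.univ.map w = s := by
  let e : Fin m ≃ s := (Finset.equivFinOfCardEq hs).symm
  refine ⟨e.toEmbedding.trans (Function.Embedding.subtype _), ?_⟩
  ext y
  rw [Finset.mem_map]
  constructor
  · rintro ⟨i, -, rfl⟩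
    exact (e i).2
  · intro hy
    exact ⟨e.symm ⟨y, hy⟩, Finset.mem_univ _, by simp⟩

theorem card_ptStab_homog (G : Subgroup (Equiv.Perm Ω)) {m : ℕ} (hh : Homog G Ω m)
    (w w' : Fin m ↪ Ω) : Nat.card (ptStab G w) = Nat.card (ptStab G w') := by
  obtain ⟨g, σ, hg⟩ := hh w w'
  refine Nat.card_congr (Equiv.ofBijective
    (fun x : ptStab G w => (⟨g * (x : G) * g⁻¹, ?_⟩ : ptStab G w')) ⟨?_, ?_⟩)
  · rw [mem_pt]
    intro i
    have h1 : g⁻¹ • w' i = w (σ⁻¹ i) := by
      rw [inv_smul_eq_iff, hg]
      simp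
    rw [mul_smul, mul_smul, h1, mem_pt.1 x.2, ← h1, smul_inv_smul]
  · intro x y hxy
    have h1 : g * (x : G) * g⁻¹ = g * (y : G) * g⁻¹ := congrArg Subtype.val hxy
    exact Subtype.ext (by simpa using h1)
  · rintro ⟨y, hy⟩
    refine ⟨⟨g⁻¹ * y * g, ?_⟩, ?_⟩
    · rw [mem_pt]
      intro i
      rw [mul_smul, mul_smul, hg, mem_pt.1 hy, ← hg, inv_smul_smul]
    · apply Subtype.ext
      change g * (g⁻¹ * y * g) * g⁻¹ = y
      group

/-- the pointwise stabilizers of the `m`-sets are trivial -/
theorem ptStab_bot (G : Subgroup (Equiv.Perm Ω)) {m : ℕ} (hm : 1 ≤ m) (hn : m + 1 ≤ Fintype.card Ω)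
    (hh : Homog G Ω m) (hh1 : Homog G Ω (m + 1)) (hnt : ¬ IsMultiplyPretransitive G Ω m)
    (w : Fin m ↪ Ω) : ptStab G w = ⊥ := by
  obtain ⟨w1⟩ : Nonempty (Fin (m + 1) ↪ Ω) := by
    rw [Function.Embedding.nonempty_iff_card_le, Fintype.card_fin]
    exact hn
  by_contra hw
  apply hnt
  have h1 : 1 < Nat.card (ptStab G w) := by
    by_contra hcon
    have h2 : 0 < Nat.card (ptStab G w) := Nat.card_pos
    exact hw (Subgroup.card_eq_one.1 (by omega))
  have := Cfsg.Agent.S0744.result G (k := m + 1) (by omega) hn (Nat.card (ptStab G w))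
    (Nat.card (ptStab G w1)) h1 (by
      intro s hs
      obtain ⟨v, rfl⟩ := exists_map s (m := m) (by rw [hs]; rfl)
      rw [card_fixingSubgroup]
      exact card_ptStab_homog G hh v w) (by
      intro s hs
      obtain ⟨v, rfl⟩ := exists_map s (m := m + 1) hs
      rw [card_fixingSubgroup]
      exact card_ptStab_homog G hh1 v w1)
  exact this

/-- the top case: the alternating group -/
theorem eq_alternating (G : Subgroup (Equiv.Perm Ω)) {s : ℕ} (hn : Fintype.card Ω = s + 3)
    (ht : IsMultiplyPretransitive G Ω (s + 1)) (hnt : ¬ IsMultiplyPretransitive G Ω (s + 2)) :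
    G = alternatingGroup Ω := by
  have hle : alternatingGroup Ω ≤ G := by
    apply IsMultiplyPretransitive.alternatingGroup_le
    rw [Nat.card_eq_fintype_card, hn]
    exact ht
  rcases eq_or_ne G ⊤ with h | h
  · exfalso
    apply hnt
    subst h
    have := Equiv.Perm.isMultiplyPretransitive Ω (s + 2)
    constructor
    intro x y
    obtain ⟨g, hg⟩ := this.exists_smul_eq x y
    exact ⟨⟨g, trivial⟩, hg⟩
  · have hnt' : Nontrivial Ω := by
      rw [← Fintype.one_lt_card_iff_nontrivial]
      omega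
    have h1 := Subgroup.relIndex_mul_index hle
    rw [alternatingGroup.index_eq_two] at h1
    have h2 : G.index ≠ 1 := fun h' => h (Subgroup.index_eq_one.1 h')
    have h3 : (alternatingGroup Ω).relIndex G = 1 := by
      have h4 : G.index ∣ 2 := ⟨_, by rw [mul_comm]; exact h1.symm⟩
      rcases (Nat.dvd_prime Nat.prime_two).1 h4 with h5 | h5
      · exact absurd h5 h2
      · rw [h5] at h1
        omega
    exact le_antisymm (Subgroup.relIndex_eq_one.1 h3) hle

end

end Cfsg.Agent.H74.LW
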