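import Cfsg.Agent.H74.LW1

/-!
# Livingstone–Wagner: groups with few fixed points
-/

set_option autoImplicit false
set_option linter.unusedSectionVars false
set_option linter.style.haveILetI false

universe u

namespace Cfsg.Agent.H74.LW

open MulAction
open AN (ptStab)
open scoped Pointwise

theorem fix_le {G Ω : Type u} [Group G] [Finite G] [MulAction G Ω] [FaithfulSMul G Ω] [Finite Ω]
    {t : ℕ} (ht1 : 1 ≤ t) (ht : IsMultiplyPretransitive G Ω t) (hno : ¬ AltInd G Ω t)
    (IH : ∀ (G' Ω' : Type u) [Group G'] [Finite G'] [MulAction G' Ω'] [Finite Ω'],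
      Nat.card Ω' < Nat.card Ω → IsMultiplyPretransitive G' Ω' t → t < Nat.card Ω' →
        AltInd G' Ω' t) (g : G) (hg : g ≠ 1) : Nat.card (fixedBy Ω g) ≤ t := by
  classical
  by_contra hcon
  push Not at hcon
  -- an element of prime order
  obtain ⟨p, hp, hpd⟩ := Nat.exists_prime_and_dvd (n := orderOf g) (by
    rw [Ne, orderOf_eq_one_iff]; exact hg)
  haveI : Fact p.Prime := ⟨hp⟩
  set h := g ^ (orderOf g / p) with hh
  have hord : orderOf h = p := by
    rw [hh]
    exact orderOf_pow_orderOf_div (orderOf_pos g).ne' hpd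
  have hfixh : fixedBy Ω g ⊆ fixedBy Ω h := by
    have := fixedBy_subset_fixedBy_zpow (α := Ω) g ((orderOf g / p : ℕ) : ℤ)
    rwa [zpow_natCast] at this
  let X := {R : Subgroup G // IsPGroup p R ∧ R ≠ ⊥ ∧ t < Nat.card (fixedPoints R Ω)}
  have hX0 : IsPGroup p (Subgroup.zpowers h) ∧ Subgroup.zpowers h ≠ ⊥ ∧
      t < Nat.card (fixedPoints (Subgroup.zpowers h) Ω) := by
    refine ⟨IsPGroup.of_card (n := 1) (by rw [Nat.card_zpowers, hord, pow_one]), ?_, ?_⟩
    · intro h0
      rw [Subgroup.zpowers_eq_bot] at h0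
      rw [h0, orderOf_one] at hord
      exact hp.one_lt.ne hord
    · refine lt_of_lt_of_le hcon ?_
      have hsub : fixedBy Ω g ⊆ fixedPoints (Subgroup.zpowers h) Ω := by
        rintro y hy ⟨k, m, rfl⟩
        exact fixedBy_subset_fixedBy_zpow (α := Ω) h m (hfixh hy)
      exact Nat.card_le_card_of_injective _ (Set.inclusion_injective hsub)
  haveI : Nonempty X := ⟨⟨_, hX0⟩⟩
  obtain ⟨⟨R, hRp, hR1, hRf⟩, hmax⟩ := Finite.exists_max (fun R : X => Nat.card R.1)
  have hmax' : ∀ P : Subgroup G, IsPGroup p P → R < P → Nat.card (fixedPoints P Ω) ≤ t := by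
    intro P hP hRP
    by_contra hc
    push Not at hc
    have h1 := hmax ⟨P, hP, fun h0 => by rw [h0] at hRP; exact not_lt_bot hRP, hc⟩
    have h2 : Nat.card R < Nat.card P := by
      have := Set.ncard_lt_ncard (s := (R : Set G)) (t := (P : Set G)) hRP (Set.toFinite _)
      exact this
    exact absurd h1 (not_le.2 h2)
  have htr := norm_trans ht1 ht R hRp hRf hmax'
  apply hno
  apply altInd_of_fixSub (R := R)
  apply IH _ _ _ htr hRf
  -- fewer points
  obtain ⟨⟨r, hr⟩, hr1⟩ : ∃ r : R, r ≠ 1 := by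
    by_contra hc
    push Not at hc
    apply hR1
    rw [eq_bot_iff]
    intro x hx
    rw [Subgroup.mem_bot]
    exact congrArg Subtype.val (hc ⟨x, hx⟩)
  obtain ⟨y, hy⟩ : ∃ y : Ω, r • y ≠ y := by
    by_contra hc
    push Not at hc
    apply hr1
    apply Subtype.ext
    apply FaithfulSMul.eq_of_smul_eq_smul (M := G) (α := Ω)
    intro y
    rw [hc y]
    exact (one_smul _ _).symm
  have h1 : (fixedPoints R Ω).ncard < (Set.univ : Set Ω).ncard := by
    apply Set.ncard_lt_ncard
    · refine ⟨Set.subset_univ _, fun h => hy ?_⟩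
      exact h (Set.mem_univ y) ⟨r, hr⟩
    · exact Set.toFinite _
  rw [Set.ncard_univ] at h1
  exact h1

end Cfsg.Agent.H74.LW
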