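import Cfsg.Agent.H74.LW2

/-!
# Livingstone–Wagner: lifting and the odd case
-/

set_option autoImplicit false
set_option linter.unusedSectionVars false
set_option linter.style.haveILetI false

universe u

namespace Cfsg.Agent.H74.LW

open MulAction
open AN (ptStab)
open AC (setStab mem_setStab mem_of_perm)
open scoped Pointwise

section ind
variable {G Ω : Type*} [Group G] [MulAction G Ω]

theorem exists_ind {d : ℕ} (δ : Fin d ↪ Ω) (g : setStab G δ) (i : Fin d) : ∃ j, g • δ i = δ j := by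
  obtain ⟨j, hj⟩ := (mem_setStab.1 g.2 (δ i)).1 ⟨i, rfl⟩
  exact ⟨j, hj.symm⟩

/-- the action of the setwise stabilizer on the indices -/
@[reducible] noncomputable def indAct {d : ℕ} (δ : Fin d ↪ Ω) : MulAction (setStab G δ) (Fin d) where
  smul g i := (exists_ind δ g i).choose
  one_smul i := by
    apply δ.injective
    have h := (exists_ind δ (1 : setStab G δ) i).choose_spec
    exact h.symm.trans (one_smul _ _)
  mul_smul g h i := by
    apply δ.injective
    have h1 := (exists_ind δ (g * h) i).choose_spec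
    have h2 := (exists_ind δ h i).choose_spec
    have h3 := (exists_ind δ g (exists_ind δ h i).choose).choose_spec
    exact h1.symm.trans ((mul_smul g h _).trans ((congrArg (fun z => g • z) h2).trans h3))

/-- the induced permutation of the indices -/
noncomputable def ind {d : ℕ} (δ : Fin d ↪ Ω) : setStab G δ →* Equiv.Perm (Fin d) :=
  letI := indAct (G := G) δ
  toPermHom (setStab G δ) (Fin d)

theorem ind_spec {d : ℕ} (δ : Fin d ↪ Ω) (g : setStab G δ) (i : Fin d) :
    (g : G) • δ i = δ (ind δ g i) :=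
  (exists_ind δ g i).choose_spec

theorem ind_eq {d : ℕ} {δ : Fin d ↪ Ω} {g : setStab G δ} {σ : Equiv.Perm (Fin d)}
    (h : ∀ i, (g : G) • δ i = δ (σ i)) : ind δ g = σ := by
  apply Equiv.ext
  intro i
  apply δ.injective
  rw [← ind_spec, h]

theorem ind_surj [Finite Ω] {d : ℕ} (ht : IsMultiplyPretransitive G Ω d) (δ : Fin d ↪ Ω) :
    Function.Surjective (ind (G := G) δ) := by
  haveI := ht
  intro σ
  obtain ⟨g, hg⟩ := exists_smul_eq G δ (σ.toEmbedding.trans δ)
  have hg' : ∀ i, g • δ i = δ (σ i) := fun i => DFunLike.congr_fun hg i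
  exact ⟨⟨g, mem_of_perm hg'⟩, ind_eq hg'⟩

/-- lifting of `p`-subgroups of the symmetric group -/
theorem exists_lift [Finite G] [Finite Ω] {d : ℕ} (ht : IsMultiplyPretransitive G Ω d)
    (δ : Fin d ↪ Ω) {p : ℕ} [hp : Fact p.Prime] (D : Subgroup (Equiv.Perm (Fin d)))
    (hD : IsPGroup p D) :
    ∃ S : Subgroup G, IsPGroup p S ∧ (∀ g ∈ S, ∃ σ ∈ D, ∀ i, g • δ i = δ (σ i)) ∧
      ∀ σ ∈ D, ∃ g ∈ S, ∀ i, g • δ i = δ (σ i) := by
  classical
  set M : Subgroup (setStab G δ) := D.comap (ind δ) with hM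
  let f : M →* D := ((ind (G := G) δ).comp M.subtype).codRestrict D (fun g => g.2)
  have hf : Function.Surjective f := by
    rintro ⟨σ, hσ⟩
    obtain ⟨g, hg⟩ := ind_surj ht δ σ
    refine ⟨⟨g, ?_⟩, Subtype.ext hg⟩
    rw [hM, Subgroup.mem_comap, hg]
    exact hσ
  obtain ⟨P⟩ : Nonempty (Sylow p M) := inferInstance
  have hPf : (P : Subgroup M).map f = ⊤ := by
    have h2 : IsPGroup p (⊤ : Subgroup D) := hD.of_equiv Subgroup.topEquiv.symm
    have h1 := (P.mapSurjective hf).is_maximal' (Q := ⊤) h2 le_top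
    exact h1.symm
  refine ⟨((P : Subgroup M).map M.subtype).map (setStab G δ).subtype, ?_, ?_, ?_⟩
  · exact (P.2.map _).map _
  · rintro _ ⟨_, ⟨x, hx, rfl⟩, rfl⟩
    exact ⟨_, x.2, fun i => ind_spec δ x.1 i⟩
  · intro σ hσ
    have h1 : (⟨σ, hσ⟩ : D) ∈ (P : Subgroup M).map f := by rw [hPf]; exact Subgroup.mem_top _
    obtain ⟨x, hx, hxσ⟩ := h1
    refine ⟨((x : M) : setStab G δ), ⟨_, ⟨x, hx, rfl⟩, rfl⟩, fun i => ?_⟩
    have h2 : ind δ (x : setStab G δ) = σ := congrArg Subtype.val hxσ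
    rw [ind_spec, h2]

/-- involutions with product of odd order are conjugate -/
theorem exists_conj_inv {H : Type*} [Group H] {x x' : H} (hx : x * x = 1) (hx' : x' * x' = 1)
    (hodd : Odd (orderOf (x * x'))) : ∃ e ∈ Subgroup.zpowers (x * x'), e * x * e⁻¹ = x' := by
  obtain ⟨k, hk⟩ := hodd
  set m := x * x' with hm
  have hxi : x⁻¹ = x := inv_eq_of_mul_eq_one_left hx
  have hxi' : x'⁻¹ = x' := inv_eq_of_mul_eq_one_left hx'
  have hmx : x * m * x⁻¹ = m⁻¹ := by
    rw [hm, mul_inv_rev, hxi, hxi']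
    calc x * (x * x') * x = (x * x) * x' * x := by group
      _ = x' * x := by rw [hx, one_mul]
  refine ⟨m ^ k, Subgroup.pow_mem _ (Subgroup.mem_zpowers m) k, ?_⟩
  have h1 : x * (m ^ k)⁻¹ = m ^ k * x := by
    have h2 : (x * m * x⁻¹) ^ k = x * m ^ k * x⁻¹ := conj_pow
    rw [hmx, inv_pow] at h2
    have h3 : x⁻¹ * (m ^ k)⁻¹ * x = m ^ k := by rw [h2]; group
    rw [hxi] at h3
    calc x * (m ^ k)⁻¹ = (x * (m ^ k)⁻¹ * x) * x⁻¹ := by group
      _ = m ^ k * x := by rw [h3, hxi]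
  calc m ^ k * x * (m ^ k)⁻¹ = m ^ k * (x * (m ^ k)⁻¹) := by group
    _ = m ^ (2 * k) * x := by rw [h1, two_mul, pow_add]; group
    _ = m⁻¹ * x := by
      have h2 : m ^ (2 * k) = m⁻¹ := by
        have h3 : m ^ (2 * k + 1) = 1 := by rw [← hk, pow_orderOf_eq_one]
        rw [pow_succ] at h3
        exact eq_inv_of_mul_eq_one_left h3
      rw [h2]
    _ = x' := by
      rw [hm, mul_inv_rev, hxi, hxi', mul_assoc, hx, mul_one]

end ind

end Cfsg.Agent.H74.LW
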