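import Cfsg.Agent.H74.LW3

/-!
# Livingstone–Wagner: the odd case
-/

set_option autoImplicit false
set_option linter.unusedSectionVars false
set_option linter.style.haveILetI false

universe u

namespace Cfsg.Agent.H74.LW

open MulAction
open AN (ptStab)
open AC (setStab mem_setStab mem_of_perm)
open scoped Pointwise

/-- the subgroup of permutations of the indices induced by the group -/
def indSub (G : Type*) {Ω : Type*} [Group G] [MulAction G Ω] {d : ℕ} (δ : Fin d ↪ Ω) :
    Subgroup (Equiv.Perm (Fin d)) where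
  carrier := {σ | ∃ g : G, ∀ i, g • δ i = δ (σ i)}
  one_mem' := ⟨1, fun i => one_smul _ _⟩
  mul_mem' := by
    rintro σ τ ⟨g, hg⟩ ⟨h, hh⟩
    exact ⟨g * h, fun i => by rw [mul_smul, hh, hg]; rfl⟩
  inv_mem' := by
    rintro σ ⟨g, hg⟩
    refine ⟨g⁻¹, fun i => ?_⟩
    rw [inv_smul_eq_iff, hg, Equiv.Perm.inv_def, Equiv.apply_symm_apply]

theorem mem_indSub {G Ω : Type*} [Group G] [MulAction G Ω] {d : ℕ} {δ : Fin d ↪ Ω}
    {σ : Equiv.Perm (Fin d)} : σ ∈ indSub G δ ↔ ∃ g : G, ∀ i, g • δ i = δ (σ i) := Iff.rfl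

/-- a subgroup containing all transpositions moving a given point is the symmetric group -/
theorem eq_top_of_star {α : Type*} [Finite α] [DecidableEq α] (H : Subgroup (Equiv.Perm α)) (a : α)
    (h : ∀ b, b ≠ a → Equiv.swap a b ∈ H) : H = ⊤ := by
  rw [eq_top_iff, ← Equiv.Perm.closure_isSwap, Subgroup.closure_le]
  rintro _ ⟨x, y, hxy, rfl⟩
  change Equiv.swap x y ∈ H
  by_cases hx : x = a
  · rw [hx]; exact h y (by rw [← hx]; exact hxy.symm)
  · by_cases hy : y = a
    · rw [hy, Equiv.swap_comm]; exact h x hx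
    · have h1 := Equiv.swap_mul_swap_mul_swap (x := y) (y := a) (z := x) hy hxy.symm
      rw [Equiv.swap_comm] at h1
      have h2 : Equiv.swap x y = Equiv.swap a x * Equiv.swap y a * Equiv.swap a x := by
        rw [← h1, Equiv.swap_comm x a]
      rw [h2, Equiv.swap_comm y a]
      exact H.mul_mem (H.mul_mem (h x hx) (h y hy)) (h x hx)

section
variable {G Ω : Type*} [Group G] [Finite G] [MulAction G Ω] [FaithfulSMul G Ω] [Finite Ω]

theorem two_elt {t : ℕ} (hinv : ∀ g : G, g ≠ 1 → g * g = 1 → Nat.card (fixedBy Ω g) < t) {g : G}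
    (hg : g ≠ 1) {k : ℕ} (hk : orderOf g = 2 ^ k) : Nat.card (fixedBy Ω g) < t := by
  have hk0 : k ≠ 0 := by
    rintro rfl
    rw [pow_zero, orderOf_eq_one_iff] at hk
    exact hg hk
  obtain ⟨m, rfl⟩ := Nat.exists_eq_succ_of_ne_zero hk0
  set h := g ^ (2 ^ m) with hh
  have h1 : orderOf h = 2 := by
    have h2 := orderOf_pow_orderOf_div (orderOf_pos g).ne' (n := 2) (by
      rw [hk, pow_succ]; exact dvd_mul_left 2 _)
    rw [hk, pow_succ, Nat.mul_div_cancel _ (by norm_num)] at h2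
    exact h2
  have h3 : h ≠ 1 := by
    intro h0
    rw [h0, orderOf_one] at h1
    omega
  have h4 : h * h = 1 := by
    have := pow_orderOf_eq_one h
    rwa [h1, pow_two] at this
  refine lt_of_le_of_lt ?_ (hinv h h3 h4)
  have h5 := fixedBy_subset_fixedBy_zpow (α := Ω) g ((2 ^ m : ℕ) : ℤ)
  rw [zpow_natCast] at h5
  exact Nat.card_le_card_of_injective _ (Set.inclusion_injective h5)

theorem odd_order_of_fix {t : ℕ} (hinv : ∀ g : G, g ≠ 1 → g * g = 1 → Nat.card (fixedBy Ω g) < t)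
    {g : G} (hg : t ≤ Nat.card (fixedBy Ω g)) : Odd (orderOf g) := by
  rw [← Nat.not_even_iff_odd]
  intro heven
  have h1 := orderOf_pow_orderOf_div (orderOf_pos g).ne' heven.two_dvd
  set h := g ^ (orderOf g / 2) with hh
  have h3 : h ≠ 1 := by
    intro h0
    rw [h0, orderOf_one] at h1
    omega
  have h4 : h * h = 1 := by
    have := pow_orderOf_eq_one h
    rwa [h1, pow_two] at this
  have h5 := fixedBy_subset_fixedBy_zpow (α := Ω) g ((orderOf g / 2 : ℕ) : ℤ)
  rw [zpow_natCast, ← hh] at h5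
  have h6 := Nat.card_le_card_of_injective _ (Set.inclusion_injective h5)
  have h7 := hinv h h3 h4
  omega

end

/-- a Sylow 2-subgroup of the symmetric group of degree four -/
def D4 : Subgroup (Equiv.Perm (Fin 4)) :=
  Subgroup.centralizer {Equiv.swap 0 1 * Equiv.swap 2 3}

theorem mem_D4 {g : Equiv.Perm (Fin 4)} : g ∈ D4 ↔
    g * (Equiv.swap 0 1 * Equiv.swap 2 3) = (Equiv.swap 0 1 * Equiv.swap 2 3) * g := by
  unfold D4
  rw [Subgroup.mem_centralizer_singleton_iff]

set_option maxRecDepth 100000 in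
theorem D4_pow : ∀ g : Equiv.Perm (Fin 4), g * (Equiv.swap 0 1 * Equiv.swap 2 3) =
    (Equiv.swap 0 1 * Equiv.swap 2 3) * g → g ^ 4 = 1 := by decide

theorem D4_pgroup : IsPGroup 2 D4 := by
  intro g
  refine ⟨2, ?_⟩
  apply Subtype.ext
  exact D4_pow g.1 (mem_D4.1 g.2)

theorem D4_a : Equiv.swap (0 : Fin 4) 1 ∈ D4 := by rw [mem_D4]; decide

theorem D4_s : Equiv.swap (0 : Fin 4) 2 * Equiv.swap 1 3 ∈ D4 := by rw [mem_D4]; decide

theorem via_swap {α β : Type*} [DecidableEq α] [DecidableEq β] (ι : α ↪ β) (a b : α) :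
    Equiv.Perm.viaEmbeddingHom ι (Equiv.swap a b) = Equiv.swap (ι a) (ι b) := by
  apply Equiv.ext
  intro i
  by_cases hi : i ∈ Set.range ι
  · obtain ⟨m, rfl⟩ := hi
    rw [Equiv.Perm.viaEmbeddingHom_apply, Equiv.Perm.viaEmbedding_apply,
      ← ι.injective.swap_apply]
  · rw [Equiv.Perm.viaEmbeddingHom_apply, Equiv.Perm.viaEmbedding_apply_of_notMem _ _ _ hi,
      Equiv.swap_apply_of_ne_of_ne]
    · rintro rfl; exact hi ⟨_, rfl⟩
    · rintro rfl; exact hi ⟨_, rfl⟩

section
variable {G Ω : Type*} [Group G] [Finite G] [MulAction G Ω] [FaithfulSMul G Ω] [Finite Ω]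

/-- a `p`-group preserving a set whose size is not divisible by `p` has a fixed point in it -/
theorem exists_fixed {p : ℕ} [hp : Fact p.Prime] (S : Subgroup G) (hS : IsPGroup p S) (X : Set Ω)
    (hX : ∀ g ∈ S, ∀ y ∈ X, g • y ∈ X) (hcard : ¬ p ∣ X.ncard) : ∃ y ∈ X, ∀ g ∈ S, g • y = y := by
  let C : SubMulAction S Ω :=
    { carrier := X
      smul_mem' := fun g y hy => hX g.1 g.2 y hy }
  have h1 : ¬ p ∣ Nat.card C := hcard
  obtain ⟨y, hy⟩ := hS.nonempty_fixed_point_of_prime_not_dvd_card C h1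
  refine ⟨y, y.2, fun g hg => ?_⟩
  exact congrArg Subtype.val (hy ⟨g, hg⟩)

theorem caseB {t : ℕ} (h4 : 4 ≤ t) (ht : IsMultiplyPretransitive G Ω t) (δ : Fin t ↪ Ω)
    (hodd : Odd ((Set.range δ)ᶜ).ncard)
    (hinv : ∀ g : G, g ≠ 1 → g * g = 1 → Nat.card (fixedBy Ω g) < t) :
    ∃ δ' : Fin (t + 1) ↪ Ω, indSub G δ' = ⊤ := by
  classical
  haveI := ht
  haveI := Fintype.ofFinite Ω
  have hrange : (Set.range δ).ncard = t := by
    rw [Set.ncard_range_of_injective δ.injective, Nat.card_eq_fintype_card, Fintype.card_fin]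
  let ι : Fin 4 ↪ Fin t := Fin.castLEEmb h4
  set D : Subgroup (Equiv.Perm (Fin t)) := D4.map (Equiv.Perm.viaEmbeddingHom ι) with hD
  obtain ⟨S, hS, hS1, hS2⟩ := exists_lift ht δ (p := 2) D (D4_pgroup.map _)
  have hSset : ∀ g ∈ S, ∀ y ∈ (Set.range δ)ᶜ, g • y ∈ (Set.range δ)ᶜ := by
    intro g hg y hy h
    obtain ⟨σ, -, hσ⟩ := hS1 g hg
    exact hy ((mem_of_perm hσ y).2 h)
  obtain ⟨y, hy, hyS⟩ := exists_fixed S hS (Set.range δ)ᶜ hSset (by
    rw [← even_iff_two_dvd, Nat.not_even_iff_odd]; exact hodd)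
  -- the elements
  obtain ⟨x, hxS, hx⟩ := hS2 (Equiv.Perm.viaEmbeddingHom ι (Equiv.swap 0 1)) ⟨_, D4_a, rfl⟩
  obtain ⟨s, hsS, hs⟩ := hS2 (Equiv.Perm.viaEmbeddingHom ι (Equiv.swap 0 2 * Equiv.swap 1 3))
    ⟨_, D4_s, rfl⟩
  rw [via_swap] at hx
  have hj : ι 0 ≠ ι 1 := ι.injective.ne (by decide)
  generalize hj0 : ι 0 = j0 at *
  generalize hj1 : ι 1 = j1 at *
  have hxy : x • y = y := hyS x hxS
  have hsy : s • y = y := hyS s hsS
  have hx0 : x • δ j0 = δ j1 := by rw [hx, Equiv.swap_apply_left]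
  have hx1 : x • δ j1 = δ j0 := by rw [hx, Equiv.swap_apply_right]
  have hxne : x ≠ 1 := by
    intro h
    rw [h, one_smul] at hx0
    exact hj (δ.injective hx0)
  have hcardfix : ∀ (w : Fin t ↪ Ω) (g : G), (∀ i, g • w i = w i) → t ≤ Nat.card (fixedBy Ω g) := by
    intro w g hg
    have h1 : Set.range w ⊆ fixedBy Ω g := by
      rintro _ ⟨i, rfl⟩
      exact hg i
    have h2 := Set.ncard_le_ncard h1 (Set.toFinite _)
    rw [Set.ncard_range_of_injective w.injective, Nat.card_eq_fintype_card, Fintype.card_fin] at h2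
    exact h2
  have hx2 : x * x = 1 := by
    by_contra hne
    obtain ⟨k, hk⟩ := (IsPGroup.iff_orderOf.1 hS) ⟨x * x, S.mul_mem hxS hxS⟩
    have h1 : orderOf (x * x) = 2 ^ k := by
      rw [← hk, ← Subgroup.orderOf_coe]
    have h2 := two_elt hinv hne h1
    have h3 := hcardfix δ (x * x) (fun i => by
      rw [mul_smul, hx, hx, Equiv.swap_apply_self])
    omega
  have hxlt := hinv x hxne hx2
  let δ' : Fin (t + 1) ↪ Ω := Fin.Embedding.snoc δ hy
  have hδc : ∀ i : Fin t, δ' i.castSucc = δ i := fun i => by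
    simp [δ', Fin.Embedding.snoc]
  have hδl : δ' (Fin.last t) = y := by
    simp [δ', Fin.Embedding.snoc]
  -- the fixed points of `x`
  set I : Set (Fin (t + 1)) := {m | m ≠ j0.castSucc ∧ m ≠ j1.castSucc} with hI
  have hIF : δ' '' I = fixedBy Ω x := by
    refine Set.eq_of_subset_of_ncard_le ?_ ?_ (Set.toFinite _)
    · rintro _ ⟨m, hm, rfl⟩
      change x • δ' m = δ' m
      induction m using Fin.lastCases with
      | last => rw [hδl]; exact hxy
      | cast i =>
        rw [hδc, hx, Equiv.swap_apply_of_ne_of_ne]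
        · rintro rfl; exact hm.1 rfl
        · rintro rfl; exact hm.2 rfl
    · rw [Set.ncard_image_of_injective _ δ'.injective]
      have h1 : Iᶜ = {j0.castSucc, j1.castSucc} := by
        ext m
        simp only [hI, Set.mem_compl_iff, Set.mem_ofPred_eq, not_and_or, not_not,
          Set.mem_insert_iff, Set.mem_singleton_iff]
      have h2 : Iᶜ.ncard = 2 := by
        rw [h1, Set.ncard_pair]
        intro h
        exact hj (Fin.castSucc_injective _ h)
      have h3 := Set.ncard_add_ncard_compl I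
      rw [h2, Nat.card_eq_fintype_card, Fintype.card_fin] at h3
      have h4 : (fixedBy Ω x).ncard = Nat.card (fixedBy Ω x) := rfl
      omega
  -- permutations fixing the two points
  have claim1 : ∀ π : Equiv.Perm (Fin (t + 1)), π j0.castSucc = j0.castSucc →
      π j1.castSucc = j1.castSucc → π ∈ indSub G δ' := by
    intro π hπ0 hπ1
    let w' : Fin t ↪ Ω := (Fin.castSuccEmb.trans π.toEmbedding).trans δ'
    have hw' : ∀ i, w' i = δ' (π i.castSucc) := fun i => rfl
    obtain ⟨h, hh⟩ := exists_smul_eq G δ w'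
    have hh' : ∀ i, h • δ i = w' i := fun i => DFunLike.congr_fun hh i
    have hx' : ∀ i, (h * x * h⁻¹) • w' i = w' (Equiv.swap j0 j1 i) := by
      intro i
      rw [mul_smul, mul_smul, ← hh' i, inv_smul_smul, hx, hh']
    have hxw : ∀ i, x • w' i = w' (Equiv.swap j0 j1 i) := by
      intro i
      by_cases h0 : i = j0
      · subst h0
        rw [hw', hπ0, hδc, hx0, Equiv.swap_apply_left, hw', hπ1, hδc]
      by_cases h1 : i = j1
      · subst h1
        rw [hw', hπ1, hδc, hx1, Equiv.swap_apply_right, hw', hπ0, hδc]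
      rw [Equiv.swap_apply_of_ne_of_ne h0 h1]
      have h2 : w' i ∈ fixedBy Ω x := by
        rw [← hIF]
        refine ⟨π i.castSucc, ⟨?_, ?_⟩, rfl⟩
        · intro h3
          rw [← hπ0] at h3
          exact h0 (Fin.castSucc_injective _ (π.injective h3))
        · intro h3
          rw [← hπ1] at h3
          exact h1 (Fin.castSucc_injective _ (π.injective h3))
      exact h2
    have hprod : ∀ i, (x * (h * x * h⁻¹)) • w' i = w' i := by
      intro i
      rw [mul_smul, hx', hxw, Equiv.swap_apply_self]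
    have hoddm := odd_order_of_fix hinv (hcardfix w' _ hprod)
    have hx'2 : (h * x * h⁻¹) * (h * x * h⁻¹) = 1 := by
      calc (h * x * h⁻¹) * (h * x * h⁻¹) = h * (x * x) * h⁻¹ := by group
        _ = 1 := by rw [hx2]; group
    obtain ⟨e, he, hex⟩ := exists_conj_inv hx2 hx'2 hoddm
    have hew : ∀ i, e • w' i = w' i := by
      intro i
      obtain ⟨m, rfl⟩ := he
      exact fixedBy_subset_fixedBy_zpow (α := Ω) _ m (hprod i)
    have hgx : x * (e⁻¹ * h) = (e⁻¹ * h) * x := by
      calc x * (e⁻¹ * h) = e⁻¹ * (e * x * e⁻¹) * h := by group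
        _ = e⁻¹ * (h * x * h⁻¹) * h := by rw [hex]
        _ = (e⁻¹ * h) * x := by group
    have hgd : ∀ i, (e⁻¹ * h) • δ i = w' i := by
      intro i
      rw [mul_smul, hh', inv_smul_eq_iff, hew]
    have hgy : (e⁻¹ * h) • y = δ' (π (Fin.last t)) := by
      have h1 : (e⁻¹ * h) • y ∈ fixedBy Ω x := by
        change x • (e⁻¹ * h) • y = (e⁻¹ * h) • y
        rw [← mul_smul, hgx, mul_smul, hxy]
      rw [← hIF] at h1
      obtain ⟨m0, -, hm0⟩ := h1
      obtain ⟨k, rfl⟩ := π.surjective m0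
      induction k using Fin.lastCases with
      | last => exact hm0.symm
      | cast i =>
        exfalso
        rw [← hw', ← hgd i] at hm0
        exact hy ⟨i, MulAction.injective _ hm0⟩
    refine ⟨e⁻¹ * h, fun m => ?_⟩
    induction m using Fin.lastCases with
    | last => rw [hδl, hgy]
    | cast i => rw [hδc, hgd, hw']
  -- permutations extended by the last point
  have claim2 : ∀ (g : G) (σ : Equiv.Perm (Fin t)), (∀ i, g • δ i = δ (σ i)) → g • y = y →
      Equiv.Perm.viaEmbeddingHom Fin.castSuccEmb σ ∈ indSub G δ' := by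
    intro g σ hg hgy
    refine ⟨g, fun m => ?_⟩
    induction m using Fin.lastCases with
    | last =>
      rw [hδl, hgy, Equiv.Perm.viaEmbeddingHom_apply,
        Equiv.Perm.viaEmbedding_apply_of_notMem _ _ _ (by
          rintro ⟨i, hi⟩
          exact (Fin.castSucc_lt_last i).ne hi), hδl]
    | cast i =>
      have h1 : Equiv.Perm.viaEmbeddingHom Fin.castSuccEmb σ i.castSucc = (σ i).castSucc :=
        Equiv.Perm.viaEmbedding_apply σ Fin.castSuccEmb i
      rw [h1, hδc, hδc, hg]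
  refine ⟨δ', eq_top_of_star _ (Fin.last t) ?_⟩
  have hne : ∀ i : Fin t, Fin.last t ≠ i.castSucc := fun i => (Fin.castSucc_lt_last i).ne'
  have hmain : ∀ i : Fin t, i ≠ j0 → i ≠ j1 →
      Equiv.swap (Fin.last t) i.castSucc ∈ indSub G δ' := by
    intro i hi0 hi1
    apply claim1
    · rw [Equiv.swap_apply_of_ne_of_ne (hne _).symm]
      intro h; exact hi0 (Fin.castSucc_injective _ h).symm
    · rw [Equiv.swap_apply_of_ne_of_ne (hne _).symm]
      intro h; exact hi1 (Fin.castSucc_injective _ h).symm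
  have h0 : Equiv.swap (Fin.last t) j0.castSucc ∈ indSub G δ' := by
    have h1 := claim2 s _ hs hsy
    have hi2 : ι 2 ≠ j0 := by rw [← hj0]; exact ι.injective.ne (by decide)
    have hi2' : ι 2 ≠ j1 := by rw [← hj1]; exact ι.injective.ne (by decide)
    have h2 := hmain (ι 2) hi2 hi2'
    have h3 := (indSub G δ').mul_mem ((indSub G δ').mul_mem h1 h2) ((indSub G δ').inv_mem h1)
    rw [← Equiv.swap_apply_apply] at h3
    have h4 : Equiv.Perm.viaEmbeddingHom Fin.castSuccEmb
        (Equiv.Perm.viaEmbeddingHom ι (Equiv.swap 0 2 * Equiv.swap 1 3)) (Fin.last t) =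
        Fin.last t := by
      rw [Equiv.Perm.viaEmbeddingHom_apply]
      apply Equiv.Perm.viaEmbedding_apply_of_notMem
      rintro ⟨i, hi⟩
      exact (Fin.castSucc_lt_last i).ne hi
    have h5 : Equiv.Perm.viaEmbeddingHom Fin.castSuccEmb
        (Equiv.Perm.viaEmbeddingHom ι (Equiv.swap 0 2 * Equiv.swap 1 3)) (ι 2).castSucc =
        j0.castSucc := by
      have h6 : Equiv.Perm.viaEmbeddingHom ι (Equiv.swap 0 2 * Equiv.swap 1 3) (ι 2) = ι 0 := by
        rw [Equiv.Perm.viaEmbeddingHom_apply, Equiv.Perm.viaEmbedding_apply]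
        congr 1
      have h7 : Equiv.Perm.viaEmbeddingHom Fin.castSuccEmb
          (Equiv.Perm.viaEmbeddingHom ι (Equiv.swap 0 2 * Equiv.swap 1 3)) (ι 2).castSucc =
          (Equiv.Perm.viaEmbeddingHom ι (Equiv.swap 0 2 * Equiv.swap 1 3) (ι 2)).castSucc :=
        Equiv.Perm.viaEmbedding_apply _ Fin.castSuccEmb _
      rw [h7, h6, hj0]
    rw [h4, h5] at h3
    exact h3
  intro b hb
  induction b using Fin.lastCases with
  | last => exact absurd rfl hb
  | cast i =>
    by_cases hi0 : i = j0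
    · rw [hi0]; exact h0
    by_cases hi1 : i = j1
    · rw [hi1]
      have h1 := claim2 x _ hx hxy
      rw [via_swap] at h1
      have h3 := (indSub G δ').mul_mem ((indSub G δ').mul_mem h1 h0) ((indSub G δ').inv_mem h1)
      rw [← Equiv.swap_apply_apply] at h3
      have h4 : Equiv.swap (Fin.castSuccEmb j0) (Fin.castSuccEmb j1) (Fin.last t) = Fin.last t :=
        Equiv.swap_apply_of_ne_of_ne (hne _) (hne _)
      have h5 : Equiv.swap (Fin.castSuccEmb j0) (Fin.castSuccEmb j1) j0.castSucc =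
          j1.castSucc := Equiv.swap_apply_left _ _
      rw [h4, h5] at h3
      exact h3
    · exact hmain i hi0 hi1

end

end Cfsg.Agent.H74.LW
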