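import Cfsg.Agent.H74.LW4
import Cfsg.Agent.H34.Inv
import Cfsg.Agent.H34.Zass

/-!
# Livingstone–Wagner: even degree, odd stabilizers
-/

set_option autoImplicit false
set_option linter.unusedSectionVars false
set_option linter.style.haveILetI false

universe u

namespace Cfsg.Agent.H74.LW

open MulAction
open AN (ptStab)
open AC (setStab mem_setStab mem_of_perm)
open scoped Pointwise

section
variable {G Ω : Type*} [Group G] [Finite G] [MulAction G Ω] [FaithfulSMul G Ω] [Finite Ω]

theorem le_card_fixedBy {t : ℕ} {w : Fin t ↪ Ω} {g : G} (hg : ∀ i, g • w i = w i) :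
    t ≤ Nat.card (fixedBy Ω g) := by
  have h1 : Set.range w ⊆ fixedBy Ω g := by
    rintro _ ⟨i, rfl⟩
    exact hg i
  have h2 := Set.ncard_le_ncard h1 (Set.toFinite _)
  rw [Set.ncard_range_of_injective w.injective, Nat.card_eq_fintype_card, Fintype.card_fin] at h2
  exact h2

/-- involutions acting in the same way on `t` points are conjugate -/
theorem conj_inv {t : ℕ} (ht : IsMultiplyPretransitive G Ω t)
    (hinv : ∀ g : G, g ≠ 1 → g * g = 1 → Nat.card (fixedBy Ω g) < t)
    {x x' : G} (hx : x * x = 1) (hx' : x' * x' = 1) {w w' : Fin t ↪ Ω} {τ : Equiv.Perm (Fin t)}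
    (hτ : τ * τ = 1) (hw : ∀ i, x • w i = w (τ i)) (hw' : ∀ i, x' • w' i = w' (τ i)) :
    ∃ g : G, g * x * g⁻¹ = x' ∧ ∀ i, g • w i = w' i := by
  haveI := ht
  obtain ⟨h, hh⟩ := exists_smul_eq G w w'
  have hh' : ∀ i, h • w i = w' i := fun i => DFunLike.congr_fun hh i
  have hττ : ∀ i, τ (τ i) = i := fun i => by rw [← Equiv.Perm.mul_apply, hτ]; rfl
  have h1 : ∀ i, (h * x * h⁻¹) • w' i = w' (τ i) := by
    intro i
    rw [mul_smul, mul_smul, ← hh' i, inv_smul_smul, hw, hh']
  have hprod : ∀ i, ((h * x * h⁻¹) * x') • w' i = w' i := by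
    intro i
    rw [mul_smul, hw', h1, hττ]
  have hodd := odd_order_of_fix hinv (le_card_fixedBy hprod)
  have h2 : (h * x * h⁻¹) * (h * x * h⁻¹) = 1 := by
    calc (h * x * h⁻¹) * (h * x * h⁻¹) = h * (x * x) * h⁻¹ := by group
      _ = 1 := by rw [hx]; group
  obtain ⟨e, he, hex⟩ := exists_conj_inv h2 hx' hodd
  have hew : ∀ i, e • w' i = w' i := by
    intro i
    obtain ⟨m, rfl⟩ := he
    exact fixedBy_subset_fixedBy_zpow (α := Ω) _ m (hprod i)
  refine ⟨e * h, ?_, fun i => by rw [mul_smul, hh', hew]⟩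
  calc e * h * x * (e * h)⁻¹ = e * (h * x * h⁻¹) * e⁻¹ := by group
    _ = x' := hex

/-- an element of a `2`-group fixing `t` points is trivial -/
theorem one_of_fix {t : ℕ} (hinv : ∀ g : G, g ≠ 1 → g * g = 1 → Nat.card (fixedBy Ω g) < t)
    {S : Subgroup G} (hS : IsPGroup 2 S) {g : G} (hg : g ∈ S) {w : Fin t ↪ Ω}
    (hw : ∀ i, g • w i = w i) : g = 1 := by
  by_contra hne
  haveI : Fact (Nat.Prime 2) := ⟨Nat.prime_two⟩
  obtain ⟨k, hk⟩ := (IsPGroup.iff_orderOf.1 hS) ⟨g, hg⟩
  have h1 : orderOf g = 2 ^ k := by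
    rw [← hk, ← Subgroup.orderOf_coe]
  have h2 := two_elt hinv hne h1
  have h3 := le_card_fixedBy hw
  omega

end

/-- the Klein four-group -/
def V4 : Subgroup (Equiv.Perm (Fin 4)) :=
  Subgroup.closure {Equiv.swap 0 1 * Equiv.swap 2 3, Equiv.swap 0 2 * Equiv.swap 1 3}

theorem V4_le : V4 ≤ D4 := by
  unfold V4
  rw [Subgroup.closure_le]
  rintro g (rfl | rfl)
  · rw [SetLike.mem_coe, mem_D4]
  · exact D4_s

theorem V4_a : Equiv.swap (0 : Fin 4) 1 * Equiv.swap 2 3 ∈ V4 := Subgroup.subset_closure (Or.inl rfl)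

theorem V4_b : Equiv.swap (0 : Fin 4) 2 * Equiv.swap 1 3 ∈ V4 := Subgroup.subset_closure (Or.inr rfl)

section
variable {G Ω : Type*} [Group G] [Finite G] [MulAction G Ω] [FaithfulSMul G Ω] [Finite Ω]

/-- every involution of `G` has exactly two fixed points -/
theorem two_fixed (ht : IsMultiplyPretransitive G Ω 4) (heven : Even (Nat.card Ω))
    (h4 : 4 < Nat.card Ω) (hinv : ∀ g : G, g ≠ 1 → g * g = 1 → Nat.card (fixedBy Ω g) < 4)
    (i : G) (hi1 : i ≠ 1) (hi : i * i = 1) : Nat.card (fixedBy Ω i) = 2 := by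
  classical
  haveI := ht
  haveI := Fintype.ofFinite Ω
  have hcard : Nat.card Ω = Fintype.card Ω := Nat.card_eq_fintype_card
  have hle : ∀ j : G, j ≠ 1 → j * j = 1 → Nat.card (fixedBy Ω j) ≤ 2 := by
    intro j hj1 hj
    have h1 := hinv j hj1 hj
    have h2 := H34.card_fixed_parity (Ω := Ω) j hj
    obtain ⟨m, hm⟩ := heven
    omega
  -- two cycles of an involution
  have htwo : ∀ j : G, j ≠ 1 → j * j = 1 → ∃ w : Fin 4 ↪ Ω,
      ∀ k, j • w k = w ((Equiv.swap 0 1 * Equiv.swap 2 3 : Equiv.Perm (Fin 4)) k) := by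
    intro j hj1 hj
    have h1 := hle j hj1 hj
    have hjj : ∀ y : Ω, j • j • y = y := fun y => by rw [← mul_smul, hj, one_smul]
    have hex : ∀ T : Finset Ω, T.card ≤ 2 → ∃ u, u ∉ T ∧ j • u ≠ u := by
      intro T hT
      by_contra hcon
      push Not at hcon
      have h2 : (Finset.univ : Finset Ω) ⊆ T ∪ (Set.toFinite (fixedBy Ω j)).toFinset := by
        intro y _
        rw [Finset.mem_union, Set.Finite.mem_toFinset]
        by_cases hy : y ∈ T
        · exact Or.inl hy
        · exact Or.inr (hcon y hy)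
      have h3 := (Finset.card_le_card h2).trans (Finset.card_union_le _ _)
      rw [Finset.card_univ, ← Set.ncard_eq_toFinset_card] at h3
      have h4 : (fixedBy Ω j).ncard = Nat.card (fixedBy Ω j) := rfl
      omega
    obtain ⟨u, -, hu⟩ := hex ∅ (by simp)
    obtain ⟨v, hv, hvj⟩ := hex {u, j • u} Finset.card_le_two
    simp only [Finset.mem_insert, Finset.mem_singleton, not_or] at hv
    obtain ⟨hv1, hv2⟩ := hv
    have hv3 : j • v ≠ u := fun h => hv2 (by rw [← h, hjj])
    have hv4 : j • v ≠ j • u := fun h => hv1 (MulAction.injective _ h)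
    refine ⟨⟨![u, j • u, v, j • v], ?_⟩, ?_⟩
    · intro a b hab
      fin_cases a <;> fin_cases b
      · rfl
      · exact absurd hab hu.symm
      · exact absurd hab (Ne.symm hv1)
      · exact absurd hab (Ne.symm hv3)
      · exact absurd hab hu
      · rfl
      · exact absurd hab (Ne.symm hv2)
      · exact absurd hab (Ne.symm hv4)
      · exact absurd hab hv1
      · exact absurd hab hv2
      · rfl
      · exact absurd hab (Ne.symm hvj)
      · exact absurd hab hv3
      · exact absurd hab hv4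
      · exact absurd hab hvj
      · rfl
    · intro k
      fin_cases k
      · rfl
      · exact hjj u
      · rfl
      · exact hjj v
  -- an involution with two fixed points
  obtain ⟨δ⟩ : Nonempty (Fin 4 ↪ Ω) := by
    rw [Function.Embedding.nonempty_iff_card_le, Fintype.card_fin]; omega
  haveI : Fact (Nat.Prime 2) := ⟨Nat.prime_two⟩
  obtain ⟨S, hS, hS1, hS2⟩ := exists_lift ht δ (p := 2) D4 D4_pgroup
  obtain ⟨x, hxS, hx⟩ := hS2 _ D4_a
  have hx2 : x * x = 1 := one_of_fix hinv hS (S.mul_mem hxS hxS) (w := δ) (fun i => by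
    rw [mul_smul, hx, hx, Equiv.swap_apply_self])
  have hx1 : x ≠ 1 := by
    rintro rfl
    have := hx 0
    rw [one_smul] at this
    exact absurd (δ.injective this) (by decide)
  have hxfix : 2 ≤ Nat.card (fixedBy Ω x) := by
    have h1 : ({δ 2, δ 3} : Set Ω) ⊆ fixedBy Ω x := by
      rintro y (rfl | rfl)
      · exact hx 2
      · exact hx 3
    have h2 := Set.ncard_le_ncard h1 (Set.toFinite _)
    rw [Set.ncard_pair (fun h => absurd (δ.injective h) (by decide))] at h2
    exact h2
  obtain ⟨w, hw⟩ := htwo i hi1 hi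
  obtain ⟨w', hw'⟩ := htwo x hx1 hx2
  obtain ⟨g, hg, -⟩ := conj_inv ht hinv hi hx2 (w := w) (w' := w')
    (τ := Equiv.swap 0 1 * Equiv.swap 2 3) (by decide) hw hw'
  have h1 : Nat.card (fixedBy Ω i) = Nat.card (fixedBy Ω x) := by
    apply Nat.card_congr
    refine ⟨fun y => ⟨g • (y : Ω), ?_⟩, fun y => ⟨g⁻¹ • (y : Ω), ?_⟩, ?_, ?_⟩
    · rw [mem_fixedBy, ← hg, mul_smul, mul_smul, inv_smul_smul, y.2]
    · have h2 : (g * i * g⁻¹) • (y : Ω) = y := by rw [hg]; exact y.2
      rw [mul_smul, mul_smul, smul_eq_iff_eq_inv_smul] at h2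
      exact h2
    · intro y; exact Subtype.ext (inv_smul_smul _ _)
    · intro y; exact Subtype.ext (smul_inv_smul _ _)
  have h2 := hle i hi1 hi
  omega

/-- the pointwise stabilizers of four points are trivial -/
theorem stab_trivial (ht : IsMultiplyPretransitive G Ω 4) (heven : Even (Nat.card Ω))
    (h4 : 4 < Nat.card Ω) (hfix : ∀ g : G, g ≠ 1 → Nat.card (fixedBy Ω g) ≤ 4)
    (hinv : ∀ g : G, g ≠ 1 → g * g = 1 → Nat.card (fixedBy Ω g) < 4) (δ : Fin 4 ↪ Ω) {n : G}
    (hn : ∀ i, n • δ i = δ i) : n = 1 := by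
  classical
  haveI := ht
  haveI : Fact (Nat.Prime 2) := ⟨Nat.prime_two⟩
  obtain ⟨S, hS, hS1, hS2⟩ := exists_lift ht δ (p := 2) D4 D4_pgroup
  obtain ⟨z, hzS, hz⟩ := hS2 _ (V4_le V4_a)
  obtain ⟨z', hzS', hz'⟩ := hS2 _ (V4_le V4_b)
  have key : ∀ (v : G) (σ : Equiv.Perm (Fin 4)), v ∈ S → (∀ i, v • δ i = δ (σ i)) →
      σ * σ = 1 → (∀ i, σ i ≠ i) → ∀ e : G, (∀ i, e • δ i = δ i) → v * e * v⁻¹ = e⁻¹ := by
    intro v σ hvS hv hσ hσne
    have hv2 : v * v = 1 := one_of_fix hinv hS (S.mul_mem hvS hvS) (w := δ) (fun i => by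
      rw [mul_smul, hv, hv, ← Equiv.Perm.mul_apply, hσ]; rfl)
    have hv1 : v ≠ 1 := by
      rintro rfl
      have := hv 0
      rw [one_smul] at this
      exact hσne 0 (δ.injective this).symm
    have hvset : v ∈ setStab G δ := mem_of_perm hv
    have hfixv := two_fixed ht heven h4 hinv v hv1 hv2
    -- centralizer of `v` in the stabilizer
    have hcent : ∀ e : G, (∀ i, e • δ i = δ i) → v * e = e * v → e = 1 := by
      intro e he hve
      by_contra hne
      obtain ⟨⟨p, hp⟩⟩ : Nonempty (fixedBy Ω v) := by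
        have : 0 < Nat.card (fixedBy Ω v) := by omega
        exact (Nat.card_pos_iff.1 this).1
      have hep : ∀ y ∈ fixedBy Ω v, e • y ∈ fixedBy Ω v := by
        intro y hy
        rw [mem_fixedBy] at hy ⊢
        rw [← mul_smul, hve, mul_smul, hy]
      -- `e` fixes `p`
      have hep1 : e • p = p := by
        have hodd := odd_order_of_fix hinv (le_card_fixedBy he)
        obtain ⟨k, hk⟩ := hodd
        have h1 : (e * e) • p = p := by
          by_contra h
          have h2 : e • p ≠ p := by
            intro h3; apply h; rw [mul_smul, h3, h3]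
          have h3 : ({p, e • p, (e * e) • p} : Set Ω) ⊆ fixedBy Ω v := by
            rintro y (rfl | rfl | rfl)
            · exact hp
            · exact hep _ hp
            · rw [mul_smul]; exact hep _ (hep _ hp)
          have h5 := Set.ncard_le_ncard h3 (Set.toFinite _)
          have h6 : (fixedBy Ω v).ncard = Nat.card (fixedBy Ω v) := rfl
          rw [h6, hfixv, Set.ncard_eq_three.2 ⟨p, e • p, (e * e) • p, h2.symm, Ne.symm h, by
            rw [mul_smul]
            intro h7
            exact h2 (MulAction.injective _ h7).symm, rfl⟩] at h5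
          omega
        have h2 : e = (e * e) ^ (k + 1) := by
          have h3 : e ^ (2 * k + 1) = 1 := by rw [← hk, pow_orderOf_eq_one]
          rw [← pow_two, ← pow_mul]
          have h5 : 2 * (k + 1) = (2 * k + 1) + 1 := by ring
          rw [h5, pow_succ, h3, one_mul]
        rw [h2]
        have h3 := fixedBy_subset_fixedBy_zpow (α := Ω) (e * e) ((k + 1 : ℕ) : ℤ)
        rw [zpow_natCast] at h3
        exact h3 h1
      have hpδ : ∀ i, δ i ≠ p := by
        rintro i rfl
        rw [mem_fixedBy, hv] at hp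
        exact hσne i (δ.injective hp)
      have h5 : insert p (Set.range δ) ⊆ fixedBy Ω e := by
        rintro y (rfl | ⟨i, rfl⟩)
        · exact hep1
        · exact he i
      have h6 := Set.ncard_le_ncard h5 (Set.toFinite _)
      rw [Set.ncard_insert_of_notMem (by rintro ⟨i, hi⟩; exact hpδ i hi) (Set.toFinite _),
        Set.ncard_range_of_injective δ.injective, Nat.card_eq_fintype_card, Fintype.card_fin] at h6
      have h7 : (fixedBy Ω e).ncard = Nat.card (fixedBy Ω e) := rfl
      have h8 := hfix e hne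
      omega
    intro e he
    have heset : e ∈ setStab G δ := mem_of_perm (σ := 1) he
    have hmemker : ∀ m : setStab G δ, m ∈ (ind (G := G) δ).ker ↔ ∀ i, (m : G) • δ i = δ i := by
      intro m
      rw [MonoidHom.mem_ker]
      constructor
      · intro hm i
        rw [ind_spec, hm]; rfl
      · intro hm
        exact ind_eq hm
    have h1 := H34.inv_of_fpf_involution (ind (G := G) δ).ker ⟨v, hvset⟩ (Subtype.ext hv2) (by
      rintro ⟨m, hm⟩ hmk hcomm
      apply Subtype.ext
      exact hcent m ((hmemker _).1 hmk) (congrArg Subtype.val hcomm)) ⟨e, heset⟩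
      ((hmemker _).2 he)
    exact congrArg Subtype.val h1
  have e1 := key z _ hzS hz (by decide) (by decide) n hn
  have hn' : ∀ i, n⁻¹ • δ i = δ i := fun i => by rw [inv_smul_eq_iff, hn]
  have e2 := key z' _ hzS' hz' (by decide) (by decide) n hn
  have e3 := key (z * z') ((Equiv.swap 0 1 * Equiv.swap 2 3) * (Equiv.swap 0 2 * Equiv.swap 1 3))
    (S.mul_mem hzS hzS') (fun i => by rw [mul_smul, hz', hz]; rfl) (by decide) (by decide) n hn
  have e4 := key z _ hzS hz (by decide) (by decide) n⁻¹ hn'
  rw [inv_inv] at e4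
  have e5 : (z * z') * n * (z * z')⁻¹ = n := by
    calc (z * z') * n * (z * z')⁻¹ = z * (z' * n * z'⁻¹) * z⁻¹ := by group
      _ = n := by rw [e2, e4]
  rw [e5] at e3
  -- `n` has odd order and is its own inverse
  have hodd := odd_order_of_fix hinv (le_card_fixedBy hn)
  have h2 : n ^ 2 = 1 := by
    rw [pow_two]
    nth_rewrite 1 [e3]
    exact inv_mul_cancel n
  have h3 := orderOf_dvd_of_pow_eq_one h2
  rcases (Nat.dvd_prime Nat.prime_two).1 h3 with h5 | h5
  · exact orderOf_eq_one_iff.1 h5
  · rw [h5] at hodd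
    exact absurd hodd (by decide)

theorem six (ht : IsMultiplyPretransitive G Ω 4) (heven : Even (Nat.card Ω))
    (h4 : 4 < Nat.card Ω) (hfix : ∀ g : G, g ≠ 1 → Nat.card (fixedBy Ω g) ≤ 4)
    (hinv : ∀ g : G, g ≠ 1 → g * g = 1 → Nat.card (fixedBy Ω g) < 4) : Nat.card Ω = 6 := by
  classical
  haveI := ht
  haveI := Fintype.ofFinite Ω
  have hcard : Nat.card Ω = Fintype.card Ω := Nat.card_eq_fintype_card
  haveI : Fact (Nat.Prime 2) := ⟨Nat.prime_two⟩
  obtain ⟨δ⟩ : Nonempty (Fin 4 ↪ Ω) := by
    rw [Function.Embedding.nonempty_iff_card_le, Fintype.card_fin]; omega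
  have htriv := stab_trivial ht heven h4 hfix hinv
  obtain ⟨S, hS, hS1, hS2⟩ := exists_lift ht δ (p := 2) D4 D4_pgroup
  obtain ⟨x, hxS, hx⟩ := hS2 _ (V4_le V4_a)
  have hx2 : x * x = 1 := one_of_fix hinv hS (S.mul_mem hxS hxS) (w := δ) (fun i => by
    rw [mul_smul, hx, hx, ← Equiv.Perm.mul_apply, show (Equiv.swap 0 1 * Equiv.swap 2 3 :
      Equiv.Perm (Fin 4)) * (Equiv.swap 0 1 * Equiv.swap 2 3) = 1 by decide]; rfl)
  have hx1 : x ≠ 1 := by
    rintro rfl
    have := hx 0
    rw [one_smul] at this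
    exact absurd (δ.injective this) (by decide)
  have hxx : ∀ y : Ω, x • x • y = y := fun y => by rw [← mul_smul, hx2, one_smul]
  have hfx := two_fixed ht heven h4 hinv x hx1 hx2
  obtain ⟨p, q, hpq, hF⟩ := Set.ncard_eq_two.1 (show (fixedBy Ω x).ncard = 2 from hfx)
  have hp : x • p = p := by
    have : p ∈ fixedBy Ω x := by rw [hF]; exact Or.inl rfl
    exact this
  have hq : x • q = q := by
    have : q ∈ fixedBy Ω x := by rw [hF]; exact Or.inr rfl
    exact this
  have hmem : ∀ y, x • y = y → y = p ∨ y = q := by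
    intro y hy
    have : y ∈ fixedBy Ω x := hy
    rw [hF] at this
    exact this
  set u := δ 0 with hu
  have hxu : x • u = δ 1 := hx 0
  have hxu' : x • u ≠ u := by rw [hxu]; exact fun h => absurd (δ.injective h) (by decide)
  -- the map
  set T : Finset Ω := {p, q, u, x • u} with hT
  have hbase : δ 2 ∉ T := by
    rw [hT]
    simp only [Finset.mem_insert, Finset.mem_singleton, not_or]
    refine ⟨?_, ?_, ?_, ?_⟩
    · rintro h; rw [← h] at hp; rw [hx] at hp
      exact absurd (δ.injective hp) (by decide)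
    · rintro h; rw [← h] at hq; rw [hx] at hq
      exact absurd (δ.injective hq) (by decide)
    · exact fun h => absurd (δ.injective h) (by decide)
    · rw [hxu]; exact fun h => absurd (δ.injective h) (by decide)
  have hex : ∀ v : Ω, v ∉ T → ∃ g : G, g * x = x * g ∧ g • u = u ∧ g • δ 2 = v := by
    intro v hv
    rw [hT] at hv
    simp only [Finset.mem_insert, Finset.mem_singleton, not_or] at hv
    obtain ⟨hv1, hv2, hv3, hv4⟩ := hv
    have hxv : x • v ≠ v := by
      intro h
      rcases hmem v h with h | h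
      · exact hv1 h
      · exact hv2 h
    have hv5 : x • v ≠ u := fun h => hv4 (by rw [← h, hxx])
    have hv6 : x • v ≠ x • u := fun h => hv3 (MulAction.injective _ h)
    let w' : Fin 4 ↪ Ω := ⟨![u, x • u, v, x • v], by
      intro a b hab
      fin_cases a <;> fin_cases b
      · rfl
      · exact absurd hab hxu'.symm
      · exact absurd hab (Ne.symm hv3)
      · exact absurd hab (Ne.symm hv5)
      · exact absurd hab hxu'
      · rfl
      · exact absurd hab (Ne.symm hv4)
      · exact absurd hab (Ne.symm hv6)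
      · exact absurd hab hv3
      · exact absurd hab hv4
      · rfl
      · exact absurd hab (Ne.symm hxv)
      · exact absurd hab hv5
      · exact absurd hab hv6
      · exact absurd hab hxv
      · rfl⟩
    obtain ⟨g, hg, hgw⟩ := conj_inv ht hinv hx2 hx2 (w := δ) (w' := w')
      (τ := Equiv.swap 0 1 * Equiv.swap 2 3) (by decide) hx (by
      intro k
      fin_cases k
      · rfl
      · exact hxx u
      · rfl
      · exact hxx v)
    refine ⟨g, ?_, hgw 0, hgw 2⟩
    rw [mul_inv_eq_iff_eq_mul] at hg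
    exact hg
  choose! g hg1 hg2 hg3 using hex
  have hgp : ∀ v ∉ T, g v • p = p ∨ g v • p = q := by
    intro v hv
    apply hmem
    rw [← mul_smul, ← hg1 v hv, mul_smul, hp]
  have hgq : ∀ v ∉ T, g v • q = p ∨ g v • q = q := by
    intro v hv
    apply hmem
    rw [← mul_smul, ← hg1 v hv, mul_smul, hq]
  have hinj : Set.InjOn (fun v => g v • p) (Tᶜ : Finset Ω) := by
    intro a ha b hb hab
    rw [Finset.coe_compl, Set.mem_compl_iff, Finset.mem_coe] at ha hb
    change g a • p = g b • p at hab
    -- `g b⁻¹ g a` fixes four points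
    have e1 : ((g b)⁻¹ * g a) • p = p := by rw [mul_smul, hab, inv_smul_smul]
    have e2 : ((g b)⁻¹ * g a) • q = q := by
      rw [mul_smul, inv_smul_eq_iff]
      have a1 : g a • p ≠ g a • q := fun h => hpq (MulAction.injective _ h)
      have b1 : g b • p ≠ g b • q := fun h => hpq (MulAction.injective _ h)
      rcases hgq a ha with h2 | h2 <;> rcases hgq b hb with h5 | h5
      · rw [h2, h5]
      · exfalso
        rcases hgp a ha with h1 | h1
        · exact a1 (h1.trans h2.symm)
        · exact b1 (hab.symm.trans (h1.trans h5.symm))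
      · exfalso
        rcases hgp a ha with h1 | h1
        · exact b1 (hab.symm.trans (h1.trans h5.symm))
        · exact a1 (h1.trans h2.symm)
      · rw [h2, h5]
    have e3 : ((g b)⁻¹ * g a) • u = u := by rw [mul_smul, hg2 a ha, inv_smul_eq_iff, hg2 b hb]
    have hc : ((g b)⁻¹ * g a) * x = x * ((g b)⁻¹ * g a) := by
      have c1 : Commute (g a) x := hg1 a ha
      have c2 : Commute (g b) x := hg1 b hb
      exact (c2.inv_left.mul_left c1).eq
    have e4 : ((g b)⁻¹ * g a) • x • u = x • u := by
      rw [← mul_smul, hc, mul_smul, e3]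
    have hpu : p ≠ u := fun h => hxu' (by rw [← h, hp])
    have hqu : q ≠ u := fun h => hxu' (by rw [← h, hq])
    have hpxu : p ≠ x • u := fun h => hpu (by
      have := congrArg (fun y => x • y) h
      change x • p = x • x • u at this
      rw [hp, hxx] at this
      exact this)
    have hqxu : q ≠ x • u := fun h => hqu (by
      have := congrArg (fun y => x • y) h
      change x • q = x • x • u at this
      rw [hq, hxx] at this
      exact this)
    have h1 := htriv ⟨![p, q, u, x • u], by
      intro a b hab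
      fin_cases a <;> fin_cases b
      · rfl
      · exact absurd hab hpq
      · exact absurd hab hpu
      · exact absurd hab hpxu
      · exact absurd hab hpq.symm
      · rfl
      · exact absurd hab hqu
      · exact absurd hab hqxu
      · exact absurd hab hpu.symm
      · exact absurd hab hqu.symm
      · rfl
      · exact absurd hab hxu'.symm
      · exact absurd hab hpxu.symm
      · exact absurd hab hqxu.symm
      · exact absurd hab hxu'
      · rfl⟩ (n := (g b)⁻¹ * g a) (by
      intro i
      fin_cases i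
      · exact e1
      · exact e2
      · exact e3
      · exact e4)
    rw [inv_mul_eq_one] at h1
    rw [← hg3 a ha, ← hg3 b hb, h1]
  have hle := Finset.card_le_card_of_injOn (s := (Tᶜ : Finset Ω)) (t := {p, q})
    (fun v => g v • p) (by
    intro v hv
    rw [Finset.mem_coe, Finset.mem_compl] at hv
    rw [Finset.mem_coe, Finset.mem_insert, Finset.mem_singleton]
    exact hgp v hv) hinj
  have hT4 : T.card ≤ 4 := Finset.card_le_four
  rw [Finset.card_compl, Finset.card_pair hpq] at hle
  obtain ⟨m, hm⟩ := heven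
  omega

end

end Cfsg.Agent.H74.LW
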