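import Cfsg.Agent.H74.LW5
import Cfsg.Agent.H34.FrobInv
import Cfsg.Agent.H34.RegLin
import Cfsg.Agent.H12.SmallPrimeDegree

/-!
# Livingstone–Wagner: even stabilizers
-/

set_option autoImplicit false
set_option linter.unusedSectionVars false
set_option linter.style.haveILetI false

universe u

namespace Cfsg.Agent.H74.LW

open MulAction
open AN (ptStab)
open AC (setStab mem_setStab mem_of_perm)
open scoped Pointwise

/-- the complement of the range of a tuple, under its pointwise stabilizer -/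
def compSub {G Ω : Type*} [Group G] [MulAction G Ω] {d : ℕ} (δ : Fin d ↪ Ω) :
    SubMulAction (ptStab G δ) Ω where
  carrier := (Set.range δ)ᶜ
  smul_mem' := by
    rintro g y hy ⟨i, hi⟩
    apply hy
    refine ⟨i, ?_⟩
    apply MulAction.injective (g : G)
    change (g : G) • δ i = (g : G) • y
    rw [mem_pt.1 g.2 i]
    exact hi

theorem mem_compSub {G Ω : Type*} [Group G] [MulAction G Ω] {d : ℕ} {δ : Fin d ↪ Ω} {y : Ω} :
    y ∈ compSub (G := G) δ ↔ y ∉ Set.range δ := Iff.rfl

/-- a counting lemma: elements of an abelian group fixed resp. inverted by an automorphism -/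
theorem card_le_fix_inv {N : Type*} [Group N] [Finite N] (hcomm : ∀ a b : N, a * b = b * a)
    (φ : N →* N) (hφ : ∀ n, φ (φ n) = n) :
    Nat.card N ≤ Nat.card {n : N // φ n = n⁻¹} * Nat.card {n : N // φ n = n} ∧
      Nat.card {n : N // φ n = n} ∣ Nat.card N := by
  classical
  let C : Subgroup N :=
    { carrier := {n | φ n = n}
      one_mem' := map_one φ
      mul_mem' := fun {a b} ha hb => by
        change φ (a * b) = a * b
        rw [map_mul]
        rw [show φ a = a from ha, show φ b = b from hb]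
      inv_mem' := fun {a} ha => by
        change φ a⁻¹ = a⁻¹
        rw [map_inv, show φ a = a from ha] }
  let ψ : N →* N := MonoidHom.mk' (fun n => n * φ n) (by
    intro a b
    rw [map_mul]
    calc a * b * (φ a * φ b) = a * (b * φ a) * φ b := by group
      _ = a * (φ a * b) * φ b := by rw [hcomm b]
      _ = a * φ a * (b * φ b) := by group)
  have hψ : ∀ n, ψ n = n * φ n := fun n => rfl
  have hrange : ψ.range ≤ C := by
    rintro _ ⟨n, rfl⟩
    change φ (ψ n) = ψ n
    rw [hψ, map_mul, hφ, hcomm]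
  have hker : Nat.card ψ.ker = Nat.card {n : N // φ n = n⁻¹} := by
    apply Nat.card_congr
    apply Equiv.subtypeEquivRight
    intro n
    rw [MonoidHom.mem_ker, hψ]
    constructor
    · intro h; exact (inv_eq_of_mul_eq_one_right h).symm
    · intro h; rw [h, mul_inv_cancel]
  have h1 : Nat.card ψ.ker * Nat.card ψ.range = Nat.card N := by
    rw [← Subgroup.index_ker, Subgroup.card_mul_index]
  have hC : Nat.card C = Nat.card {n : N // φ n = n} := rfl
  refine ⟨?_, Subgroup.card_subgroup_dvd_card C⟩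
  rw [← h1, hker]
  exact Nat.mul_le_mul_left _ (Subgroup.card_le_of_le hrange)

theorem succ_trans {G Ω : Type*} [Group G] [MulAction G Ω] {t : ℕ}
    (ht : IsMultiplyPretransitive G Ω t) (δ : Fin t ↪ Ω)
    (htr : ∀ y y' : Ω, y ∉ Set.range δ → y' ∉ Set.range δ → ∃ g ∈ ptStab G δ, g • y = y') :
    IsMultiplyPretransitive G Ω (t + 1) := by
  haveI := ht
  have key : ∀ x : Fin (t + 1) ↪ Ω, ∃ g : G, (∀ i : Fin t, g • x i.castSucc = δ i) := by
    intro x
    obtain ⟨g, hg⟩ := exists_smul_eq G (Fin.castSuccEmb.trans x) δ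
    exact ⟨g, fun i => DFunLike.congr_fun hg i⟩
  refine ⟨fun x x' => ?_⟩
  obtain ⟨g, hg⟩ := key x
  obtain ⟨g', hg'⟩ := key x'
  obtain ⟨h, hh, hhy⟩ := htr (g • x (Fin.last t)) (g' • x' (Fin.last t)) (by
    rintro ⟨i, hi⟩
    rw [← hg i] at hi
    exact (Fin.castSucc_lt_last i).ne (x.injective (MulAction.injective _ hi))) (by
    rintro ⟨i, hi⟩
    rw [← hg' i] at hi
    exact (Fin.castSucc_lt_last i).ne (x'.injective (MulAction.injective _ hi)))
  refine ⟨g'⁻¹ * h * g, ?_⟩
  ext m
  change (g'⁻¹ * h * g) • x m = x' m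
  rw [mul_smul, mul_smul, inv_smul_eq_iff]
  induction m using Fin.lastCases with
  | last => exact hhy
  | cast i => rw [hg, mem_pt.1 hh i, hg']

section
variable {G Ω : Type*} [Group G] [Finite G] [MulAction G Ω] [FaithfulSMul G Ω] [Finite Ω]

/-- the degree is six or twelve -/
theorem caseA_degree (ht : IsMultiplyPretransitive G Ω 4)
    (hfix : ∀ g : G, g ≠ 1 → Nat.card (fixedBy Ω g) ≤ 4) (z : G) (hz1 : z ≠ 1) (hz2 : z * z = 1)
    (hz4 : 4 ≤ Nat.card (fixedBy Ω z)) : Nat.card Ω = 6 ∨ Nat.card Ω = 12 := by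
  classical
  haveI := ht
  haveI := Fintype.ofFinite Ω
  have hz4' : Nat.card (fixedBy Ω z) = 4 := le_antisymm (hfix z hz1) hz4
  have hzz : ∀ y : Ω, z • z • y = y := fun y => by rw [← mul_smul, hz2, one_smul]
  -- the fixed points
  let e4 : Fin 4 ≃ fixedBy Ω z := (Finite.equivFinOfCardEq hz4').symm
  let a : Fin 4 ↪ Ω := e4.toEmbedding.trans (Function.Embedding.subtype _)
  have ha : ∀ i, z • a i = a i := fun i => (e4 i).2
  obtain ⟨u, hu⟩ : ∃ u, z • u ≠ u := by
    by_contra hcon
    push Not at hcon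
    apply hz1
    apply FaithfulSMul.eq_of_smul_eq_smul (M := G) (α := Ω)
    intro y
    rw [hcon y, one_smul]
  have hua : ∀ i, u ≠ a i := fun i h => hu (by rw [h]; exact ha i)
  have hzua : ∀ i, z • u ≠ a i := fun i h => hua i (by
    apply MulAction.injective z
    change z • u = z • a i
    rw [h, ha])
  have haa : ∀ {i j}, i ≠ j → a i ≠ a j := fun h => a.injective.ne h
  let w1 : Fin 4 ↪ Ω := ⟨![u, z • u, a 2, a 3], by
    intro i j hij
    fin_cases i <;> fin_cases j
    · rfl
    · exact absurd hij hu.symm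
    · exact absurd hij (hua 2)
    · exact absurd hij (hua 3)
    · exact absurd hij hu
    · rfl
    · exact absurd hij (hzua 2)
    · exact absurd hij (hzua 3)
    · exact absurd hij.symm (hua 2)
    · exact absurd hij.symm (hzua 2)
    · rfl
    · exact absurd hij (haa (by decide))
    · exact absurd hij.symm (hua 3)
    · exact absurd hij.symm (hzua 3)
    · exact absurd hij (haa (by decide))
    · rfl⟩
  obtain ⟨g, hg⟩ := exists_smul_eq G w1 a
  have g0 : g • u = a 0 := DFunLike.congr_fun hg 0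
  have g1 : g • z • u = a 1 := DFunLike.congr_fun hg 1
  have g2 : g • a 2 = a 2 := DFunLike.congr_fun hg 2
  have g3 : g • a 3 = a 3 := DFunLike.congr_fun hg 3
  set τ := g * z * g⁻¹ with hτ
  have hττ : τ * τ = 1 := by
    calc τ * τ = g * (z * z) * g⁻¹ := by rw [hτ]; group
      _ = 1 := by rw [hz2]; group
  have t0 : τ • a 0 = a 1 := by rw [hτ, mul_smul, mul_smul, ← g0, inv_smul_smul, g1]
  have t1 : τ • a 1 = a 0 := by rw [← t0, ← mul_smul, hττ, one_smul]
  have t2 : τ • a 2 = a 2 := by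
    rw [hτ, mul_smul, mul_smul]
    nth_rewrite 1 [← g2]
    rw [inv_smul_smul, ha, g2]
  have t3 : τ • a 3 = a 3 := by
    rw [hτ, mul_smul, mul_smul]
    nth_rewrite 1 [← g3]
    rw [inv_smul_smul, ha, g3]
  have hτi : τ⁻¹ = τ := inv_eq_of_mul_eq_one_left hττ
  have hτfix : Nat.card (fixedBy Ω τ) = 4 := by
    rw [← hz4']
    apply Nat.card_congr
    refine ⟨fun y => ⟨g⁻¹ • (y : Ω), ?_⟩, fun y => ⟨g • (y : Ω), ?_⟩, ?_, ?_⟩
    · have h2 : (g * z * g⁻¹) • (y : Ω) = y := y.2
      rw [mul_smul, mul_smul, smul_eq_iff_eq_inv_smul] at h2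
      exact h2
    · rw [mem_fixedBy, hτ, mul_smul, mul_smul, inv_smul_smul, y.2]
    · intro y; exact Subtype.ext (smul_inv_smul _ _)
    · intro y; exact Subtype.ext (inv_smul_smul _ _)
  clear_value τ
  -- the pointwise stabilizer of three points
  let δ : Fin 3 ↪ Ω := Fin.castSuccEmb.trans a
  have hδ : ∀ i : Fin 3, δ i = a i.castSucc := fun i => rfl
  have hw0 : a 3 ∉ Set.range δ := by
    rintro ⟨i, hi⟩
    rw [hδ] at hi
    exact (Fin.castSucc_lt_last i).ne (a.injective hi)
  set K := ptStab G δ with hK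
  let X := compSub (G := G) δ
  have hXτ : ∀ y : Ω, y ∉ Set.range δ → τ • y ∉ Set.range δ := by
    rintro y hy ⟨i, hi⟩
    apply hy
    have hy' : y = τ • δ i := by rw [hi, ← mul_smul, hττ, one_smul]
    fin_cases i
    · exact ⟨1, by rw [hy']; exact t0.symm⟩
    · exact ⟨0, by rw [hy']; exact t1.symm⟩
    · exact ⟨2, by rw [hy']; exact t2.symm⟩
  have hKτ : ∀ k ∈ K, τ * k * τ⁻¹ ∈ K := by
    intro k hk
    rw [hK, mem_pt] at hk ⊢
    have k0 : k • a 0 = a 0 := hk 0
    have k1 : k • a 1 = a 1 := hk 1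
    have k2 : k • a 2 = a 2 := hk 2
    intro i
    rw [hτi]
    fin_cases i
    · change (τ * k * τ) • a 0 = a 0
      rw [mul_smul, mul_smul, t0, k1, t1]
    · change (τ * k * τ) • a 1 = a 1
      rw [mul_smul, mul_smul, t1, k0, t0]
    · change (τ * k * τ) • a 2 = a 2
      rw [mul_smul, mul_smul, t2, k2, t2]
  have htrX : IsPretransitive K X := by
    refine ⟨fun y y' => ?_⟩
    obtain ⟨h, hh, hhy⟩ := AC.exists_ext (d := 3) ht δ δ y.2 y'.2
    exact ⟨⟨h, mem_pt.2 hh⟩, Subtype.ext hhy⟩
  have hfX : ∀ (k : K) {x y : X}, x ≠ y → k • x = x → k • y = y → k = 1 := by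
    intro k x y hxy hkx hky
    by_contra hk1
    have hk1' : (k : G) ≠ 1 := fun h => hk1 (Subtype.ext h)
    have h1 : insert (x : Ω) (insert (y : Ω) (Set.range δ)) ⊆ fixedBy Ω (k : G) := by
      rintro w (rfl | rfl | ⟨i, rfl⟩)
      · exact congrArg Subtype.val hkx
      · exact congrArg Subtype.val hky
      · exact mem_pt.1 k.2 i
    have h2 := Set.ncard_le_ncard h1 (Set.toFinite _)
    rw [Set.ncard_insert_of_notMem _ (Set.toFinite _), Set.ncard_insert_of_notMem _ (Set.toFinite _),
      Set.ncard_range_of_injective δ.injective, Nat.card_eq_fintype_card, Fintype.card_fin] at h2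
    · have h3 := hfix (k : G) hk1'
      have h4 : (fixedBy Ω (k : G)).ncard = Nat.card (fixedBy Ω (k : G)) := rfl
      omega
    · exact y.2
    · rintro (h | h)
      · exact hxy (Subtype.ext h)
      · exact x.2 h
  have hrange : (Set.range δ).ncard = 3 := by
    rw [Set.ncard_range_of_injective δ.injective, Nat.card_eq_fintype_card, Fintype.card_fin]
  have hXcard : Nat.card X = Nat.card Ω - 3 := by
    have h1 : Nat.card X = ((Set.range δ)ᶜ).ncard := rfl
    rw [h1, Set.ncard_compl, hrange]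
  have hXset : ∀ v : G, {x : X | v • (x : Ω) = x}.ncard = ((Set.range δ)ᶜ ∩ fixedBy Ω v).ncard := by
    intro v
    rw [← Set.ncard_image_of_injective _ Subtype.val_injective]
    congr 1
    ext y
    constructor
    · rintro ⟨x, hx, rfl⟩
      exact ⟨x.2, hx⟩
    · rintro ⟨hy, hv⟩
      exact ⟨⟨y, hy⟩, hv, rfl⟩
  have h6 : 6 ≤ Nat.card Ω := by
    have h1 : insert u (insert (z • u) (fixedBy Ω z)) ⊆ (Set.univ : Set Ω) := Set.subset_univ _
    have h2 := Set.ncard_le_ncard h1 (Set.toFinite _)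
    rw [Set.ncard_univ, Set.ncard_insert_of_notMem _ (Set.toFinite _),
      Set.ncard_insert_of_notMem _ (Set.toFinite _)] at h2
    · have h4 : (fixedBy Ω z).ncard = Nat.card (fixedBy Ω z) := rfl
      omega
    · intro h
      have h3 : z • z • u = z • u := h
      rw [hzz] at h3
      exact hu h3.symm
    · rintro (h | h)
      · exact hu h.symm
      · exact hu h
  have hzK : z ∈ K := by rw [hK, mem_pt]; exact fun i => ha _
  obtain ⟨N, hN, hNcard, hNmem, hNcomm, hNreg, -, hNinv⟩ := H34.frob_even htrX hfX (by omega)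
    (⟨a 3, hw0⟩ : X) ⟨z, hzK⟩ (Subtype.ext hz2) (fun h => hz1 (congrArg Subtype.val h))
    (Subtype.ext (ha 3))
  let conjK : K →* K := MonoidHom.mk' (fun k => ⟨τ * k * τ⁻¹, hKτ k k.2⟩) (by
    intro k l
    apply Subtype.ext
    change τ * (k * l : G) * τ⁻¹ = (τ * k * τ⁻¹) * (τ * l * τ⁻¹)
    group)
  have hconjN : ∀ n : N, conjK n ∈ N := by
    rintro ⟨n, hn⟩
    rw [hNmem] at hn ⊢
    rcases hn with rfl | hn
    · left; exact map_one _
    · right
      intro x hx
      have h1 : (τ * (n : G) * τ⁻¹) • (x : Ω) = x := congrArg Subtype.val hx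
      apply hn ⟨τ • (x : Ω), hXτ _ x.2⟩
      apply Subtype.ext
      change (n : G) • τ • (x : Ω) = τ • (x : Ω)
      rw [hτi, mul_smul, mul_smul] at h1
      have h2 := congrArg (fun y => τ • y) h1
      change τ • τ • (n : G) • τ • (x : Ω) = τ • (x : Ω) at h2
      rw [← mul_smul, hττ, one_smul] at h2
      exact h2
  let φ : N →* N := (conjK.comp N.subtype).codRestrict N hconjN
  have hφ : ∀ n : N, (((φ n : N) : K) : G) = τ * (n : K) * τ⁻¹ := fun n => rfl
  let w0 : X := ⟨a 3, hw0⟩
  let e : N ≃ X := Equiv.ofBijective (fun n => (n : K) • w0) (by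
    constructor
    · intro n m hnm
      obtain ⟨k, -, hk⟩ := hNreg w0 ((m : K) • w0)
      apply Subtype.ext
      rw [hk _ ⟨n.2, hnm⟩, hk _ ⟨m.2, rfl⟩]
    · intro x
      obtain ⟨k, ⟨hk, hkx⟩, -⟩ := hNreg w0 x
      exact ⟨⟨k, hk⟩, hkx⟩)
  have he : ∀ n : N, ((e n : X) : Ω) = ((n : K) : G) • a 3 := fun n => rfl
  have hτe : ∀ n : N, τ • ((e n : X) : Ω) = ((e (φ n) : X) : Ω) := by
    intro n
    rw [he, he, hφ, mul_smul, mul_smul, hτi, t3]
  have hze : ∀ n : N, z • ((e n : X) : Ω) = ((e n⁻¹ : X) : Ω) := by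
    intro n
    have h1 := hNinv w0 ⟨z, hzK⟩ (Subtype.ext hz2) (fun h => hz1 (congrArg Subtype.val h))
      (Subtype.ext (ha 3)) n n.2
    have h2 : z * ((n : K) : G) * z⁻¹ = ((n : K) : G)⁻¹ := congrArg Subtype.val h1
    have h3 : z⁻¹ • a 3 = a 3 := by rw [inv_smul_eq_iff, ha]
    rw [he, he]
    change z • ((n : K) : G) • a 3 = ((n : K) : G)⁻¹ • a 3
    rw [← h2, mul_smul, mul_smul, h3]
  have hcomm : ∀ a b : N, a * b = b * a := fun a b => Subtype.ext (hNcomm a a.2 b b.2)
  obtain ⟨hle, hdvd⟩ := card_le_fix_inv hcomm φ (by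
    intro n
    apply Subtype.ext
    apply Subtype.ext
    rw [hφ, hφ, hτi]
    calc τ * (τ * ((n : K) : G) * τ) * τ = (τ * τ) * ((n : K) : G) * (τ * τ) := by group
      _ = ((n : K) : G) := by rw [hττ, one_mul, mul_one])
  -- the fixed points of `τ`
  have hfix1 : Nat.card {n : N // φ n = n} = 3 := by
    have h1 : Nat.card {n : N // φ n = n} = {x : X | τ • (x : Ω) = x}.ncard := by
      rw [← Nat.card_coe_set_eq]
      apply Nat.card_congr
      apply e.subtypeEquiv
      intro n
      change φ n = n ↔ τ • ((e n : X) : Ω) = ((e n : X) : Ω)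
      rw [hτe]
      constructor
      · intro h; rw [h]
      · intro h; exact e.injective (Subtype.ext h)
    rw [h1, hXset]
    have h2 : (Set.range δ)ᶜ ∩ fixedBy Ω τ = fixedBy Ω τ \ {a 2} := by
      ext y
      constructor
      · rintro ⟨hy, hyτ⟩
        refine ⟨hyτ, ?_⟩
        rintro rfl
        exact hy ⟨2, rfl⟩
      · rintro ⟨hyτ, hy⟩
        refine ⟨?_, hyτ⟩
        rintro ⟨i, rfl⟩
        fin_cases i
        · have h3 : τ • a 0 = a 0 := hyτ
          rw [t0] at h3
          exact haa (by decide) h3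
        · have h3 : τ • a 1 = a 1 := hyτ
          rw [t1] at h3
          exact haa (by decide) h3
        · exact hy rfl
    rw [h2, Set.ncard_sdiff_singleton_of_mem (show a 2 ∈ fixedBy Ω τ from t2)]
    have h4 : (fixedBy Ω τ).ncard = Nat.card (fixedBy Ω τ) := rfl
    omega
  have hzt1 : z * τ ≠ 1 := by
    intro h
    have h1 : (z * τ) • a 0 = a 0 := by rw [h, one_smul]
    rw [mul_smul, t0, ha] at h1
    exact haa (by decide) h1
  have hfix2 : Nat.card {n : N // φ n = n⁻¹} ≤ 3 := by
    have h1 : Nat.card {n : N // φ n = n⁻¹} = {x : X | (z * τ) • (x : Ω) = x}.ncard := by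
      rw [← Nat.card_coe_set_eq]
      apply Nat.card_congr
      apply e.subtypeEquiv
      intro n
      change φ n = n⁻¹ ↔ (z * τ) • ((e n : X) : Ω) = ((e n : X) : Ω)
      rw [mul_smul, hτe, hze]
      constructor
      · intro h; rw [h, inv_inv]
      · intro h
        have h3 : (φ n)⁻¹ = n := e.injective (Subtype.ext h)
        rw [← h3, inv_inv, h3]
    rw [h1, hXset]
    have h2 : (Set.range δ)ᶜ ∩ fixedBy Ω (z * τ) ⊆ fixedBy Ω (z * τ) \ {a 2} := by
      rintro y ⟨hy, hyτ⟩
      refine ⟨hyτ, ?_⟩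
      rintro rfl
      exact hy ⟨2, rfl⟩
    refine (Set.ncard_le_ncard h2 (Set.toFinite _)).trans ?_
    rw [Set.ncard_sdiff_singleton_of_mem (show a 2 ∈ fixedBy Ω (z * τ) by
      rw [mem_fixedBy, mul_smul, t2, ha])]
    have h4 : (fixedBy Ω (z * τ)).ncard = Nat.card (fixedBy Ω (z * τ)) := rfl
    have h5 := hfix (z * τ) hzt1
    omega
  rw [hfix1] at hle hdvd
  rw [hNcard, hXcard] at hle hdvd
  have hpar := H34.card_fixed_parity (Ω := Ω) z hz2
  rw [hz4'] at hpar
  have h9 : Nat.card Ω - 3 ≤ 9 := hle.trans (Nat.mul_le_mul_right 3 hfix2)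
  omega

theorem faithful_ofStabilizer (a : Ω) :
    FaithfulSMul (stabilizer G a) (SubMulAction.ofStabilizer G a) := by
  refine ⟨fun {g h} hgh => ?_⟩
  apply Subtype.ext
  apply FaithfulSMul.eq_of_smul_eq_smul (M := G) (α := Ω)
  intro y
  by_cases hy : y = a
  · rw [hy]
    exact (g.2 : (g : G) • a = a).trans (h.2 : (h : G) • a = a).symm
  · exact congrArg Subtype.val (hgh ⟨y, hy⟩)

theorem card_stabilizer (ht : IsPretransitive G Ω) (a : Ω) :
    Nat.card Ω * Nat.card (stabilizer G a) = Nat.card G := by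
  classical
  haveI := Fintype.ofFinite Ω
  haveI := Fintype.ofFinite G
  have h1 := card_orbit_mul_card_stabilizer_eq_card_group G a
  rw [← Nat.card_eq_fintype_card, ← Nat.card_eq_fintype_card, ← Nat.card_eq_fintype_card,
    orbit_eq_univ, Nat.card_congr (Equiv.Set.univ _)] at h1
  exact h1

theorem caseA_twelve (ht : IsMultiplyPretransitive G Ω 4)
    (hfix : ∀ g : G, g ≠ 1 → Nat.card (fixedBy Ω g) ≤ 4) (z : G) (hz1 : z ≠ 1) (hz2 : z * z = 1)
    (hz4 : 4 ≤ Nat.card (fixedBy Ω z)) (hcard : Nat.card Ω = 12) :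
    IsMultiplyPretransitive G Ω 5 := by
  classical
  haveI := ht
  haveI := Fintype.ofFinite Ω
  have hz4' : Nat.card (fixedBy Ω z) = 4 := le_antisymm (hfix z hz1) hz4
  let e4 : Fin 4 ≃ fixedBy Ω z := (Finite.equivFinOfCardEq hz4').symm
  let a : Fin 4 ↪ Ω := e4.toEmbedding.trans (Function.Embedding.subtype _)
  have ha : ∀ i, z • a i = a i := fun i => (e4 i).2
  set E := ptStab G a with hE
  have hzE : z ∈ E := mem_pt.2 ha
  have hrange : (Set.range a).ncard = 4 := by
    rw [Set.ncard_range_of_injective a.injective, Nat.card_eq_fintype_card, Fintype.card_fin]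
  have hXcard : Nat.card (compSub (G := G) a) = 8 := by
    have h1 : Nat.card (compSub (G := G) a) = ((Set.range a)ᶜ).ncard := rfl
    rw [h1, Set.ncard_compl, hrange, hcard]
  have hfree : ∀ (k : E) (x : compSub (G := G) a), k • x = x → k = 1 := by
    intro k x hkx
    by_contra hk1
    have hk1' : (k : G) ≠ 1 := fun h => hk1 (Subtype.ext h)
    have h1 : insert (x : Ω) (Set.range a) ⊆ fixedBy Ω (k : G) := by
      rintro w (rfl | ⟨i, rfl⟩)
      · exact congrArg Subtype.val hkx
      · exact mem_pt.1 k.2 i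
    have h2 := Set.ncard_le_ncard h1 (Set.toFinite _)
    rw [Set.ncard_insert_of_notMem x.2 (Set.toFinite _), hrange] at h2
    have h3 := hfix (k : G) hk1'
    have h4 : (fixedBy Ω (k : G)).ncard = Nat.card (fixedBy Ω (k : G)) := rfl
    omega
  have hdvd : Nat.card E ∣ 8 := by
    rw [← hXcard]
    exact H34.card_dvd_of_free hfree
  have heven : 2 ∣ Nat.card E := by
    have h1 : orderOf (⟨z, hzE⟩ : E) = 2 := by
      rw [← Subgroup.orderOf_coe]
      exact orderOf_eq_prime (by rw [pow_two]; exact hz2) hz1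
    rw [← h1]
    exact orderOf_dvd_natCard _
  -- the order of the group
  have hG : Nat.card G = 11880 * Nat.card E := by
    have h1 := AN.card_eq ht a
    rw [hcard] at h1
    have h2 : (12 : ℕ).descFactorial 4 = 11880 := by decide
    rw [h2] at h1
    exact h1
  have h1t : IsPretransitive G Ω := by
    rw [← is_one_pretransitive_iff]
    exact AC.trans_le ht (by norm_num) (by omega)
  -- the action on eleven points
  have hB := card_stabilizer h1t (a 0)
  rw [hcard, hG] at hB
  haveI := faithful_ofStabilizer (G := G) (a 0)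
  haveI : Fact (Nat.Prime 11) := ⟨by norm_num⟩
  have hΘ : Nat.card (SubMulAction.ofStabilizer G (a 0)) = 11 := by
    rw [SubMulAction.nat_card_ofStabilizer_eq, hcard]
  haveI := Fintype.ofFinite (SubMulAction.ofStabilizer G (a 0))
  have hBt : IsPretransitive (stabilizer G (a 0)) (SubMulAction.ofStabilizer G (a 0)) := by
    rw [← is_one_pretransitive_iff, ← SubMulAction.ofStabilizer.isMultiplyPretransitive (a := a 0)]
    exact AC.trans_le ht (by norm_num) (by omega)
  haveI := PT.pretransitive hBt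
  obtain ⟨P⟩ : Nonempty (Sylow 11 (PT.PG (stabilizer G (a 0)) (SubMulAction.ofStabilizer G (a 0)))) :=
    inferInstance
  obtain ⟨d, n, hd, -, hn, hn1, -⟩ := H12.card_prime_degree (p := 11)
    (by rw [← Nat.card_eq_fintype_card]; exact hΘ)
    (PT.PG (stabilizer G (a 0)) (SubMulAction.ofStabilizer G (a 0))) P
  rw [← Nat.card_congr (PT.eqv (stabilizer G (a 0)) (SubMulAction.ofStabilizer G (a 0))).toEquiv] at hn
  have hE8 : Nat.card E = 2 ∨ Nat.card E = 4 ∨ Nat.card E = 8 := by
    have h1 : Nat.card E ≤ 8 := Nat.le_of_dvd (by norm_num) hdvd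
    generalize Nat.card E = e at *
    interval_cases e <;> simp_all
  have hd10 : d ≤ 10 := Nat.le_of_dvd (by norm_num) hd
  unfold Nat.ModEq at hn1
  rcases hE8 with h8 | h8 | h8
  · exfalso
    rw [h8] at hB
    have h3 : d * n = 180 := by
      have h5 : 12 * (11 * (d * n)) = 12 * (11 * 180) := by rw [← mul_assoc 11, ← hn, hB]
      exact Nat.eq_of_mul_eq_mul_left (by norm_num) (Nat.eq_of_mul_eq_mul_left (by norm_num) h5)
    interval_cases d <;> omega
  · exfalso
    rw [h8] at hB
    have h3 : d * n = 360 := by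
      have h5 : 12 * (11 * (d * n)) = 12 * (11 * 360) := by rw [← mul_assoc 11, ← hn, hB]
      exact Nat.eq_of_mul_eq_mul_left (by norm_num) (Nat.eq_of_mul_eq_mul_left (by norm_num) h5)
    interval_cases d <;> omega
  · apply succ_trans ht a
    intro y y' hy hy'
    -- the orbit is everything
    let f : E → compSub (G := G) a := fun k => k • (⟨y, hy⟩ : compSub (G := G) a)
    have hinj : Function.Injective f := by
      intro k l hkl
      have h1 : (l⁻¹ * k) • (⟨y, hy⟩ : compSub (G := G) a) = ⟨y, hy⟩ := by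
        rw [mul_smul]
        change l⁻¹ • f k = _
        rw [hkl]
        exact inv_smul_smul _ _
      have h2 := hfree _ _ h1
      rw [inv_mul_eq_one] at h2
      exact h2.symm
    have hbij : Function.Bijective f := by
      rw [Nat.bijective_iff_injective_and_card]
      exact ⟨hinj, by rw [h8, hXcard]⟩
    obtain ⟨k, hk⟩ := hbij.2 ⟨y', hy'⟩
    exact ⟨k, k.2, congrArg Subtype.val hk⟩

end

end Cfsg.Agent.H74.LW
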