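import Cfsg.Agent.H74.LW6

/-!
# Livingstone–Wagner: sets with all even permutations induced
-/

set_option autoImplicit false
set_option linter.unusedSectionVars false
set_option linter.style.haveILetI false

universe u

namespace Cfsg.Agent.H74.LW

open MulAction
open AN (ptStab)
open AC (setStab mem_setStab mem_of_perm)
open scoped Pointwise

theorem card_fixed_ofStabilizer {G Ω : Type*} [Group G] [MulAction G Ω] [Finite Ω] {a : Ω}
    (g : stabilizer G a) :
    Nat.card (fixedBy (SubMulAction.ofStabilizer G a) g) + 1 = Nat.card (fixedBy Ω (g : G)) := by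
  have h1 : fixedBy Ω (g : G) = insert a (Subtype.val ''
      (fixedBy (SubMulAction.ofStabilizer G a) g)) := by
    ext y
    constructor
    · intro hy
      by_cases hya : y = a
      · exact Or.inl hya
      · right
        exact ⟨⟨y, hya⟩, Subtype.ext hy, rfl⟩
    · rintro (rfl | ⟨x, hx, rfl⟩)
      · exact g.2
      · exact congrArg Subtype.val hx
  have h2 : (fixedBy Ω (g : G)).ncard = (fixedBy (SubMulAction.ofStabilizer G a) g).ncard + 1 := by
    rw [h1, Set.ncard_insert_of_notMem _ (Set.toFinite _),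
      Set.ncard_image_of_injective _ Subtype.val_injective]
    rintro ⟨x, -, hx⟩
    exact x.2 hx
  exact h2.symm

theorem deg_of_hyp : ∀ (t : ℕ), 4 ≤ t → ∀ (G Ω : Type u) [Group G] [Finite G] [MulAction G Ω]
    [FaithfulSMul G Ω] [Finite Ω], IsMultiplyPretransitive G Ω t → t < Nat.card Ω →
    (∀ g : G, g ≠ 1 → Nat.card (fixedBy Ω g) ≤ t) →
    ((∃ z : G, z ≠ 1 ∧ z * z = 1 ∧ t ≤ Nat.card (fixedBy Ω z)) ∨ Even (Nat.card Ω - t)) →
    Nat.card Ω = t + 2 ∨ IsMultiplyPretransitive G Ω (t + 1) := by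
  intro t ht4
  induction t, ht4 using Nat.le_induction with
  | base =>
    intro G Ω _ _ _ _ _ ht hn hfix hor
    by_cases hz : ∃ z : G, z ≠ 1 ∧ z * z = 1 ∧ 4 ≤ Nat.card (fixedBy Ω z)
    · obtain ⟨z, hz1, hz2, hz4⟩ := hz
      rcases caseA_degree ht hfix z hz1 hz2 hz4 with h | h
      · exact Or.inl h
      · exact Or.inr (caseA_twelve ht hfix z hz1 hz2 hz4 h)
    · rcases hor with h | h
      · exact absurd h hz
      · left
        push Not at hz
        refine six ht ?_ hn hfix hz
        obtain ⟨m, hm⟩ := h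
        exact ⟨m + 2, by omega⟩
  | succ t ht4 ih =>
    intro G Ω _ _ _ _ _ ht hn hfix hor
    obtain ⟨a, ha⟩ : ∃ a : Ω, (∃ z : G, z ≠ 1 ∧ z * z = 1 ∧ z • a = a ∧
        t + 1 ≤ Nat.card (fixedBy Ω z)) ∨ Even (Nat.card Ω - (t + 1)) := by
      rcases hor with ⟨z, hz1, hz2, hz⟩ | h
      · obtain ⟨⟨a, ha⟩⟩ : Nonempty (fixedBy Ω z) := by
          have : 0 < Nat.card (fixedBy Ω z) := by omega
          exact (Nat.card_pos_iff.1 this).1
        exact ⟨a, Or.inl ⟨z, hz1, hz2, ha, hz⟩⟩
      · obtain ⟨a⟩ : Nonempty Ω := (Nat.card_pos_iff.1 (by omega)).1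
        exact ⟨a, Or.inr h⟩
    haveI := faithful_ofStabilizer (G := G) a
    classical
    haveI := Fintype.ofFinite Ω
    have h1t : IsPretransitive G Ω := by
      rw [← is_one_pretransitive_iff]
      exact AC.trans_le ht (by omega) (by omega)
    have hcard : Nat.card (SubMulAction.ofStabilizer G a) = Nat.card Ω - 1 :=
      SubMulAction.nat_card_ofStabilizer_eq G a
    have hst : IsMultiplyPretransitive (stabilizer G a) (SubMulAction.ofStabilizer G a) t := by
      rw [← SubMulAction.ofStabilizer.isMultiplyPretransitive (a := a)]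
      exact ht
    rcases ih (stabilizer G a) (SubMulAction.ofStabilizer G a) hst (by rw [hcard]; omega)
      (by
        intro g hg
        have h1 := card_fixed_ofStabilizer g
        have h2 := hfix (g : G) (fun h => hg (Subtype.ext h))
        omega)
      (by
        rcases ha with ⟨z, hz1, hz2, hza, hz⟩ | h
        · left
          refine ⟨⟨z, hza⟩, fun h => hz1 (congrArg Subtype.val h), Subtype.ext hz2, ?_⟩
          have h1 := card_fixed_ofStabilizer (⟨z, hza⟩ : stabilizer G a)
          have h2 : Nat.card (fixedBy Ω ((⟨z, hza⟩ : stabilizer G a) : G)) =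
            Nat.card (fixedBy Ω z) := rfl
          omega
        · right
          rw [hcard]
          have h1 : Nat.card Ω - 1 - t = Nat.card Ω - (t + 1) := by omega
          rw [h1]; exact h) with h | h
    · left; omega
    · right
      rw [← Nat.succ_eq_add_one (t + 1), SubMulAction.ofStabilizer.isMultiplyPretransitive (a := a)]
      exact h

theorem altInd_of_succ {G Ω : Type*} [Group G] [MulAction G Ω] {t : ℕ} (δ : Fin (t + 1) ↪ Ω)
    (h : IsMultiplyPretransitive G Ω (t + 1)) : AltInd G Ω t := by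
  haveI := h
  refine ⟨δ, fun σ _ => ?_⟩
  obtain ⟨g, hg⟩ := exists_smul_eq G δ (σ.toEmbedding.trans δ)
  exact ⟨g, fun i => DFunLike.congr_fun hg i⟩

theorem altInd_of_alternating {Ω : Type*} [Fintype Ω] [DecidableEq Ω]
    (G : Subgroup (Equiv.Perm Ω)) {t : ℕ} (δ : Fin (t + 1) ↪ Ω)
    (h : alternatingGroup Ω ≤ G) : AltInd G Ω t := by
  refine ⟨δ, fun σ hσ => ?_⟩
  refine ⟨⟨σ.viaFintypeEmbedding δ, h ?_⟩, fun i => ?_⟩
  · rw [Equiv.Perm.mem_alternatingGroup, Equiv.Perm.viaFintypeEmbedding_sign]
    exact Equiv.Perm.mem_alternatingGroup.1 hσ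
  · exact Equiv.Perm.viaFintypeEmbedding_apply_image σ δ i

theorem altInd : ∀ (n : ℕ) (G Ω : Type u) [Group G] [Finite G] [MulAction G Ω] [Finite Ω] (t : ℕ),
    Nat.card Ω = n → 4 ≤ t → IsMultiplyPretransitive G Ω t → t < n → AltInd G Ω t := by
  intro n
  induction n using Nat.strong_induction_on with
  | _ n IH =>
    intro G Ω _ _ _ _ t hn ht4 ht htn
    classical
    haveI := Fintype.ofFinite Ω
    -- pass to the permutation group
    suffices h : AltInd (PT.PG G Ω) Ω t by
      obtain ⟨δ, hδ⟩ := h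
      refine ⟨δ, fun σ hσ => ?_⟩
      obtain ⟨⟨_, g, rfl⟩, hg⟩ := hδ σ hσ
      exact ⟨g, hg⟩
    have htP : IsMultiplyPretransitive (PT.PG G Ω) Ω t := by
      haveI := ht
      refine ⟨fun x y => ?_⟩
      obtain ⟨g, hg⟩ := exists_smul_eq G x y
      exact ⟨⟨_, g, rfl⟩, hg⟩
    generalize PT.PG G Ω = H at *
    obtain ⟨δ⟩ : Nonempty (Fin (t + 1) ↪ Ω) := by
      rw [Function.Embedding.nonempty_iff_card_le, Fintype.card_fin, ← Nat.card_eq_fintype_card]
      omega
    by_contra hno
    have hfix := fix_le (by omega) htP hno (by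
      intro G' Ω' _ _ _ _ hlt htr htn'
      exact IH (Nat.card Ω') (by omega) G' Ω' t rfl ht4 htr htn')
    by_cases hor : (∃ z : H, z ≠ 1 ∧ z * z = 1 ∧ t ≤ Nat.card (fixedBy Ω z)) ∨
        Even (Nat.card Ω - t)
    · rcases deg_of_hyp t ht4 H Ω htP (by omega) hfix hor with h | h
      · apply hno
        apply altInd_of_alternating H δ
        apply IsMultiplyPretransitive.alternatingGroup_le
        rw [h, Nat.add_sub_cancel]
        exact htP
      · exact hno (altInd_of_succ δ h)
    · push Not at hor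
      obtain ⟨hor1, hor2⟩ := hor
      let δ0 : Fin t ↪ Ω := Fin.castSuccEmb.trans δ
      obtain ⟨δ', hδ'⟩ := caseB ht4 htP δ0 (by
        rw [Set.ncard_compl, Set.ncard_range_of_injective δ0.injective,
          Nat.card_eq_fintype_card (α := Fin t), Fintype.card_fin]
        rwa [Nat.not_even_iff_odd] at hor2) hor1
      apply hno
      refine ⟨δ', fun σ _ => ?_⟩
      have : σ ∈ indSub H δ' := by rw [hδ']; exact Subgroup.mem_top _
      exact this

end Cfsg.Agent.H74.LW
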