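import Cfsg.Agent.H74.LW7

/-!
# Livingstone–Wagner: homogeneity and transitivity
-/

set_option autoImplicit false
set_option linter.unusedSectionVars false
set_option linter.style.haveILetI false

universe u

namespace Cfsg.Agent.H74.LW

open MulAction
open AN (ptStab)
open AC (setStab mem_setStab mem_of_perm)
open scoped Pointwise

/-- homogeneity in terms of tuples -/
def Homog (G Ω : Type*) [Group G] [MulAction G Ω] (m : ℕ) : Prop :=
  ∀ w w' : Fin m ↪ Ω, ∃ (g : G) (σ : Equiv.Perm (Fin m)), ∀ i, g • w i = w' (σ i)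

theorem homog_of_powersetCard {Ω : Type*} [DecidableEq Ω] (G : Subgroup (Equiv.Perm Ω)) {m : ℕ}
    (h : IsPretransitive G (Set.powersetCard Ω m)) : Homog G Ω m := by
  classical
  intro w w'
  let s : Set.powersetCard Ω m := ⟨Finset.univ.map w, by
    change (Finset.univ.map w).card = m
    rw [Finset.card_map, Finset.card_univ, Fintype.card_fin]⟩
  let s' : Set.powersetCard Ω m := ⟨Finset.univ.map w', by
    change (Finset.univ.map w').card = m
    rw [Finset.card_map, Finset.card_univ, Fintype.card_fin]⟩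
  obtain ⟨g, hg⟩ := exists_smul_eq G s s'
  have hg' : (g • (Finset.univ.map w : Finset Ω)) = Finset.univ.map w' := congrArg Subtype.val hg
  have h1 : ∀ i, ∃ j, g • w i = w' j := by
    intro i
    have h2 : g • w i ∈ Finset.univ.map w' := by
      rw [← hg']
      exact Finset.smul_mem_smul_finset (Finset.mem_map.2 ⟨i, Finset.mem_univ _, rfl⟩)
    obtain ⟨j, -, hj⟩ := Finset.mem_map.1 h2
    exact ⟨j, hj.symm⟩
  choose f hf using h1
  have hinj : Function.Injective f := by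
    intro i j hij
    apply w.injective
    apply MulAction.injective g
    change g • w i = g • w j
    rw [hf, hf, hij]
  exact ⟨g, Equiv.ofBijective f (Finite.injective_iff_bijective.1 hinj), hf⟩

section
variable {G Ω : Type u} [Group G] [Finite G] [MulAction G Ω] [Finite Ω]

/-- all even permutations of all `m`-sets are induced -/
theorem all_even {t : ℕ} (ht4 : 4 ≤ t) (ht : IsMultiplyPretransitive G Ω t)
    (htn : t < Nat.card Ω) (hh : Homog G Ω (t + 1)) (w : Fin (t + 1) ↪ Ω)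
    {σ : Equiv.Perm (Fin (t + 1))} (hσ : σ ∈ alternatingGroup (Fin (t + 1))) :
    ∃ g : G, ∀ i, g • w i = w (σ i) := by
  obtain ⟨δ, hδ⟩ := altInd (Nat.card Ω) G Ω t rfl ht4 ht htn
  obtain ⟨g0, τ, hg0⟩ := hh w δ
  obtain ⟨g, hg⟩ := hδ (τ * σ * τ⁻¹) (by
    rw [Equiv.Perm.mem_alternatingGroup] at hσ ⊢
    rw [map_mul, map_mul, hσ, mul_one, map_inv, mul_inv_cancel])
  refine ⟨g0⁻¹ * g * g0, fun i => ?_⟩
  rw [mul_smul, mul_smul, hg0, hg, inv_smul_eq_iff, hg0]
  simp

/-- no odd permutation is induced, unless the group is more transitive -/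
theorem no_odd {m : ℕ} (hall : ∀ (w : Fin m ↪ Ω) (σ : Equiv.Perm (Fin m)),
      σ ∈ alternatingGroup (Fin m) → ∃ g : G, ∀ i, g • w i = w (σ i)) (hh : Homog G Ω m)
    (hnt : ¬ IsMultiplyPretransitive G Ω m) (w : Fin m ↪ Ω) {σ : Equiv.Perm (Fin m)}
    {g : G} (hg : ∀ i, g • w i = w (σ i)) : σ ∈ alternatingGroup (Fin m) := by
  by_contra hσ
  have hsσ : Equiv.Perm.sign σ = -1 := by
    rw [Equiv.Perm.mem_alternatingGroup] at hσ
    exact (Int.units_eq_one_or _).resolve_left hσ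
  apply hnt
  have key : ∀ τ : Equiv.Perm (Fin m), ∃ k : G, ∀ i, k • w i = w (τ i) := by
    intro τ
    by_cases hτ : τ ∈ alternatingGroup (Fin m)
    · exact hall w τ hτ
    · have hsτ : Equiv.Perm.sign τ = -1 := by
        rw [Equiv.Perm.mem_alternatingGroup] at hτ
        exact (Int.units_eq_one_or _).resolve_left hτ
      obtain ⟨k, hk⟩ := hall w (τ * σ⁻¹) (by
        rw [Equiv.Perm.mem_alternatingGroup, map_mul, map_inv, hsσ, hsτ]
        rfl)
      refine ⟨k * g, fun i => ?_⟩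
      rw [mul_smul, hg, hk]
      simp
  refine ⟨fun x y => ?_⟩
  obtain ⟨g1, σ1, h1⟩ := hh x w
  obtain ⟨g2, σ2, h2⟩ := hh y w
  obtain ⟨k, hk⟩ := key (σ2 * σ1⁻¹)
  refine ⟨g2⁻¹ * k * g1, ?_⟩
  ext i
  change (g2⁻¹ * k * g1) • x i = y i
  rw [mul_smul, mul_smul, h1, hk, inv_smul_eq_iff, h2]
  simp

end

section
variable {G Ω : Type*} [Group G] [MulAction G Ω]

theorem notMem_snoc {s : ℕ} (u : Fin s ↪ Ω) {y z : Ω} (hy : y ∉ Set.range u)
    (hz : z ∉ Set.range u) (hyz : y ≠ z) : z ∉ Set.range (Fin.Embedding.snoc u hy) := by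
  rintro ⟨i, hi⟩
  induction i using Fin.lastCases with
  | last =>
    apply hyz
    simpa [Fin.Embedding.snoc] using hi
  | cast i =>
    apply hz
    exact ⟨i, by simpa [Fin.Embedding.snoc] using hi⟩

/-- extension of a tuple by two points -/
noncomputable def ext2 {s : ℕ} (u : Fin s ↪ Ω) {y z : Ω} (hy : y ∉ Set.range u)
    (hz : z ∉ Set.range u) (hyz : y ≠ z) : Fin (s + 2) ↪ Ω :=
  Fin.Embedding.snoc (Fin.Embedding.snoc u hy) (notMem_snoc u hy hz hyz)

theorem ext2_cast {s : ℕ} (u : Fin s ↪ Ω) {y z : Ω} (hy : y ∉ Set.range u)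
    (hz : z ∉ Set.range u) (hyz : y ≠ z) (i : Fin s) :
    ext2 u hy hz hyz i.castSucc.castSucc = u i := by
  simp [ext2, Fin.Embedding.snoc]

theorem ext2_one {s : ℕ} (u : Fin s ↪ Ω) {y z : Ω} (hy : y ∉ Set.range u)
    (hz : z ∉ Set.range u) (hyz : y ≠ z) : ext2 u hy hz hyz (Fin.last s).castSucc = y := by
  simp [ext2, Fin.Embedding.snoc]

theorem ext2_two {s : ℕ} (u : Fin s ↪ Ω) {y z : Ω} (hy : y ∉ Set.range u)
    (hz : z ∉ Set.range u) (hyz : y ≠ z) : ext2 u hy hz hyz (Fin.last (s + 1)) = z := by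
  simp [ext2, Fin.Embedding.snoc]

/-- case analysis on the indices of an extended tuple -/
theorem forall_ext2 {s : ℕ} {P : Fin (s + 2) → Prop} (h1 : ∀ i : Fin s, P i.castSucc.castSucc)
    (h2 : P (Fin.last s).castSucc) (h3 : P (Fin.last (s + 1))) (m : Fin (s + 2)) : P m := by
  induction m using Fin.lastCases with
  | last => exact h3
  | cast i =>
    induction i using Fin.lastCases with
    | last => exact h2
    | cast i => exact h1 i

end

section
variable {G Ω : Type*} [Group G] [Finite G] [MulAction G Ω] [FaithfulSMul G Ω] [Fintype Ω]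
  [DecidableEq Ω]

theorem exists_invol {s : ℕ} (ht : IsMultiplyPretransitive G Ω (s + 1))
    (hodd : ∀ (w : Fin (s + 2) ↪ Ω) (σ : Equiv.Perm (Fin (s + 2))) (g : G),
      (∀ i, g • w i = w (σ i)) → σ ∈ alternatingGroup (Fin (s + 2))) (u : Fin s ↪ Ω)
    (N : Subgroup (ptStab G u))
    (hNinv : ∀ (j : G) (hj : ∀ k ∈ ptStab G u, j * k * j⁻¹ ∈ ptStab G u),
      (∀ y, y ∉ Set.range u → j • y ∉ Set.range u) →
      ∀ n, n ∈ N → (⟨j * (n : G) * j⁻¹, hj n n.2⟩ : ptStab G u) ∈ N)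
    (hNfree : ∀ n ∈ N, ∀ x, x ∉ Set.range u → (n : G) • x = x → n = 1)
    (hO : Odd (Nat.card (ptStab G u))) {w0 : Ω} (hw0 : w0 ∉ Set.range u) {a b : Fin s}
    (hab : a ≠ b) :
    ∃ j : G, (∀ i, j • u i = u (Equiv.swap a b i)) ∧ j • w0 = w0 ∧
      ∀ n ∈ N, j * (n : G) * j⁻¹ = (n : G)⁻¹ := by
  classical
  haveI : Fact (Nat.Prime 2) := ⟨Nat.prime_two⟩
  let w1 : Fin (s + 1) ↪ Ω := Fin.Embedding.snoc u hw0
  have hw1c : ∀ i : Fin s, w1 i.castSucc = u i := fun i => by simp [w1, Fin.Embedding.snoc]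
  have hw1l : w1 (Fin.last s) = w0 := by simp [w1, Fin.Embedding.snoc]
  set τ : Equiv.Perm (Fin (s + 1)) := Equiv.swap a.castSucc b.castSucc with hτ
  have hττ : τ * τ = 1 := Equiv.swap_mul_self _ _
  have hD : IsPGroup 2 (Subgroup.zpowers τ) := by
    rintro ⟨_, m, rfl⟩
    refine ⟨1, Subtype.ext ?_⟩
    change (τ ^ m) ^ (2 ^ 1) = 1
    rw [pow_one, ← zpow_natCast, ← zpow_mul, mul_comm, zpow_mul]
    norm_cast
    rw [pow_two, hττ, one_zpow]
  obtain ⟨S, hS, -, hS2⟩ := exists_lift ht w1 (p := 2) (Subgroup.zpowers τ) hD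
  obtain ⟨j, hjS, hj⟩ := hS2 τ (Subgroup.mem_zpowers τ)
  have hju : ∀ i, j • u i = u (Equiv.swap a b i) := by
    intro i
    rw [← hw1c, hj, ← hw1c]
    congr 1
    rw [hτ]
    exact (Fin.castSucc_injective s).swap_apply a b i
  have hjw : j • w0 = w0 := by
    rw [← hw1l, hj, hτ, Equiv.swap_apply_of_ne_of_ne (Fin.castSucc_lt_last a).ne'
      (Fin.castSucc_lt_last b).ne']
  have hjj : j * j = 1 := by
    have h1 : j * j ∈ ptStab G u := by
      rw [mem_pt]
      intro i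
      rw [mul_smul, hju, hju, Equiv.swap_apply_self]
    obtain ⟨k, hk⟩ := (IsPGroup.iff_orderOf.1 hS) ⟨j * j, S.mul_mem hjS hjS⟩
    have h2 : orderOf (j * j) = 2 ^ k := by rw [← hk, ← Subgroup.orderOf_coe]
    have h3 : orderOf (j * j) ∣ Nat.card (ptStab G u) :=
      Subgroup.orderOf_dvd_natCard _ h1
    have h4 : Odd (orderOf (j * j)) := hO.of_dvd_nat h3
    rw [h2] at h4
    rcases Nat.eq_zero_or_pos k with rfl | hk0
    · rw [pow_zero, orderOf_eq_one_iff] at h2
      exact h2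
    · exfalso
      rw [← Nat.not_even_iff_odd] at h4
      exact h4 ((Nat.even_pow.2 ⟨even_two, hk0.ne'⟩))
  have hji : j⁻¹ = j := inv_eq_of_mul_eq_one_left hjj
  have hjO : ∀ k ∈ ptStab G u, j * k * j⁻¹ ∈ ptStab G u := by
    intro k hk
    rw [mem_pt] at hk ⊢
    intro i
    rw [hji, mul_smul, mul_smul, hju, hk, hju, Equiv.swap_apply_self]
  have hjX : ∀ y, y ∉ Set.range u → j • y ∉ Set.range u := by
    rintro y hy ⟨i, hi⟩
    apply hy
    refine ⟨Equiv.swap a b i, ?_⟩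
    rw [← hju, hi, ← mul_smul, hjj, one_smul]
  have hfix : ∀ y z, y ∉ Set.range u → z ∉ Set.range u → j • y = y → j • z = z → y = z := by
    intro y z hy hz hjy hjz
    by_contra hyz
    have h1 := hodd (ext2 u hy hz hyz) (Equiv.swap a.castSucc.castSucc b.castSucc.castSucc) j (by
      apply forall_ext2
      · intro i
        rw [ext2_cast, hju, ← ext2_cast u hy hz hyz]
        congr 1
        exact ((Fin.castSucc_injective _).comp (Fin.castSucc_injective s)).swap_apply a b i |>.symm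
      · rw [ext2_one, hjy, Equiv.swap_apply_of_ne_of_ne, ext2_one]
        · intro h; exact (Fin.castSucc_lt_last a).ne (Fin.castSucc_injective _ h).symm
        · intro h; exact (Fin.castSucc_lt_last b).ne (Fin.castSucc_injective _ h).symm
      · rw [ext2_two, hjz, Equiv.swap_apply_of_ne_of_ne (Fin.castSucc_lt_last _).ne'
          (Fin.castSucc_lt_last _).ne', ext2_two])
    rw [Equiv.Perm.mem_alternatingGroup, Equiv.Perm.sign_swap] at h1
    · exact absurd h1 (by decide)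
    · intro h
      exact hab (Fin.castSucc_injective _ (Fin.castSucc_injective _ h))
  refine ⟨j, hju, hjw, ?_⟩
  let conjO : ptStab G u →* ptStab G u := MonoidHom.mk' (fun k => ⟨j * k * j⁻¹, hjO k k.2⟩) (by
    intro k l
    apply Subtype.ext
    change j * (k * l : G) * j⁻¹ = (j * k * j⁻¹) * (j * l * j⁻¹)
    group)
  let φ : N →* N := (conjO.comp N.subtype).codRestrict N (fun n => hNinv j hjO hjX n n.2)
  have hφ : ∀ n : N, (((φ n : N) : ptStab G u) : G) = j * ((n : ptStab G u) : G) * j⁻¹ :=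
    fun n => rfl
  have h1 : MonoidHom.FixedPointFree φ := by
    intro n hn
    have h2 : j * ((n : ptStab G u) : G) * j⁻¹ = ((n : ptStab G u) : G) := by
      rw [← hφ, hn]
    apply Subtype.ext
    apply hNfree _ n.2 w0 hw0
    apply hfix
    · rintro ⟨i, hi⟩
      apply hw0
      refine ⟨i, ?_⟩
      apply MulAction.injective ((n : ptStab G u) : G)
      change ((n : ptStab G u) : G) • u i = _
      rw [mem_pt.1 (n : ptStab G u).2 i]
      exact hi
    · exact hw0
    · rw [mul_inv_eq_iff_eq_mul] at h2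
      rw [← mul_smul, h2, mul_smul, hjw]
    · exact hjw
  have h2 : Function.Involutive φ := by
    intro n
    apply Subtype.ext
    apply Subtype.ext
    rw [hφ, hφ, hji]
    calc j * (j * ((n : ptStab G u) : G) * j) * j = (j * j) * ((n : ptStab G u) : G) * (j * j) := by
          group
      _ = ((n : ptStab G u) : G) := by rw [hjj, one_mul, mul_one]
  intro n hn
  have h3 := congrFun (h1.coe_eq_inv_of_involutive h2) ⟨n, hn⟩
  have h4 := congrArg (fun x : N => ((x : ptStab G u) : G)) h3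
  exact h4

theorem three_cycle {s : ℕ} (hs : 3 ≤ s) (ht : IsMultiplyPretransitive G Ω (s + 1))
    (hodd : ∀ (w : Fin (s + 2) ↪ Ω) (σ : Equiv.Perm (Fin (s + 2))) (g : G),
      (∀ i, g • w i = w (σ i)) → σ ∈ alternatingGroup (Fin (s + 2))) (u : Fin s ↪ Ω)
    (N : Subgroup (ptStab G u))
    (hNinv : ∀ (j : G) (hj : ∀ k ∈ ptStab G u, j * k * j⁻¹ ∈ ptStab G u),
      (∀ y, y ∉ Set.range u → j • y ∉ Set.range u) →
      ∀ n, n ∈ N → (⟨j * (n : G) * j⁻¹, hj n n.2⟩ : ptStab G u) ∈ N)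
    (hNtr : ∀ x y, x ∉ Set.range u → y ∉ Set.range u → ∃ n ∈ N, (n : G) • x = y)
    (hNfree : ∀ n ∈ N, ∀ x, x ∉ Set.range u → (n : G) • x = x → n = 1)
    (hO : Odd (Nat.card (ptStab G u))) {w0 : Ω} (hw0 : w0 ∉ Set.range u) :
    ∃ g : G, (toPerm g : Equiv.Perm Ω).IsThreeCycle := by
  let i0 : Fin s := ⟨0, by omega⟩
  let i1 : Fin s := ⟨1, by omega⟩
  let i2 : Fin s := ⟨2, by omega⟩
  have h01 : i0 ≠ i1 := by simp [i0, i1]
  have h02 : i0 ≠ i2 := by simp [i0, i2]
  have h12 : i1 ≠ i2 := by simp [i1, i2]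
  obtain ⟨j1, hj1, hj1w, hj1n⟩ := exists_invol ht hodd u N hNinv hNfree hO hw0 h01
  obtain ⟨j2, hj2, hj2w, hj2n⟩ := exists_invol ht hodd u N hNinv hNfree hO hw0 h12
  refine ⟨j1 * j2, ?_⟩
  have htp : (toPerm (j1 * j2) : Equiv.Perm Ω) = Equiv.swap (u i1) (u i0) * Equiv.swap (u i1) (u i2) := by
    apply Equiv.ext
    intro y
    change (j1 * j2) • y = _
    rw [Equiv.Perm.mul_apply]
    by_cases hy : y ∈ Set.range u
    · obtain ⟨m, rfl⟩ := hy
      rw [mul_smul, hj2, hj1, u.injective.swap_apply, u.injective.swap_apply,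
        Equiv.swap_comm i0 i1]
    · rw [Equiv.swap_apply_of_ne_of_ne (x := y) (fun h => hy ⟨_, h.symm⟩)
        (fun h => hy ⟨_, h.symm⟩), Equiv.swap_apply_of_ne_of_ne (x := y)
        (fun h => hy ⟨_, h.symm⟩) (fun h => hy ⟨_, h.symm⟩)]
      obtain ⟨n, hn, rfl⟩ := hNtr w0 y hw0 hy
      have e1 := hj2n n hn
      have e2 := hj1n n⁻¹ (N.inv_mem hn)
      have e3 : (j1 * j2) * (n : G) = (n : G) * (j1 * j2) := by
        have e4 : j1 * j2 * (n : G) * (j1 * j2)⁻¹ = n := by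
          calc j1 * j2 * (n : G) * (j1 * j2)⁻¹ = j1 * (j2 * (n : G) * j2⁻¹) * j1⁻¹ := by group
            _ = j1 * ((n⁻¹ : ptStab G u) : G) * j1⁻¹ := by rw [e1]; rfl
            _ = n := by rw [e2]; exact inv_inv _
        exact mul_inv_eq_iff_eq_mul.1 e4
      rw [← mul_smul, e3, mul_smul, mul_smul, hj2w, hj1w]
  rw [htp]
  exact Equiv.Perm.isThreeCycle_swap_mul_swap_same (u.injective.ne h01.symm)
    (u.injective.ne h12) (u.injective.ne h02)

end

end Cfsg.Agent.H74.LW
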