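import Cfsg.Agent.H74.LW8
import Cfsg.Agent.Frob.Kernel

/-!
# Livingstone–Wagner: homogeneity and transitivity, II
-/

set_option autoImplicit false
set_option linter.unusedSectionVars false
set_option linter.style.haveILetI false

universe u

namespace Cfsg.Agent.H74.LW

open MulAction
open AN (ptStab)
open AC (setStab mem_setStab mem_of_perm)
open scoped Pointwise

section
variable {G Ω : Type*} [Group G] [Finite G] [MulAction G Ω] [FaithfulSMul G Ω] [Fintype Ω]
  [DecidableEq Ω]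

theorem hom2 {s : ℕ} (hall : ∀ (w : Fin (s + 2) ↪ Ω) (σ : Equiv.Perm (Fin (s + 2))),
      σ ∈ alternatingGroup (Fin (s + 2)) → ∃ g : G, ∀ i, g • w i = w (σ i))
    (hh : Homog G Ω (s + 2)) (u : Fin s ↪ Ω) {y z y' z' : Ω} (hy : y ∉ Set.range u)
    (hz : z ∉ Set.range u) (hyz : y ≠ z) (hy' : y' ∉ Set.range u) (hz' : z' ∉ Set.range u)
    (hyz' : y' ≠ z') :
    ∃ g ∈ ptStab G u, (g • y = y' ∧ g • z = z') ∨ (g • y = z' ∧ g • z = y') := by
  obtain ⟨g, σ, hg⟩ := hh (ext2 u hy hz hyz) (ext2 u hy' hz' hyz')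
  by_cases hσ : σ ∈ alternatingGroup (Fin (s + 2))
  · obtain ⟨h, hh⟩ := hall (ext2 u hy' hz' hyz') σ⁻¹ (inv_mem hσ)
    have key : ∀ i, (h * g) • ext2 u hy hz hyz i = ext2 u hy' hz' hyz' i := by
      intro i
      rw [mul_smul, hg, hh]
      simp
    refine ⟨h * g, ?_, Or.inl ⟨?_, ?_⟩⟩
    · rw [mem_pt]
      intro i
      have := key i.castSucc.castSucc
      rwa [ext2_cast, ext2_cast] at this
    · have := key (Fin.last s).castSucc
      rwa [ext2_one, ext2_one] at this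
    · have := key (Fin.last (s + 1))
      rwa [ext2_two, ext2_two] at this
  · have hsσ : Equiv.Perm.sign σ = -1 := by
      rw [Equiv.Perm.mem_alternatingGroup] at hσ
      exact (Int.units_eq_one_or _).resolve_left hσ
    set τ : Equiv.Perm (Fin (s + 2)) := Equiv.swap (Fin.last s).castSucc (Fin.last (s + 1)) with hτ
    have hne : (Fin.last s).castSucc ≠ Fin.last (s + 1) := (Fin.castSucc_lt_last _).ne
    have hsτ : Equiv.Perm.sign τ = -1 := Equiv.Perm.sign_swap hne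
    have hrel : ∀ i, ext2 u hy' hz' hyz' i = ext2 u hz' hy' hyz'.symm (τ i) := by
      apply forall_ext2
      · intro i
        rw [ext2_cast, hτ, Equiv.swap_apply_of_ne_of_ne, ext2_cast]
        · intro h; exact (Fin.castSucc_lt_last i).ne (Fin.castSucc_injective _ h)
        · exact (Fin.castSucc_lt_last _).ne
      · rw [ext2_one, hτ, Equiv.swap_apply_left, ext2_two]
      · rw [ext2_two, hτ, Equiv.swap_apply_right, ext2_one]
    obtain ⟨h, hh⟩ := hall (ext2 u hz' hy' hyz'.symm) (τ * σ)⁻¹ (inv_mem (by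
      rw [Equiv.Perm.mem_alternatingGroup, map_mul, hsσ, hsτ]; rfl))
    have key : ∀ i, (h * g) • ext2 u hy hz hyz i = ext2 u hz' hy' hyz'.symm i := by
      intro i
      rw [mul_smul, hg, hrel, hh]
      simp
    refine ⟨h * g, ?_, Or.inr ⟨?_, ?_⟩⟩
    · rw [mem_pt]
      intro i
      have := key i.castSucc.castSucc
      rwa [ext2_cast, ext2_cast] at this
    · have := key (Fin.last s).castSucc
      rwa [ext2_one, ext2_one] at this
    · have := key (Fin.last (s + 1))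
      rwa [ext2_two, ext2_two] at this

theorem not_swap {s : ℕ} (hodd : ∀ (w : Fin (s + 2) ↪ Ω) (σ : Equiv.Perm (Fin (s + 2))) (g : G),
      (∀ i, g • w i = w (σ i)) → σ ∈ alternatingGroup (Fin (s + 2))) (u : Fin s ↪ Ω) {g : G}
    (hg : g ∈ ptStab G u) {y z : Ω} (hy : y ∉ Set.range u)
    (hz : z ∉ Set.range u) (hyz : y ≠ z) (h1 : g • y = z) (h2 : g • z = y) : False := by
  have hne : (Fin.last s).castSucc ≠ Fin.last (s + 1) := (Fin.castSucc_lt_last _).ne
  have h3 := hodd (ext2 u hy hz hyz) (Equiv.swap (Fin.last s).castSucc (Fin.last (s + 1))) g (by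
    apply forall_ext2
    · intro i
      rw [ext2_cast, mem_pt.1 hg, Equiv.swap_apply_of_ne_of_ne, ext2_cast]
      · intro h; exact (Fin.castSucc_lt_last i).ne (Fin.castSucc_injective _ h)
      · exact (Fin.castSucc_lt_last _).ne
    · rw [ext2_one, h1, Equiv.swap_apply_left, ext2_two]
    · rw [ext2_two, h2, Equiv.swap_apply_right, ext2_one])
  rw [Equiv.Perm.mem_alternatingGroup, Equiv.Perm.sign_swap hne] at h3
  exact absurd h3 (by decide)

theorem odd_ptStab {s : ℕ} (hodd : ∀ (w : Fin (s + 2) ↪ Ω) (σ : Equiv.Perm (Fin (s + 2))) (g : G),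
      (∀ i, g • w i = w (σ i)) → σ ∈ alternatingGroup (Fin (s + 2))) (u : Fin s ↪ Ω) :
    Odd (Nat.card (ptStab G u)) := by
  rw [← Nat.not_even_iff_odd]
  intro heven
  haveI : Fact (Nat.Prime 2) := ⟨Nat.prime_two⟩
  obtain ⟨t, ht⟩ := exists_prime_orderOf_dvd_card' (G := ptStab G u) 2 heven.two_dvd
  have ht1 : t ≠ 1 := by
    rintro rfl
    rw [orderOf_one] at ht
    omega
  have htt : t * t = 1 := by
    have := pow_orderOf_eq_one t
    rwa [ht, pow_two] at this
  obtain ⟨y, hy⟩ : ∃ y : Ω, (t : G) • y ≠ y := by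
    by_contra hcon
    push Not at hcon
    apply ht1
    apply Subtype.ext
    apply FaithfulSMul.eq_of_smul_eq_smul (M := G) (α := Ω)
    intro y
    rw [hcon y]
    exact (one_smul _ _).symm
  have htty : (t : G) • (t : G) • y = y := by
    rw [← mul_smul]
    have : ((t : G) * (t : G)) = 1 := congrArg Subtype.val htt
    rw [this, one_smul]
  refine not_swap hodd u t.2 (y := y) (z := (t : G) • y) ?_ ?_ hy.symm rfl htty
  · rintro ⟨i, rfl⟩
    exact hy (mem_pt.1 t.2 i)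
  · rintro ⟨i, hi⟩
    apply hy
    rw [← hi, mem_pt.1 t.2 i] at htty
    rw [← hi, htty]

/-- nontrivial normal subgroups are transitive -/
theorem normal_trans {s : ℕ} (hall : ∀ (w : Fin (s + 2) ↪ Ω) (σ : Equiv.Perm (Fin (s + 2))),
      σ ∈ alternatingGroup (Fin (s + 2)) → ∃ g : G, ∀ i, g • w i = w (σ i))
    (hh : Homog G Ω (s + 2)) (u : Fin s ↪ Ω) (N : Subgroup (ptStab G u)) (hN : N.Normal)
    (hN1 : N ≠ ⊥) {x y : Ω} (hx : x ∉ Set.range u) (hy : y ∉ Set.range u) :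
    ∃ n ∈ N, (n : G) • x = y := by
  by_cases hxy : x = y
  · exact ⟨1, N.one_mem, by rw [hxy]; exact one_smul _ _⟩
  obtain ⟨n, hn, hn1⟩ : ∃ n : ptStab G u, n ∈ N ∧ n ≠ 1 := by
    obtain ⟨n, hn⟩ := (Subgroup.ne_bot_iff_exists_ne_one).1 hN1
    exact ⟨n, n.2, fun h => hn (Subtype.ext h)⟩
  obtain ⟨a, ha⟩ : ∃ a : Ω, (n : G) • a ≠ a := by
    by_contra hcon
    push Not at hcon
    apply hn1
    apply Subtype.ext
    apply FaithfulSMul.eq_of_smul_eq_smul (M := G) (α := Ω)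
    intro y
    rw [hcon y]
    exact (one_smul _ _).symm
  have ha' : a ∉ Set.range u := by
    rintro ⟨i, rfl⟩
    exact ha (mem_pt.1 n.2 i)
  have hb' : (n : G) • a ∉ Set.range u := by
    rintro ⟨i, hi⟩
    apply ha
    have h1 : (n : G) • u i = u i := mem_pt.1 n.2 i
    rw [← hi]
    have h2 : (n : G) • a = (n : G) • u i := by rw [h1, hi]
    rw [MulAction.injective _ h2]
  obtain ⟨g, hg, h | h⟩ := hom2 hall hh u ha' hb' ha.symm hx hy hxy
  · refine ⟨⟨g, hg⟩ * n * ⟨g, hg⟩⁻¹, hN.conj_mem n hn ⟨g, hg⟩, ?_⟩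
    change (g * (n : G) * g⁻¹) • x = y
    rw [mul_smul, mul_smul, ← h.1, inv_smul_smul, h.2]
  · refine ⟨(⟨g, hg⟩ * n * ⟨g, hg⟩⁻¹)⁻¹, N.inv_mem (hN.conj_mem n hn ⟨g, hg⟩), ?_⟩
    change (g * (n : G) * g⁻¹)⁻¹ • x = y
    rw [inv_smul_eq_iff, mul_smul, mul_smul, ← h.1, inv_smul_smul, h.2]

end

end Cfsg.Agent.H74.LW
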