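import Mathlib

/-!
Witt's lemma on transitive extensions.
-/

set_option autoImplicit false
set_option linter.unusedSectionVars false

namespace Cfsg.Agent.H74.WittExt

open MulAction

/-- the double coset step -/
theorem step {Γ : Type*} [Group Γ] (A B : Subgroup Γ) (a b : Γ) (hAB : A ≤ B) (ha : a ∈ B)
    (hD : ∀ g ∈ B, g ∈ A ∨ ∃ c ∈ A, ∃ d ∈ A, g = c * a * d) (hb : b ^ 2 ∈ A)
    (hN : ∀ g ∈ A, b * g * b⁻¹ ∈ A) (hbr : (a * b) ^ 3 ∈ B) :
    ∀ g ∈ Subgroup.closure ((B : Set Γ) ∪ {b}), g ∈ B ∨ ∃ c ∈ B, ∃ d ∈ B, g = c * b * d := by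
  have hbB : b ^ 2 ∈ B := hAB hb
  have hinv : b⁻¹ = b * (b ^ 2)⁻¹ := by rw [pow_two]; group
  have key : ∀ l ∈ B, b * l * b ∈ B ∨ ∃ c ∈ B, ∃ d ∈ B, b * l * b = c * b * d := by
    intro l hl
    rcases hD l hl with h | ⟨c, hc, d, hd, rfl⟩
    · left
      have : b * l * b = (b * l * b⁻¹) * b ^ 2 := by rw [pow_two]; group
      rw [this]
      exact B.mul_mem (hAB (hN l h)) hbB
    · right
      refine ⟨(b * c * b⁻¹) * (a⁻¹ * (a * b) ^ 3), B.mul_mem (hAB (hN c hc))
        (B.mul_mem (B.inv_mem ha) hbr), (b ^ 2)⁻¹ * a⁻¹ * ((b ^ 2)⁻¹ * (b * d * b⁻¹) * b ^ 2),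
        B.mul_mem (B.mul_mem (B.inv_mem hbB) (B.inv_mem ha))
          (B.mul_mem (B.mul_mem (B.inv_mem hbB) (hAB (hN d hd))) hbB), ?_⟩
      simp only [pow_succ, pow_zero, one_mul]
      group
  intro g hg
  induction hg using Subgroup.closure_induction with
  | mem x hx =>
    rcases hx with hx | hx
    · exact Or.inl hx
    · rw [Set.mem_singleton_iff] at hx
      subst hx
      exact Or.inr ⟨1, B.one_mem, 1, B.one_mem, by group⟩
  | one => exact Or.inl B.one_mem
  | mul x y _ _ hx hy =>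
    rcases hx with hx | ⟨c, hc, d, hd, rfl⟩
    · rcases hy with hy | ⟨c', hc', d', hd', rfl⟩
      · exact Or.inl (B.mul_mem hx hy)
      · exact Or.inr ⟨x * c', B.mul_mem hx hc', d', hd', by group⟩
    · rcases hy with hy | ⟨c', hc', d', hd', rfl⟩
      · exact Or.inr ⟨c, hc, d * y, B.mul_mem hd hy, by group⟩
      · have e : c * b * d * (c' * b * d') = c * (b * (d * c') * b) * d' := by group
        rw [e]
        rcases key (d * c') (B.mul_mem hd hc') with h | ⟨p, hp, r, hr, h⟩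
        · exact Or.inl (B.mul_mem (B.mul_mem hc h) hd')
        · rw [h]
          exact Or.inr ⟨c * p, B.mul_mem hc hp, r * d', B.mul_mem hr hd', by group⟩
  | inv x _ hx =>
    rcases hx with hx | ⟨c, hc, d, hd, rfl⟩
    · exact Or.inl (B.inv_mem hx)
    · refine Or.inr ⟨d⁻¹, B.inv_mem hd, (b ^ 2)⁻¹ * c⁻¹,
        B.mul_mem (B.inv_mem hbB) (B.inv_mem hc), ?_⟩
      rw [mul_inv_rev, mul_inv_rev, ← mul_assoc, ← mul_assoc, mul_assoc d⁻¹ b, ← hinv]

variable {α : Type*} [Fintype α] [DecidableEq α]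

/-- the chain of subgroups -/
def M (q : ℕ → α) (G : Subgroup (Equiv.Perm α)) (s : ℕ → Equiv.Perm α) :
    ℕ → Subgroup (Equiv.Perm α)
  | 0 => G ⊓ stabilizer (Equiv.Perm α) (q 2)
  | 1 => G
  | (j + 2) => Subgroup.closure ((M q G s (j + 1) : Set (Equiv.Perm α)) ∪ {s (j + 2)})

theorem M_le (q : ℕ → α) (G : Subgroup (Equiv.Perm α)) (s : ℕ → Equiv.Perm α) (j : ℕ) :
    M q G s j ≤ M q G s (j + 1) := by
  cases j with
  | zero => exact inf_le_left
  | succ j => exact fun x hx => Subgroup.subset_closure (Or.inl hx)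

theorem M_zero_le (q : ℕ → α) (G : Subgroup (Equiv.Perm α)) (s : ℕ → Equiv.Perm α) (j : ℕ) :
    M q G s 0 ≤ M q G s j := by
  induction j with
  | zero => exact le_rfl
  | succ j ih => exact ih.trans (M_le q G s j)

theorem M_one_le (q : ℕ → α) (G : Subgroup (Equiv.Perm α)) (s : ℕ → Equiv.Perm α) (j : ℕ) :
    G ≤ M q G s (j + 1) := by
  induction j with
  | zero => exact le_rfl
  | succ j ih => exact ih.trans (M_le q G s (j + 1))

theorem mem_M (q : ℕ → α) (G : Subgroup (Equiv.Perm α)) (s : ℕ → Equiv.Perm α)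
    (hs1 : s 1 ∈ G) (j : ℕ) : s (j + 1) ∈ M q G s (j + 1) := by
  cases j with
  | zero => exact hs1
  | succ j => exact Subgroup.subset_closure (Or.inr rfl)

theorem M_eq (q : ℕ → α) (G : Subgroup (Equiv.Perm α)) (s : ℕ → Equiv.Perm α) (j : ℕ) :
    M q G s (j + 1) = Subgroup.closure ((G : Set (Equiv.Perm α)) ∪
      {x | ∃ i : ℕ, 2 ≤ i ∧ i + 1 ≤ j + 2 ∧ x = s i}) := by
  induction j with
  | zero =>
    apply le_antisymm
    · exact fun x hx => Subgroup.subset_closure (Or.inl hx)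
    · rw [Subgroup.closure_le]
      rintro x (hx | ⟨i, h1, h2, -⟩)
      · exact hx
      · omega
  | succ j ih =>
    apply le_antisymm
    · change Subgroup.closure _ ≤ _
      rw [Subgroup.closure_le]
      rintro x (hx | hx)
      · rw [SetLike.mem_coe, ih] at hx
        refine Subgroup.closure_mono ?_ hx
        rintro y (hy | ⟨i, h1, h2, h3⟩)
        · exact Or.inl hy
        · exact Or.inr ⟨i, h1, by omega, h3⟩
      · rw [Set.mem_singleton_iff] at hx
        exact Subgroup.subset_closure (Or.inr ⟨j + 2, by omega, by omega, hx⟩)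
    · rw [Subgroup.closure_le]
      rintro x (hx | ⟨i, h1, h2, rfl⟩)
      · exact M_one_le q G s _ hx
      · by_cases hi : i = j + 2
        · subst hi
          exact Subgroup.subset_closure (Or.inr rfl)
        · apply M_le q G s (j + 1)
          rw [ih]
          exact Subgroup.subset_closure (Or.inr ⟨i, h1, by omega, rfl⟩)

section
variable {t : ℕ} {q : ℕ → α} (hq : ∀ i j : ℕ, 1 ≤ i → i ≤ t → 1 ≤ j → j ≤ t → q i = q j → i = j)
  {G : Subgroup (Equiv.Perm α)} (hfix : ∀ g ∈ G, ∀ i : ℕ, 3 ≤ i → i ≤ t → g (q i) = q i)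
  (h2 : ∀ a b c d : α, (∀ i, 3 ≤ i → i ≤ t → a ≠ q i ∧ b ≠ q i ∧ c ≠ q i ∧ d ≠ q i) →
    a ≠ b → c ≠ d → ∃ g ∈ G, g a = c ∧ g b = d) {s : ℕ → Equiv.Perm α} (hs1 : s 1 ∈ G)
  (hs1q : s 1 (q 1) = q 2 ∧ s 1 (q 2) = q 1)
  (hsq : ∀ i : ℕ, 2 ≤ i → i + 1 ≤ t → s i (q i) = q (i + 1) ∧ s i (q (i + 1)) = q i ∧
    ∀ j : ℕ, 1 ≤ j → j ≤ t → j ≠ i → j ≠ i + 1 → s i (q j) = q j)
  {H : Subgroup (Equiv.Perm α)} (hH : H = G ⊓ stabilizer (Equiv.Perm α) (q 1) ⊓
    stabilizer (Equiv.Perm α) (q 2))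
  (hsq2 : ∀ i : ℕ, 1 ≤ i → i + 1 ≤ t → s i ^ 2 ∈ H)
  (hbraid : ∀ i : ℕ, 1 ≤ i → i + 2 ≤ t → (s i * s (i + 1)) ^ 3 ∈ H)
  (hcomm : ∀ i j : ℕ, 1 ≤ i → i + 2 ≤ j → j + 1 ≤ t → (s i * s j) ^ 2 ∈ H ∧ (s j * s i) ^ 2 ∈ H)
  (hnorm : ∀ i : ℕ, 2 ≤ i → i + 1 ≤ t → ∀ g ∈ G ⊓ stabilizer (Equiv.Perm α) (q 2),
    s i * g * (s i)⁻¹ ∈ G ⊓ stabilizer (Equiv.Perm α) (q 2))

include hH in
theorem H_le : H ≤ M q G s 0 := by
  rw [hH]
  rintro x ⟨⟨h1, h2⟩, h3⟩
  exact ⟨h1, h3⟩

include hq hfix h2 hs1 hs1q in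
theorem D_zero (ht : 2 ≤ t) : ∀ g ∈ M q G s 1, g ∈ M q G s 0 ∨
    ∃ c ∈ M q G s 0, ∃ d ∈ M q G s 0, g = c * s 1 * d := by
  intro g hg
  have hg' : g ∈ G := hg
  by_cases hgq : g (q 2) = q 2
  · exact Or.inl ⟨hg', hgq⟩
  · right
    have hne : ∀ i j : ℕ, 1 ≤ i → i ≤ t → 1 ≤ j → j ≤ t → i ≠ j → q i ≠ q j :=
      fun i j h1 h2 h3 h4 h5 h6 => h5 (hq i j h1 h2 h3 h4 h6)
    obtain ⟨a, ha, ha2, ha1⟩ := h2 (q 2) (q 1) (q 2) (g (q 2)) (by
      intro i hi hit
      refine ⟨hne 2 i (by omega) ht (by omega) hit (by omega),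
        hne 1 i (by omega) (by omega) (by omega) hit (by omega),
        hne 2 i (by omega) ht (by omega) hit (by omega), ?_⟩
      intro h
      rw [← hfix g hg' i hi hit] at h
      exact hne 2 i (by omega) ht (by omega) hit (by omega) (g.injective h))
      (hne 2 1 (by omega) ht (by omega) (by omega) (by omega)) (fun h => hgq h.symm)
    refine ⟨a, ⟨ha, ha2⟩, (s 1)⁻¹ * a⁻¹ * g, ⟨G.mul_mem (G.mul_mem (G.inv_mem hs1)
      (G.inv_mem ha)) hg', ?_⟩, by group⟩
    change ((s 1)⁻¹ * a⁻¹ * g) (q 2) = q 2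
    have h3 : a⁻¹ (g (q 2)) = q 1 := by rw [← ha1]; simp
    rw [Equiv.Perm.mul_apply, Equiv.Perm.mul_apply, h3, Equiv.Perm.inv_eq_iff_eq]
    exact hs1q.2.symm

include hq hfix h2 hs1 hs1q hH hsq2 hcomm hnorm in
theorem N_all (ht : 2 ≤ t) (j : ℕ) : ∀ i, j + 2 ≤ i → i + 1 ≤ t → ∀ g ∈ M q G s j,
    s i * g * (s i)⁻¹ ∈ M q G s j := by
  have hconj : ∀ (i j k : ℕ), 1 ≤ j → j + 2 ≤ i → i + 1 ≤ t → s j ∈ M q G s k →
      s i * s j * (s i)⁻¹ ∈ M q G s k := by
    intro i j k hj hji hi hmem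
    have e : s i * s j * (s i)⁻¹ = (s i * s j) ^ 2 * (s j)⁻¹ * (s i ^ 2)⁻¹ := by
      simp only [pow_two]
      group
    rw [e]
    have h1 := M_zero_le q G s k (H_le hH (hcomm j i hj hji hi).2)
    have h3 := M_zero_le q G s k (H_le hH (hsq2 i (by omega) hi))
    exact Subgroup.mul_mem _ (Subgroup.mul_mem _ h1 (Subgroup.inv_mem _ hmem))
      (Subgroup.inv_mem _ h3)
  induction j with
  | zero => exact fun i hi hit g hg => hnorm i hi hit g hg
  | succ j ih =>
    cases j with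
    | zero =>
      intro i hi hit g hg
      rcases D_zero hq hfix h2 hs1 hs1q ht g hg with h | ⟨c, hc, d, hd, rfl⟩
      · exact M_le q G s 0 (ih i (by omega) hit g h)
      · have e : s i * (c * s 1 * d) * (s i)⁻¹ =
          (s i * c * (s i)⁻¹) * (s i * s 1 * (s i)⁻¹) * (s i * d * (s i)⁻¹) := by group
        rw [e]
        exact Subgroup.mul_mem _ (Subgroup.mul_mem _
          (M_le q G s 0 (ih i (by omega) hit c hc)) (hconj i 1 1 le_rfl hi hit hs1))
          (M_le q G s 0 (ih i (by omega) hit d hd))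
    | succ j =>
      intro i hi hit g hg
      have hg' : g ∈ Subgroup.closure ((M q G s (j + 1) : Set (Equiv.Perm α)) ∪ {s (j + 2)}) := hg
      induction hg' using Subgroup.closure_induction with
      | mem x hx =>
        rcases hx with hx | hx
        · exact M_le q G s _ (ih i (by omega) hit x hx)
        · rw [Set.mem_singleton_iff] at hx
          subst hx
          exact hconj i (j + 2) (j + 2) (by omega) (by omega) hit (mem_M q G s hs1 (j + 1))
      | one =>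
        rw [mul_one, mul_inv_cancel]
        exact Subgroup.one_mem _
      | mul x y _ _ hx hy =>
        have e : s i * (x * y) * (s i)⁻¹ = (s i * x * (s i)⁻¹) * (s i * y * (s i)⁻¹) := by group
        rw [e]
        exact Subgroup.mul_mem _ (hx (by assumption)) (hy (by assumption))
      | inv x _ hx =>
        have e : s i * x⁻¹ * (s i)⁻¹ = (s i * x * (s i)⁻¹)⁻¹ := by group
        rw [e]
        exact Subgroup.inv_mem _ (hx (by assumption))

include hq hfix h2 hs1 hs1q hH hsq2 hbraid hcomm hnorm in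
theorem D_all (ht : 2 ≤ t) (j : ℕ) (hj : j + 2 ≤ t) : ∀ g ∈ M q G s (j + 1), g ∈ M q G s j ∨
    ∃ c ∈ M q G s j, ∃ d ∈ M q G s j, g = c * s (j + 1) * d := by
  induction j with
  | zero => exact D_zero hq hfix h2 hs1 hs1q ht
  | succ j ih =>
    exact step (M q G s j) (M q G s (j + 1)) (s (j + 1)) (s (j + 2)) (M_le q G s j)
      (mem_M q G s hs1 j) (ih (by omega))
      (M_zero_le q G s j (H_le hH (hsq2 (j + 2) (by omega) hj)))
      (N_all hq hfix h2 hs1 hs1q hH hsq2 hcomm hnorm ht j (j + 2) le_rfl hj)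
      (M_zero_le q G s (j + 1) (H_le hH (hbraid (j + 1) (by omega) hj)))

include hfix hsq in
theorem F_all (j : ℕ) (hj : j + 2 ≤ t) : ∀ g ∈ M q G s (j + 1), ∀ i, j + 3 ≤ i → i ≤ t →
    g (q i) = q i := by
  induction j with
  | zero => exact fun g hg i hi hit => hfix g hg i hi hit
  | succ j ih =>
    intro g hg
    have hg' : g ∈ Subgroup.closure ((M q G s (j + 1) : Set (Equiv.Perm α)) ∪ {s (j + 2)}) := hg
    clear hg
    induction hg' using Subgroup.closure_induction with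
    | mem x hx =>
      rcases hx with hx | hx
      · exact fun i hi hit => ih (by omega) x hx i (by omega) hit
      · rw [Set.mem_singleton_iff] at hx
        subst hx
        intro i hi hit
        exact (hsq (j + 2) (by omega) (by omega)).2.2 i (by omega) hit (by omega) (by omega)
    | one => intro i _ _; rfl
    | mul x y _ _ hx hy =>
      intro i hi hit
      rw [Equiv.Perm.mul_apply, hy i hi hit, hx i hi hit]
    | inv x _ hx =>
      intro i hi hit
      rw [Equiv.Perm.inv_eq_iff_eq, hx i hi hit]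

include hq hfix h2 hs1 hs1q hsq hH hsq2 hbraid hcomm hnorm in
theorem E_all (ht : 2 ≤ t) (j : ℕ) (hj : j + 2 ≤ t) : ∀ g ∈ M q G s (j + 1),
    (∀ i, 1 ≤ i → i ≤ t → g (q i) = q i) → g ∈ H := by
  induction j with
  | zero =>
    intro g hg hgq
    rw [hH]
    exact ⟨⟨hg, hgq 1 le_rfl (by omega)⟩, hgq 2 (by omega) ht⟩
  | succ j ih =>
    intro g hg hgq
    rcases D_all hq hfix h2 hs1 hs1q hH hsq2 hbraid hcomm hnorm ht (j + 1) hj g hg with
      h | ⟨c, hc, d, hd, rfl⟩
    · exact ih (by omega) g h hgq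
    · exfalso
      have h1 := hgq (j + 3) (by omega) (by omega)
      have h3 : d (q (j + 3)) = q (j + 3) :=
        F_all hfix hsq j (by omega) d hd (j + 3) (by omega) (by omega)
      have h4 : c (q (j + 3)) = q (j + 3) :=
        F_all hfix hsq j (by omega) c hc (j + 3) (by omega) (by omega)
      have h5 := (hsq (j + 2) (by omega) (by omega)).2.1
      rw [Equiv.Perm.mul_apply, Equiv.Perm.mul_apply, h3] at h1
      have h6 : c (s (j + 2) (q (j + 3))) = c (q (j + 3)) := by rw [h4]; exact h1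
      have h7 := c.injective h6
      have h8 : s (j + 2) (q (j + 3)) = q (j + 2) := h5
      rw [h8] at h7
      have := hq (j + 2) (j + 3) (by omega) (by omega) (by omega) (by omega) h7
      omega

include hq h2 hsq in
/-- every point not among the last ones can be moved to the last allowed one -/
theorem P_all (ht : 2 ≤ t) (j : ℕ) (hj : j + 2 ≤ t) (a : α)
    (ha : ∀ i, j + 3 ≤ i → i ≤ t → a ≠ q i) : ∃ g ∈ M q G s (j + 1), g a = q (j + 2) := by
  have hne : ∀ i j : ℕ, 1 ≤ i → i ≤ t → 1 ≤ j → j ≤ t → i ≠ j → q i ≠ q j :=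
    fun i j h1 h2 h3 h4 h5 h6 => h5 (hq i j h1 h2 h3 h4 h6)
  induction j with
  | zero =>
    by_cases h1 : a = q 2
    · exact ⟨1, Subgroup.one_mem _, h1⟩
    · obtain ⟨g, hg, hga, -⟩ := h2 a (q 2) (q 2) (q 1) (by
        intro i hi hit
        exact ⟨ha i hi hit, hne 2 i (by omega) ht (by omega) hit (by omega),
          hne 2 i (by omega) ht (by omega) hit (by omega),
          hne 1 i (by omega) (by omega) (by omega) hit (by omega)⟩) h1
        (hne 2 1 (by omega) ht (by omega) (by omega) (by omega))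
      exact ⟨g, hg, hga⟩
  | succ j ih =>
    by_cases h1 : a = q (j + 3)
    · exact ⟨1, Subgroup.one_mem _, h1⟩
    · obtain ⟨g, hg, hga⟩ := ih (by omega) (by
        intro i hi hit h
        by_cases hi' : i = j + 3
        · exact h1 (by rw [h, hi'])
        · exact ha i (by omega) hit h)
      refine ⟨s (j + 2) * g, Subgroup.mul_mem _ (Subgroup.subset_closure (Or.inr rfl))
        (M_le q G s _ hg), ?_⟩
      rw [Equiv.Perm.mul_apply, hga]
      exact (hsq (j + 2) (by omega) (by omega)).1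

include hq hfix h2 hsq in
theorem T_all (ht : 2 ≤ t) (j : ℕ) (hj : j + 2 ≤ t) (x y : Fin (j + 2) ↪ α)
    (hx : ∀ i, j + 3 ≤ i → i ≤ t → ∀ m, x m ≠ q i) (hy : ∀ i, j + 3 ≤ i → i ≤ t → ∀ m, y m ≠ q i) :
    ∃ g ∈ M q G s (j + 1), ∀ m, g (x m) = y m := by
  induction j with
  | zero =>
    obtain ⟨g, hg, h0, h1⟩ := h2 (x 0) (x 1) (y 0) (y 1) (by
      intro i hi hit
      exact ⟨hx i hi hit 0, hx i hi hit 1, hy i hi hit 0, hy i hi hit 1⟩)
      (fun h => absurd (x.injective h) (by decide)) (fun h => absurd (y.injective h) (by decide))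
    refine ⟨g, hg, fun m => ?_⟩
    fin_cases m
    · exact h0
    · exact h1
  | succ j ih =>
    obtain ⟨g, hg, hgx⟩ := P_all (G := G) (s := s) hq h2 hsq ht (j + 1) hj (x (Fin.last _))
      (fun i hi hit => hx i hi hit _)
    obtain ⟨h, hh, hhy⟩ := P_all (G := G) (s := s) hq h2 hsq ht (j + 1) hj (y (Fin.last _))
      (fun i hi hit => hy i hi hit _)
    have hav : ∀ (k : Equiv.Perm α) (z : Fin (j + 3) ↪ α), k ∈ M q G s (j + 2) →
        k (z (Fin.last _)) = q (j + 3) → (∀ i, j + 4 ≤ i → i ≤ t → ∀ m, z m ≠ q i) →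
        ∀ i, j + 3 ≤ i → i ≤ t → ∀ m : Fin (j + 2), k (z m.castSucc) ≠ q i := by
      intro k z hk hkz hz i hi hit m hm
      by_cases hi' : i = j + 3
      · subst hi'
        rw [← hkz] at hm
        exact (Fin.castSucc_lt_last m).ne (z.injective (k.injective hm))
      · have h3 := F_all hfix hsq (j + 1) hj k hk i (by omega) hit
        rw [← h3] at hm
        exact hz i (by omega) hit _ (k.injective hm)
    obtain ⟨e, he, hexy⟩ := ih (by omega)
      ((Fin.castSuccEmb.trans x).trans g.toEmbedding) ((Fin.castSuccEmb.trans y).trans h.toEmbedding)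
      (fun i hi hit m => hav g x hg hgx hx i hi hit m)
      (fun i hi hit m => hav h y hh hhy hy i hi hit m)
    refine ⟨h⁻¹ * e * g, Subgroup.mul_mem _ (Subgroup.mul_mem _ (Subgroup.inv_mem _ hh)
      (M_le q G s _ he)) hg, fun m => ?_⟩
    rw [Equiv.Perm.mul_apply, Equiv.Perm.mul_apply, Equiv.Perm.inv_eq_iff_eq]
    induction m using Fin.lastCases with
    | last =>
      rw [hgx, hhy]
      exact F_all hfix hsq j (by omega) e he (j + 3) (by omega) (by omega)
    | cast m => exact hexy m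

end

end Cfsg.Agent.H74.WittExt
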